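import Mathlib
import Cfsg.Prelude.Def_JComponents

/-!
# Existence of a `J(T)`-component: the clause `|W_K| = 4` (pieces JX-*)

`K = O₂(K)⟨x⟩` with `x` of order 3, `Q` a 2-group normalized by `K` and normalizing `K`,
`O₂(K) ≤ Q ≤ T`, `A` an elementary abelian subgroup of largest order of `T` with
`|A : A ∩ Q| ≤ 2` and `a ∈ A` normalizing `K` and inverting `x` modulo `Q`.
Then `W_K = [Ω₁(Z(O₂(K))), K]` is trivial or a four-group.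

Route (`W := W_K`, `A₀ := A ∩ Q`).  `x` acts on `W` without fixed points, `a` inverts the action
of `x` on `W`, and `A₀` commutes with the actions of `x` and `a` on `W` (ACT).
SQ: an `x`- and `a`-invariant subgroup `Y` of `W` has `|Y| = |C_Y(a)|²`, `Y = C_Y(a) · x C_Y(a) x⁻¹`.
`Y := C_W(A₀)`: `Y A₀` is elementary abelian in `T`, so `|Y| ≤ 2 |Y ∩ A₀| ≤ 2 |C_Y(a)|`, hence
`|C_Y(a)| ≤ 2` and `|W ∩ A| ≤ 2`.  `W C_A(W)` is elementary abelian in `T`: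
`|W| ≤ 2 |A : C_A(W)| ≤ 4 |A₀ : C_{A₀}(W)|`.  FUN on `U⁺ := C_W(a)` (fixed points of `A₀` on it:
`C_Y(a)`, at most 2; kernel `C_{A₀}(W)` by SQ): `2 |A₀ : C_{A₀}(W)| ≤ |U⁺|`.  So
`|U⁺|² = |W| ≤ 2 |U⁺|` (CNT).
-/

set_option autoImplicit false
open Cfsg

namespace Cfsg.Agent.H82.Jx

universe u

/-- SQ: an elementary abelian 2-group `Y` with an automorphism `x` of order dividing 3 without
fixed points and an involutory automorphism `a` inverting `x` (all induced by conjugation) has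
`|Y| = |C_Y(a)|²` and `Y = C_Y(a) · x C_Y(a) x⁻¹`. -/
def StSq : Prop := ∀ {G : Type u} [Group G] [Finite G] (Y : Subgroup G) (a x : G),
  (∀ y ∈ Y, ∀ z ∈ Y, y * z = z * y) → (∀ y ∈ Y, y * y = 1) →
  (∀ y ∈ Y, a * y * a⁻¹ ∈ Y) → (∀ y ∈ Y, x * y * x⁻¹ ∈ Y) →
  (∀ y ∈ Y, a * (a * y * a⁻¹) * a⁻¹ = y) →
  (∀ y ∈ Y, x * (x * (x * y * x⁻¹) * x⁻¹) * x⁻¹ = y) →
  (∀ y ∈ Y, a * (x * y * x⁻¹) * a⁻¹ = x⁻¹ * (a * y * a⁻¹) * x) →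
  (∀ y ∈ Y, x * y * x⁻¹ = y → y = 1) →
  Nat.card ↥Y = Nat.card ↥(Y ⊓ Subgroup.centralizer ({a} : Set G)) ^ 2 ∧
    ∀ y ∈ Y, ∃ u ∈ Y ⊓ Subgroup.centralizer ({a} : Set G),
      ∃ v ∈ Y ⊓ Subgroup.centralizer ({a} : Set G), y = u * (x * v * x⁻¹)

/-- FUN: an abelian 2-group `B` acting (by conjugation) on a nontrivial elementary abelian
2-group `U` with at most 2 fixed points satisfies `2 |B : C_B(U)| ≤ |U|`. -/
def StFun : Prop := ∀ {G : Type u} [Group G] [Finite G] (B U : Subgroup G),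
  (∀ b ∈ B, ∀ c ∈ B, b * c = c * b) → IsPGroup 2 ↥B →
  (∀ u ∈ U, ∀ v ∈ U, u * v = v * u) → (∀ u ∈ U, u * u = 1) →
  (∀ b ∈ B, ∀ u ∈ U, b * u * b⁻¹ ∈ U) →
  Nat.card ↥(U ⊓ Subgroup.centralizer (B : Set G)) ≤ 2 → U ≠ ⊥ →
  2 * (B ⊓ Subgroup.centralizer (U : Set G)).relIndex B ≤ Nat.card ↥U

/-- The action facts on `W = W_K`. -/
structure WFacts {G : Type u} [Group G] (Q A W : Subgroup G) (a x : G) : Prop where
  hWQ : W ≤ Q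
  hWc : ∀ u ∈ W, ∀ v ∈ W, u * v = v * u
  hW2 : ∀ u ∈ W, u * u = 1
  hxW : ∀ w ∈ W, x * w * x⁻¹ ∈ W
  haW : ∀ w ∈ W, a * w * a⁻¹ ∈ W
  hbW : ∀ b ∈ A ⊓ Q, ∀ w ∈ W, b * w * b⁻¹ ∈ W
  hx3 : ∀ w ∈ W, x * (x * (x * w * x⁻¹) * x⁻¹) * x⁻¹ = w
  hxf : ∀ w ∈ W, x * w * x⁻¹ = w → w = 1
  hax : ∀ w ∈ W, a * (x * w * x⁻¹) * a⁻¹ = x⁻¹ * (a * w * a⁻¹) * x
  hbx : ∀ b ∈ A ⊓ Q, ∀ w ∈ W, b * (x * w * x⁻¹) * b⁻¹ = x * (b * w * b⁻¹) * x⁻¹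

/-- ACT: the action facts hold for `W = wOf K`. -/
def StAct : Prop := ∀ {G : Type u} [Group G] [Finite G] (Q A K : Subgroup G) (a x : G),
  IsPGroup 2 ↥Q →
  K ≤ Subgroup.normalizer (Q : Set G) → Q ≤ Subgroup.normalizer (K : Set G) →
  pCoreOf 2 K ≤ Q →
  a ∈ Subgroup.normalizer (K : Set G) →
  x ∈ K → orderOf x = 3 → a * x * a⁻¹ * x ∈ Q →
  K = pCoreOf 2 K ⊔ Subgroup.zpowers x →
  WFacts Q A (wOf K) a x

/-- CNT: the counting argument. -/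
def StCnt : Prop := ∀ {G : Type u} [Group G] [Finite G] (T Q A W : Subgroup G) (a x : G),
  Q ≤ T → A ≤ T → IsElementaryAbelian 2 A →
  (∀ B : Subgroup G, B ≤ T → IsElementaryAbelian 2 B → Nat.card ↥B ≤ Nat.card ↥A) →
  a ∈ A → Nat.card ↥A ≤ 2 * Nat.card ↥(A ⊓ Q) →
  WFacts Q A W a x →
  W = ⊥ ∨ Nat.card ↥W = 4

/-- W4: the clause `|W_K| = 4` (up to `W_K = 1`). -/
def StW4 : Prop := ∀ {G : Type u} [Group G] [Finite G] (T Q A K : Subgroup G) (a x : G),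
  IsPGroup 2 ↥Q → Q ≤ T →
  K ≤ Subgroup.normalizer (Q : Set G) → Q ≤ Subgroup.normalizer (K : Set G) →
  pCoreOf 2 K ≤ Q →
  A ≤ T → IsElementaryAbelian 2 A →
  (∀ B : Subgroup G, B ≤ T → IsElementaryAbelian 2 B → Nat.card ↥B ≤ Nat.card ↥A) →
  a ∈ A → a ∈ Subgroup.normalizer (K : Set G) →
  x ∈ K → orderOf x = 3 → a * x * a⁻¹ * x ∈ Q →
  Nat.card ↥A ≤ 2 * Nat.card ↥(A ⊓ Q) →
  K = pCoreOf 2 K ⊔ Subgroup.zpowers x →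
  (wOf K = ⊥ ∨ Nat.card ↥(wOf K) = 4) ∧ ∀ w ∈ wOf K, w * w = 1

/-- W4 from the pieces. -/
theorem w4_of (hAct : StAct.{u}) (hCnt : StSq.{u} → StFun.{u} → StCnt.{u})
    (hSq : StSq.{u}) (hFun : StFun.{u}) : StW4.{u} := by
  intro G _ _ T Q A K a x hQ2 hQT hKQ hQK hPQ hAT hAel hAmax haA haK hxK hx3 hax hidx hKgen
  have F := hAct Q A K a x hQ2 hKQ hQK hPQ haK hxK hx3 hax hKgen
  exact ⟨hCnt hSq hFun T Q A (wOf K) a x hQT hAT hAel hAmax haA hidx F, F.hW2⟩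

end Cfsg.Agent.H82.Jx
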