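import Cfsg.Agent.H82.JxCnt

/-! JX-CORE (helper82): `[Ω₁(Z(P)), K]` is trivial or a four-group, for `P ⊴ K` of index 3,
`P ≤ T`, `A` a largest elementary abelian subgroup of `T` normalizing `K` and `P`, with some
`a ∈ A` inverting `K / P`.  No auxiliary `Q`. -/

set_option autoImplicit false
open Cfsg
open scoped commutatorElement

namespace Cfsg.Agent.H82.Jx

universe u

theorem core_cosets {G : Type u} [Group G] [Finite G] (K P : Subgroup G)
    (hPn : ∀ k ∈ K, ∀ p ∈ P, k * p * k⁻¹ ∈ P)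
    (h3 : P.relIndex K = 3) (x : G) (hxK : x ∈ K) (hxP : x ∉ P) :
    (∀ k ∈ K, k * k * k ∈ P) ∧ ∀ k ∈ K, k ∈ P ∨ k * x⁻¹ ∈ P ∨ k * x ∈ P := by
  haveI : (P.subgroupOf K).Normal := by
    constructor
    intro n hn g
    rw [Subgroup.mem_subgroupOf] at hn ⊢
    simpa using hPn g.1 g.2 n.1 hn
  have hcard : Nat.card (↥K ⧸ P.subgroupOf K) = 3 := h3
  haveI : Fact (Nat.Prime 3) := ⟨by norm_num⟩
  have hx1 : (QuotientGroup.mk (⟨x, hxK⟩ : ↥K) : ↥K ⧸ P.subgroupOf K) ≠ 1 := by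
    intro h
    rw [QuotientGroup.eq_one_iff] at h
    exact hxP h
  have hpow : ∀ q : ↥K ⧸ P.subgroupOf K, q ^ 3 = 1 := by
    intro q
    have := pow_card_eq_one' (G := ↥K ⧸ P.subgroupOf K) (x := q)
    rwa [hcard] at this
  constructor
  · intro k hk
    have h1 := hpow (QuotientGroup.mk ⟨k, hk⟩)
    rw [← QuotientGroup.mk_pow, QuotientGroup.eq_one_iff] at h1
    have h2 : ((⟨k, hk⟩ : ↥K) ^ 3 : ↥K).1 ∈ P := h1
    have h3' : ((⟨k, hk⟩ : ↥K) ^ 3 : ↥K).1 = k * k * k := by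
      simp [pow_succ]
    rwa [h3'] at h2
  · intro k hk
    have htop := zpowers_eq_top_of_prime_card (G := ↥K ⧸ P.subgroupOf K) hcard hx1
    have hmem : (QuotientGroup.mk ⟨k, hk⟩ : ↥K ⧸ P.subgroupOf K) ∈
        Subgroup.zpowers (QuotientGroup.mk (⟨x, hxK⟩ : ↥K) : ↥K ⧸ P.subgroupOf K) := by
      rw [htop]; trivial
    obtain ⟨n, hn⟩ := Subgroup.mem_zpowers_iff.mp hmem
    have h3z : (QuotientGroup.mk (⟨x, hxK⟩ : ↥K) : ↥K ⧸ P.subgroupOf K) ^ (3 : ℤ) = 1 := by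
      have := hpow (QuotientGroup.mk (⟨x, hxK⟩ : ↥K))
      exact_mod_cast this
    have hr : (QuotientGroup.mk (⟨x, hxK⟩ : ↥K) : ↥K ⧸ P.subgroupOf K) ^ n =
        (QuotientGroup.mk (⟨x, hxK⟩ : ↥K) : ↥K ⧸ P.subgroupOf K) ^ (n % 3) := by
      conv_lhs => rw [← Int.emod_add_mul_ediv n 3]
      rw [zpow_add, zpow_mul, h3z, one_zpow, mul_one]
    rw [hr] at hn
    have hcases : n % 3 = 0 ∨ n % 3 = 1 ∨ n % 3 = 2 := by omega
    rcases hcases with h | h | h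
    · left
      rw [h, zpow_zero] at hn
      have := hn.symm
      rw [QuotientGroup.eq_one_iff] at this
      exact this
    · right; left
      rw [h, zpow_one] at hn
      have h5 : (QuotientGroup.mk ((⟨k, hk⟩ : ↥K) * (⟨x, hxK⟩ : ↥K)⁻¹) :
          ↥K ⧸ P.subgroupOf K) = 1 := by
        rw [QuotientGroup.mk_mul, QuotientGroup.mk_inv, ← hn, mul_inv_cancel]
      rw [QuotientGroup.eq_one_iff] at h5
      exact h5
    · right; right
      have h5 : (QuotientGroup.mk ((⟨k, hk⟩ : ↥K) * (⟨x, hxK⟩ : ↥K)) :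
          ↥K ⧸ P.subgroupOf K) = 1 := by
        rw [QuotientGroup.mk_mul, ← hn, h]
        have : (QuotientGroup.mk (⟨x, hxK⟩ : ↥K) : ↥K ⧸ P.subgroupOf K) ^ (2 : ℤ) *
            (QuotientGroup.mk (⟨x, hxK⟩ : ↥K) : ↥K ⧸ P.subgroupOf K) =
            (QuotientGroup.mk (⟨x, hxK⟩ : ↥K) : ↥K ⧸ P.subgroupOf K) ^ (3 : ℤ) := by
          rw [show (3 : ℤ) = 2 + 1 from rfl, zpow_add, zpow_one]
        rw [this, h3z]
      rw [QuotientGroup.eq_one_iff] at h5
      exact h5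

theorem core_Z_le {G : Type u} [Group G] (P : Subgroup G) :
    omegaCenterOf P ≤ P ⊓ Subgroup.centralizer (P : Set G) := by
  unfold omegaCenterOf omegaOne
  rw [Subgroup.closure_le]
  intro z hz
  exact hz.1

theorem core_Z_comm {G : Type u} [Group G] (P : Subgroup G) :
    ∀ u ∈ omegaCenterOf P, ∀ v ∈ omegaCenterOf P, u * v = v * u := by
  intro u hu v hv
  have h1 := (core_Z_le P hu).1
  have h2 := (core_Z_le P hv).2
  exact (Subgroup.mem_centralizer_iff.mp h2) u h1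

theorem core_Z_cent {G : Type u} [Group G] (P : Subgroup G) :
    ∀ p ∈ P, ∀ v ∈ omegaCenterOf P, p * v = v * p := by
  intro p hp v hv
  exact (Subgroup.mem_centralizer_iff.mp (core_Z_le P hv).2) p hp

theorem core_Z_sq {G : Type u} [Group G] (P : Subgroup G) :
    ∀ u ∈ omegaCenterOf P, u * u = 1 := by
  intro u hu
  have hu' : u ∈ Subgroup.closure {x : G | x ∈ P ⊓ Subgroup.centralizer (P : Set G) ∧ x ^ 2 = 1} :=
    hu
  induction hu' using Subgroup.closure_induction with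
  | mem s hs => have := hs.2; rwa [pow_two] at this
  | one => simp
  | mul s t hs ht ihs iht =>
    have hc := core_Z_comm P s hs t ht
    calc s * t * (s * t) = s * (t * s) * t := by group
      _ = s * (s * t) * t := by rw [hc]
      _ = (s * s) * (t * t) := by group
      _ = 1 := by rw [ihs hs, iht ht, mul_one]
  | inv s hs ihs =>
    have : s⁻¹ * s⁻¹ = (s * s)⁻¹ := by group
    rw [this, ihs hs, inv_one]

theorem core_Z_norm {G : Type u} [Group G] (P : Subgroup G) (g : G)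
    (hgP : ∀ p ∈ P, g * p * g⁻¹ ∈ P) (hgP' : ∀ p ∈ P, g⁻¹ * p * g ∈ P) :
    ∀ z ∈ omegaCenterOf P, g * z * g⁻¹ ∈ omegaCenterOf P := by
  intro z hz
  have hz' : z ∈ Subgroup.closure {x : G | x ∈ P ⊓ Subgroup.centralizer (P : Set G) ∧ x ^ 2 = 1} :=
    hz
  show g * z * g⁻¹ ∈ Subgroup.closure
    {x : G | x ∈ P ⊓ Subgroup.centralizer (P : Set G) ∧ x ^ 2 = 1}
  induction hz' using Subgroup.closure_induction with
  | mem s hs =>
    apply Subgroup.subset_closure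
    refine ⟨Subgroup.mem_inf.mpr ⟨hgP s hs.1.1, ?_⟩, ?_⟩
    · rw [Subgroup.mem_centralizer_iff]
      intro p hp
      have h1 := (Subgroup.mem_centralizer_iff.mp hs.1.2) (g⁻¹ * p * g) (hgP' p hp)
      calc p * (g * s * g⁻¹) = g * ((g⁻¹ * p * g) * s) * g⁻¹ := by group
        _ = g * (s * (g⁻¹ * p * g)) * g⁻¹ := by rw [h1]
        _ = g * s * g⁻¹ * p := by group
    · have h2 := hs.2
      calc (g * s * g⁻¹) ^ 2 = (g * s * g⁻¹) * (g * s * g⁻¹) := pow_two _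
        _ = g * (s * s) * g⁻¹ := by group
        _ = 1 := by rw [← pow_two, h2]; group
  | one => simp
  | mul s t hs ht ihs iht =>
    have : g * (s * t) * g⁻¹ = (g * s * g⁻¹) * (g * t * g⁻¹) := by group
    rw [this]
    exact Subgroup.mul_mem _ (ihs hs) (iht ht)
  | inv s hs ihs =>
    have : g * s⁻¹ * g⁻¹ = (g * s * g⁻¹)⁻¹ := by group
    rw [this]
    exact Subgroup.inv_mem _ (ihs hs)

theorem core_W_le {G : Type u} [Group G] (Z K : Subgroup G)
    (hKZ : ∀ k ∈ K, ∀ z ∈ Z, k * z * k⁻¹ ∈ Z) : ⁅Z, K⁆ ≤ Z := by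
  rw [Subgroup.commutator_le]
  intro z hz k hk
  have h1 := hKZ k hk z⁻¹ (Z.inv_mem hz)
  have : ⁅z, k⁆ = z * (k * z⁻¹ * k⁻¹) := by rw [commutatorElement_def]; group
  rw [this]
  exact Z.mul_mem hz h1

theorem core_W_norm {G : Type u} [Group G] (Z K : Subgroup G) (g : G)
    (hgZ : ∀ z ∈ Z, g * z * g⁻¹ ∈ Z) (hgK : ∀ k ∈ K, g * k * g⁻¹ ∈ K) :
    ∀ w ∈ ⁅Z, K⁆, g * w * g⁻¹ ∈ ⁅Z, K⁆ := by
  intro w hw
  rw [Subgroup.commutator_def] at hw
  induction hw using Subgroup.closure_induction with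
  | mem s hs =>
    obtain ⟨z, hz, k, hk, rfl⟩ := hs
    have : g * ⁅z, k⁆ * g⁻¹ = ⁅g * z * g⁻¹, g * k * g⁻¹⁆ := by
      simp only [commutatorElement_def]; group
    rw [this]
    exact Subgroup.commutator_mem_commutator (hgZ z hz) (hgK k hk)
  | one => simp
  | mul s t hs ht ihs iht =>
    have : g * (s * t) * g⁻¹ = (g * s * g⁻¹) * (g * t * g⁻¹) := by group
    rw [this]
    exact Subgroup.mul_mem _ ihs iht
  | inv s hs ihs =>
    have : g * s⁻¹ * g⁻¹ = (g * s * g⁻¹)⁻¹ := by group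
    rw [this]
    exact Subgroup.inv_mem _ ihs

theorem core_KZ {G : Type u} [Group G] (K P : Subgroup G)
    (hPn : ∀ k ∈ K, ∀ p ∈ P, k * p * k⁻¹ ∈ P) :
    ∀ k ∈ K, ∀ z ∈ omegaCenterOf P, k * z * k⁻¹ ∈ omegaCenterOf P := by
  intro k hk
  refine core_Z_norm P k (hPn k hk) ?_
  intro p hp
  have := hPn k⁻¹ (K.inv_mem hk) p hp
  simpa using this

/-- Every element of `[Z, K]` has the form `z · x z x⁻¹`. -/
theorem core_W_form {G : Type u} [Group G] [Finite G] (K P : Subgroup G)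
    (hPn : ∀ k ∈ K, ∀ p ∈ P, k * p * k⁻¹ ∈ P) (h3 : P.relIndex K = 3)
    (x : G) (hxK : x ∈ K) (hxP : x ∉ P) :
    ∀ w ∈ ⁅omegaCenterOf P, K⁆, ∃ z ∈ omegaCenterOf P, w = z * (x * z * x⁻¹) := by
  have hKZ := core_KZ K P hPn
  obtain ⟨hcube, hcos⟩ := core_cosets K P hPn h3 x hxK hxP
  intro w hw
  rw [Subgroup.commutator_def] at hw
  induction hw using Subgroup.closure_induction with
  | mem s hs =>
    obtain ⟨z, hz, k, hk, rfl⟩ := hs
    have hzz : z⁻¹ = z := inv_eq_of_mul_eq_one_left (core_Z_sq P z hz)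
    rcases hcos k hk with h | h | h
    · refine ⟨1, Subgroup.one_mem _, ?_⟩
      have hc := core_Z_cent P k h z hz
      rw [commutatorElement_def]
      calc z * k * z⁻¹ * k⁻¹ = (z * k) * z⁻¹ * k⁻¹ := by group
        _ = (k * z) * z⁻¹ * k⁻¹ := by rw [hc]
        _ = 1 * (x * 1 * x⁻¹) := by group
    · refine ⟨z, hz, ?_⟩
      have hk' : k = (k * x⁻¹) * x := by group
      have hxz : x * z * x⁻¹ ∈ omegaCenterOf P := hKZ x hxK z hz
      have hc := core_Z_cent P (k * x⁻¹) h (x * z * x⁻¹) hxz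
      rw [commutatorElement_def, hzz]
      calc z * k * z * k⁻¹ = z * ((k * x⁻¹) * (x * z * x⁻¹)) * (k * x⁻¹)⁻¹ := by group
        _ = z * ((x * z * x⁻¹) * (k * x⁻¹)) * (k * x⁻¹)⁻¹ := by rw [hc]
        _ = z * (x * z * x⁻¹) := by group
    · have hxz : x⁻¹ * z * x ∈ omegaCenterOf P := by
        have := hKZ x⁻¹ (K.inv_mem hxK) z hz
        simpa using this
      refine ⟨x⁻¹ * z * x, hxz, ?_⟩
      have hc := core_Z_cent P (k * x) h (x⁻¹ * z * x) hxz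
      have hc2 := core_Z_comm P z hz (x⁻¹ * z * x) hxz
      rw [commutatorElement_def, hzz]
      calc z * k * z * k⁻¹ = z * ((k * x) * (x⁻¹ * z * x)) * (k * x)⁻¹ := by group
        _ = z * ((x⁻¹ * z * x) * (k * x)) * (k * x)⁻¹ := by rw [hc]
        _ = z * (x⁻¹ * z * x) := by group
        _ = (x⁻¹ * z * x) * z := hc2
        _ = (x⁻¹ * z * x) * (x * (x⁻¹ * z * x) * x⁻¹) := by group
  | one => exact ⟨1, Subgroup.one_mem _, by simp⟩
  | mul s t hs ht ihs iht =>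
    obtain ⟨z1, hz1, rfl⟩ := ihs
    obtain ⟨z2, hz2, rfl⟩ := iht
    refine ⟨z1 * z2, Subgroup.mul_mem _ hz1 hz2, ?_⟩
    have hc := core_Z_comm P (x * z1 * x⁻¹) (hKZ x hxK z1 hz1) z2 hz2
    calc z1 * (x * z1 * x⁻¹) * (z2 * (x * z2 * x⁻¹))
        = z1 * ((x * z1 * x⁻¹) * z2) * (x * z2 * x⁻¹) := by group
      _ = z1 * (z2 * (x * z1 * x⁻¹)) * (x * z2 * x⁻¹) := by rw [hc]
      _ = z1 * z2 * (x * (z1 * z2) * x⁻¹) := by group
  | inv s hs ihs =>
    obtain ⟨z1, hz1, rfl⟩ := ihs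
    refine ⟨z1, hz1, ?_⟩
    have hw : z1 * (x * z1 * x⁻¹) ∈ omegaCenterOf P :=
      Subgroup.mul_mem _ hz1 (hKZ x hxK z1 hz1)
    exact inv_eq_of_mul_eq_one_left (core_Z_sq P _ hw)

theorem core_x3 {G : Type u} [Group G] [Finite G] (K P : Subgroup G)
    (hPn : ∀ k ∈ K, ∀ p ∈ P, k * p * k⁻¹ ∈ P) (h3 : P.relIndex K = 3)
    (x : G) (hxK : x ∈ K) (hxP : x ∉ P) :
    ∀ z ∈ omegaCenterOf P, x * (x * (x * z * x⁻¹) * x⁻¹) * x⁻¹ = z := by
  obtain ⟨hcube, -⟩ := core_cosets K P hPn h3 x hxK hxP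
  intro z hz
  have hc := core_Z_cent P (x * x * x) (hcube x hxK) z hz
  calc x * (x * (x * z * x⁻¹) * x⁻¹) * x⁻¹ = (x * x * x) * z * (x * x * x)⁻¹ := by group
    _ = z * (x * x * x) * (x * x * x)⁻¹ := by rw [hc]
    _ = z := by group

theorem core_W_fpf {G : Type u} [Group G] [Finite G] (K P : Subgroup G)
    (hPn : ∀ k ∈ K, ∀ p ∈ P, k * p * k⁻¹ ∈ P) (h3 : P.relIndex K = 3)
    (x : G) (hxK : x ∈ K) (hxP : x ∉ P) :
    ∀ w ∈ ⁅omegaCenterOf P, K⁆, x * w * x⁻¹ = w → w = 1 := by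
  have hKZ := core_KZ K P hPn
  intro w hw hfix
  obtain ⟨z, hz, rfl⟩ := core_W_form K P hPn h3 x hxK hxP w hw
  have hz1 : x * z * x⁻¹ ∈ omegaCenterOf P := hKZ x hxK z hz
  have e1 : (x * z * x⁻¹) * (x * (x * z * x⁻¹) * x⁻¹) = z * (x * z * x⁻¹) := by
    rw [← hfix]; group
  have e2 : x * (x * z * x⁻¹) * x⁻¹ = z := by
    have hc := core_Z_comm P z hz (x * z * x⁻¹) hz1
    rw [hc] at e1
    exact mul_left_cancel e1
  have e3 := core_x3 K P hPn h3 x hxK hxP z hz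
  have e4 : x * z * x⁻¹ = z := by rw [e2] at e3; exact e3
  rw [e4]
  exact core_Z_sq P z hz

/-- The core statement: `[Ω₁(Z(P)), K]` is trivial or of order 4. -/
theorem w_core (hSq : StSq.{u}) (hFun : StFun.{u}) {G : Type u} [Group G] [Finite G]
    (T A K P : Subgroup G) (a x : G)
    (hPn : ∀ k ∈ K, ∀ p ∈ P, k * p * k⁻¹ ∈ P) (h3 : P.relIndex K = 3)
    (hPT : P ≤ T) (hAT : A ≤ T) (hAel : IsElementaryAbelian 2 A)
    (hAmax : ∀ B : Subgroup G, B ≤ T → IsElementaryAbelian 2 B → Nat.card ↥B ≤ Nat.card ↥A)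
    (hAK : ∀ b ∈ A, ∀ k ∈ K, b * k * b⁻¹ ∈ K) (hAP : ∀ b ∈ A, ∀ p ∈ P, b * p * b⁻¹ ∈ P)
    (haA : a ∈ A) (hxK : x ∈ K) (hxP : x ∉ P) (hax : a * x * a⁻¹ * x ∈ P) :
    ⁅omegaCenterOf P, K⁆ = ⊥ ∨ Nat.card ↥⁅omegaCenterOf P, K⁆ = 4 := by
  have hKZ := core_KZ K P hPn
  have hAZ : ∀ b ∈ A, ∀ z ∈ omegaCenterOf P, b * z * b⁻¹ ∈ omegaCenterOf P := by
    intro b hb
    refine core_Z_norm P b (hAP b hb) ?_
    intro p hp
    have := hAP b⁻¹ (A.inv_mem hb) p hp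
    simpa using this
  have hWZ : ⁅omegaCenterOf P, K⁆ ≤ omegaCenterOf P := core_W_le _ K hKZ
  have hKW : ∀ k ∈ K, ∀ w ∈ ⁅omegaCenterOf P, K⁆, k * w * k⁻¹ ∈ ⁅omegaCenterOf P, K⁆ :=
    fun k hk => core_W_norm _ K k (hKZ k hk)
      (fun k' hk' => K.mul_mem (K.mul_mem hk hk') (K.inv_mem hk))
  have hAW : ∀ b ∈ A, ∀ w ∈ ⁅omegaCenterOf P, K⁆, b * w * b⁻¹ ∈ ⁅omegaCenterOf P, K⁆ :=
    fun b hb => core_W_norm _ K b (hAZ b hb) (hAK b hb)
  have hZT : omegaCenterOf P ≤ T := fun z hz => hPT (core_Z_le P hz).1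
  have hWT : ⁅omegaCenterOf P, K⁆ ≤ T := hWZ.trans hZT
  have hWc : ∀ u ∈ ⁅omegaCenterOf P, K⁆, ∀ v ∈ ⁅omegaCenterOf P, K⁆, u * v = v * u :=
    fun u hu v hv => core_Z_comm P u (hWZ hu) v (hWZ hv)
  have hxinvW : ∀ w ∈ ⁅omegaCenterOf P, K⁆, x⁻¹ * w * x ∈ ⁅omegaCenterOf P, K⁆ := by
    intro w hw
    have := hKW x⁻¹ (K.inv_mem hxK) w hw
    simpa using this
  -- the auxiliary subgroup
  let Qm : Subgroup G :=
    { carrier := {g | g ∈ T ∧ (∀ w ∈ ⁅omegaCenterOf P, K⁆, g * w * g⁻¹ ∈ ⁅omegaCenterOf P, K⁆) ∧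
        (∀ w ∈ ⁅omegaCenterOf P, K⁆, g⁻¹ * w * g ∈ ⁅omegaCenterOf P, K⁆) ∧
        ∀ w ∈ ⁅omegaCenterOf P, K⁆, g * (x * w * x⁻¹) * g⁻¹ = x * (g * w * g⁻¹) * x⁻¹}
      mul_mem' := by
        rintro g h ⟨hg1, hg2, hg3, hg4⟩ ⟨hh1, hh2, hh3, hh4⟩
        refine ⟨T.mul_mem hg1 hh1, ?_, ?_, ?_⟩
        · intro w hw
          have := hg2 _ (hh2 w hw)
          have e : g * h * w * (g * h)⁻¹ = g * (h * w * h⁻¹) * g⁻¹ := by group
          rw [e]; exact this
        · intro w hw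
          have := hh3 _ (hg3 w hw)
          have e : (g * h)⁻¹ * w * (g * h) = h⁻¹ * (g⁻¹ * w * g) * h := by group
          rw [e]; exact this
        · intro w hw
          have e1 := hh4 w hw
          have e2 := hg4 _ (hh2 w hw)
          calc g * h * (x * w * x⁻¹) * (g * h)⁻¹ = g * (h * (x * w * x⁻¹) * h⁻¹) * g⁻¹ := by group
            _ = g * (x * (h * w * h⁻¹) * x⁻¹) * g⁻¹ := by rw [e1]
            _ = x * (g * (h * w * h⁻¹) * g⁻¹) * x⁻¹ := e2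
            _ = x * (g * h * w * (g * h)⁻¹) * x⁻¹ := by group
      one_mem' := by
        refine ⟨T.one_mem, ?_, ?_, ?_⟩
        · intro w hw; simpa using hw
        · intro w hw; simpa using hw
        · intro w hw; simp
      inv_mem' := by
        rintro g ⟨hg1, hg2, hg3, hg4⟩
        refine ⟨T.inv_mem hg1, ?_, ?_, ?_⟩
        · intro w hw
          have := hg3 w hw
          simpa using this
        · intro w hw
          have := hg2 w hw
          simpa using this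
        · intro w hw
          have e1 := hg4 _ (hg3 w hw)
          have e2 : g * (g⁻¹ * w * g) * g⁻¹ = w := by group
          rw [e2] at e1
          calc g⁻¹ * (x * w * x⁻¹) * g⁻¹⁻¹ = g⁻¹ * (x * w * x⁻¹) * g := by group
            _ = g⁻¹ * (g * (x * (g⁻¹ * w * g) * x⁻¹) * g⁻¹) * g := by rw [e1]
            _ = x * (g⁻¹ * w * g⁻¹⁻¹) * x⁻¹ := by group }
  have hQmT : Qm ≤ T := fun g hg => hg.1
  -- elements of A centralizing x modulo P lie in Qm
  have inQm : ∀ b ∈ A, b * x * b⁻¹ * x⁻¹ ∈ P → b ∈ Qm := by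
    intro b hb hbx
    refine ⟨hAT hb, hAW b hb, ?_, ?_⟩
    · intro w hw
      have := hAW b⁻¹ (A.inv_mem hb) w hw
      simpa using this
    · intro w hw
      have hv : x * (b * w * b⁻¹) * x⁻¹ ∈ omegaCenterOf P := hWZ (hKW x hxK _ (hAW b hb w hw))
      have hc := core_Z_cent P _ hbx _ hv
      calc b * (x * w * x⁻¹) * b⁻¹
          = (b * x * b⁻¹ * x⁻¹) * (x * (b * w * b⁻¹) * x⁻¹) * (b * x * b⁻¹ * x⁻¹)⁻¹ := by group
        _ = (x * (b * w * b⁻¹) * x⁻¹) * (b * x * b⁻¹ * x⁻¹) * (b * x * b⁻¹ * x⁻¹)⁻¹ := by rw [hc]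
        _ = x * (b * w * b⁻¹) * x⁻¹ := by group
  obtain ⟨hcube, hcos⟩ := core_cosets K P hPn h3 x hxK hxP
  have hkey : ∀ b ∈ A, b ∈ Qm ∨ a * b ∈ Qm := by
    intro b hb
    rcases hcos (b * x * b⁻¹) (hAK b hb x hxK) with h | h | h
    · exfalso
      apply hxP
      have := hAP b⁻¹ (A.inv_mem hb) _ h
      have e : b⁻¹ * (b * x * b⁻¹) * b⁻¹⁻¹ = x := by group
      rwa [e] at this
    · left
      exact inQm b hb h
    · right
      refine inQm (a * b) (A.mul_mem haA hb) ?_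
      have h1 := hAP a haA _ h
      have h2 := hPn x hxK _ (P.inv_mem hax)
      have e : a * b * x * (a * b)⁻¹ * x⁻¹ =
          (a * (b * x * b⁻¹ * x) * a⁻¹) * (x * (a * x * a⁻¹ * x)⁻¹ * x⁻¹) := by group
      rw [e]
      exact P.mul_mem h1 h2
  have hidx : Nat.card ↥A ≤ 2 * Nat.card ↥(A ⊓ Qm) := by
    by_cases haQ : a ∈ Qm
    · have hle : A ≤ A ⊓ Qm := by
        intro b hb
        refine Subgroup.mem_inf.mpr ⟨hb, ?_⟩
        rcases hkey b hb with h | h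
        · exact h
        · have := Qm.mul_mem (Qm.inv_mem haQ) h
          have e : a⁻¹ * (a * b) = b := by group
          rwa [e] at this
      have := Subgroup.card_le_of_le hle
      omega
    · have h2 : (A ⊓ Qm).relIndex A = 2 := by
        rw [Subgroup.relIndex_eq_two_iff_exists_notMem_and']
        refine ⟨a, haA, fun h => haQ h.2, ?_⟩
        intro b hb
        rcases hkey b hb with h | h
        · right; exact Subgroup.mem_inf.mpr ⟨hb, h⟩
        · left; exact Subgroup.mem_inf.mpr ⟨A.mul_mem haA hb, h⟩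
      have := cnt_card_mul_relIndex (inf_le_left : A ⊓ Qm ≤ A)
      rw [h2] at this
      omega
  have F : WFacts Qm A ⁅omegaCenterOf P, K⁆ a x :=
    { hWQ := by
        intro g hg
        refine ⟨hWT hg, ?_, ?_, ?_⟩
        · intro w hw
          exact Subgroup.mul_mem _ (Subgroup.mul_mem _ hg hw) (Subgroup.inv_mem _ hg)
        · intro w hw
          exact Subgroup.mul_mem _ (Subgroup.mul_mem _ (Subgroup.inv_mem _ hg) hw) hg
        · intro w hw
          have c1 := hWc g hg (x * w * x⁻¹) (hKW x hxK w hw)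
          have c2 := hWc g hg w hw
          calc g * (x * w * x⁻¹) * g⁻¹ = (g * (x * w * x⁻¹)) * g⁻¹ := by group
            _ = ((x * w * x⁻¹) * g) * g⁻¹ := by rw [c1]
            _ = x * ((w * g) * g⁻¹) * x⁻¹ := by group
            _ = x * ((g * w) * g⁻¹) * x⁻¹ := by rw [c2]
            _ = x * (g * w * g⁻¹) * x⁻¹ := by group
      hWc := hWc
      hW2 := fun u hu => core_Z_sq P u (hWZ hu)
      hxW := hKW x hxK
      haW := hAW a haA
      hbW := fun b hb w hw => hb.2.2.1 w hw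
      hx3 := fun w hw => core_x3 K P hPn h3 x hxK hxP w (hWZ hw)
      hxf := core_W_fpf K P hPn h3 x hxK hxP
      hax := by
        intro w hw
        have hv : x⁻¹ * (a * w * a⁻¹) * x ∈ omegaCenterOf P :=
          hWZ (hxinvW _ (hAW a haA w hw))
        have hc := core_Z_cent P _ hax _ hv
        calc a * (x * w * x⁻¹) * a⁻¹
            = (a * x * a⁻¹ * x) * (x⁻¹ * (a * w * a⁻¹) * x) * (a * x * a⁻¹ * x)⁻¹ := by group
          _ = (x⁻¹ * (a * w * a⁻¹) * x) * (a * x * a⁻¹ * x) * (a * x * a⁻¹ * x)⁻¹ := by rw [hc]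
          _ = x⁻¹ * (a * w * a⁻¹) * x := by group
      hbx := fun b hb w hw => hb.2.2.2.2 w hw }
  exact cnt hSq hFun T Qm A ⁅omegaCenterOf P, K⁆ a x hQmT hAT hAel hAmax haA hidx F

end Cfsg.Agent.H82.Jx
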