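import Cfsg.Agent.H19.SxDefs
import Cfsg.Agent.H82.JxCore
import Cfsg.Agent.H12.JxSq
import Cfsg.Agent.H53.JxFun

/-! SX-W (helper82, for helper19's EXIST project, S2948 / S2949): `[Ω₁(Z(K ∩ Q)), K]` has order 4.
From the JX core (`Cfsg.Agent.H82.Jx.w_core`: trivial or of order 4) and `|[V, K]| = 4`. -/

set_option autoImplicit false
open Cfsg
open scoped commutatorElement

namespace Cfsg.Agent.H82.Sx

universe u

theorem w : Cfsg.Agent.H19.Sx.StW.{u} := by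
  intro X _ _ V T Q J K A a x _ _ hVel hVQ hQV hZ hT2 hQT hJT hAJ hAel hAmax hKJ h3 hQK hVK4
    haA hxK hxQ hax
  have hQn : ∀ q ∈ Q, ∀ g : X, g * q * g⁻¹ ∈ Q := fun q hq g =>
    (inferInstance : Q.Normal).conj_mem q hq g
  have hVn : ∀ v ∈ V, ∀ g : X, g * v * g⁻¹ ∈ V := fun v hv g =>
    (inferInstance : V.Normal).conj_mem v hv g
  have hPn : ∀ k ∈ K, ∀ p ∈ K ⊓ Q, k * p * k⁻¹ ∈ K ⊓ Q := fun k hk p hp =>
    Subgroup.mem_inf.mpr ⟨K.mul_mem (K.mul_mem hk hp.1) (K.inv_mem hk), hQn p hp.2 k⟩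
  have hJK : ∀ j ∈ J, ∀ k ∈ K, j * k * j⁻¹ ∈ K := by
    intro j hj k hk
    have h1 : ⁅k⁻¹, j⁆ ∈ ⁅K, J⁆ := Subgroup.commutator_mem_commutator (K.inv_mem hk) hj
    rw [hKJ] at h1
    have e : j * k * j⁻¹ = k * ⁅k⁻¹, j⁆ := by rw [commutatorElement_def]; group
    rw [e]
    exact K.mul_mem hk h1
  have hAK : ∀ b ∈ A, ∀ k ∈ K, b * k * b⁻¹ ∈ K := fun b hb => hJK b (hAJ hb)
  have hAP : ∀ b ∈ A, ∀ p ∈ K ⊓ Q, b * p * b⁻¹ ∈ K ⊓ Q := fun b hb p hp =>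
    Subgroup.mem_inf.mpr ⟨hAK b hb p hp.1, hQn p hp.2 b⟩
  have hxP : x ∉ K ⊓ Q := fun h => hxQ h.2
  have hax' : a * x * a⁻¹ * x ∈ K ⊓ Q := by
    rw [hax, inv_mul_cancel]
    exact Subgroup.one_mem _
  have hcore := Cfsg.Agent.H82.Jx.w_core Cfsg.Agent.H12.Jx.sq Cfsg.Agent.H53.Jx.fn
    T A K (K ⊓ Q) a x hPn h3 (inf_le_right.trans hQT) (hAJ.trans hJT) hAel
    (fun B _ hB => hAmax B hB) hAK hAP haA hxK hxP hax'
  refine hcore.resolve_left ?_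
  intro hbot
  obtain ⟨hcube, -⟩ := Cfsg.Agent.H82.Jx.core_cosets K (K ⊓ Q) hPn h3 x hxK hxP
  -- K centralizes V
  have hKV : ∀ k ∈ K, ∀ v ∈ V, k * v = v * k := by
    intro k hk v hv
    have huV : v * k * v⁻¹ * k⁻¹ ∈ V := by
      have := hVn v⁻¹ (V.inv_mem hv) k
      have e : v * k * v⁻¹ * k⁻¹ = v * (k * v⁻¹ * k⁻¹) := by group
      rw [e]
      exact V.mul_mem hv this
    have huK : v * k * v⁻¹ * k⁻¹ ∈ K := by
      have h1 := (Subgroup.mem_normalizer_iff.mp (hQK (hVQ hv))) k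
      exact K.mul_mem (h1.mp hk) (K.inv_mem hk)
    have huZ : v * k * v⁻¹ * k⁻¹ ∈ omegaCenterOf (K ⊓ Q) := by
      unfold omegaCenterOf omegaOne
      apply Subgroup.subset_closure
      refine ⟨Subgroup.mem_inf.mpr ⟨Subgroup.mem_inf.mpr ⟨huK, hVQ huV⟩, ?_⟩, hVel.2 _ huV⟩
      rw [Subgroup.mem_centralizer_iff]
      intro p hp
      exact ((Subgroup.mem_centralizer_iff.mp (hQV hp.2)) _ huV).symm
    have hc1 : ⁅v * k * v⁻¹ * k⁻¹, k⁆ ∈ ⁅omegaCenterOf (K ⊓ Q), K⁆ :=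
      Subgroup.commutator_mem_commutator huZ hk
    rw [hbot, Subgroup.mem_bot, commutatorElement_def] at hc1
    -- u commutes with k
    have huk : (v * k * v⁻¹ * k⁻¹) * k = k * (v * k * v⁻¹ * k⁻¹) := by
      calc (v * k * v⁻¹ * k⁻¹) * k
          = ((v * k * v⁻¹ * k⁻¹) * k * (v * k * v⁻¹ * k⁻¹)⁻¹ * k⁻¹) * k * (v * k * v⁻¹ * k⁻¹) := by
            group
        _ = k * (v * k * v⁻¹ * k⁻¹) := by rw [hc1]; group
    have hu2 : (v * k * v⁻¹ * k⁻¹) * (v * k * v⁻¹ * k⁻¹) = 1 := by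
      have := hVel.2 _ huV
      rwa [pow_two] at this
    -- k * k commutes with v
    have e2 : (k * k) * v = v * (k * k) := by
      have h1 : k * v = (v * k * v⁻¹ * k⁻¹)⁻¹ * v * k := by group
      have h2 : k * (v * k * v⁻¹ * k⁻¹)⁻¹ = (v * k * v⁻¹ * k⁻¹)⁻¹ * k := by
        calc k * (v * k * v⁻¹ * k⁻¹)⁻¹
            = (v * k * v⁻¹ * k⁻¹)⁻¹ * ((v * k * v⁻¹ * k⁻¹) * k) * (v * k * v⁻¹ * k⁻¹)⁻¹ := by group
          _ = (v * k * v⁻¹ * k⁻¹)⁻¹ * (k * (v * k * v⁻¹ * k⁻¹)) * (v * k * v⁻¹ * k⁻¹)⁻¹ := by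
            rw [huk]
          _ = (v * k * v⁻¹ * k⁻¹)⁻¹ * k := by group
      calc (k * k) * v = k * (k * v) := by group
        _ = k * ((v * k * v⁻¹ * k⁻¹)⁻¹ * v * k) := by rw [← h1]
        _ = (k * (v * k * v⁻¹ * k⁻¹)⁻¹) * v * k := by group
        _ = ((v * k * v⁻¹ * k⁻¹)⁻¹ * k) * v * k := by rw [h2]
        _ = (v * k * v⁻¹ * k⁻¹)⁻¹ * (k * v) * k := by group
        _ = (v * k * v⁻¹ * k⁻¹)⁻¹ * ((v * k * v⁻¹ * k⁻¹)⁻¹ * v * k) * k := by rw [← h1]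
        _ = ((v * k * v⁻¹ * k⁻¹) * (v * k * v⁻¹ * k⁻¹))⁻¹ * v * (k * k) := by group
        _ = v * (k * k) := by rw [hu2]; group
    have e3 : (k * k * k) * v = v * (k * k * k) :=
      ((Subgroup.mem_centralizer_iff.mp (hQV (hcube k hk).2)) v hv).symm
    calc k * v = (k * k)⁻¹ * ((k * k * k) * v) := by group
      _ = (k * k)⁻¹ * (v * (k * k * k)) := by rw [e3]
      _ = (k * k)⁻¹ * (v * (k * k)) * k := by group
      _ = (k * k)⁻¹ * ((k * k) * v) * k := by rw [e2]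
      _ = v * k := by group
  have hVKbot : ⁅V, K⁆ = ⊥ := by
    rw [eq_bot_iff, Subgroup.commutator_le]
    intro v hv k hk
    rw [Subgroup.mem_bot, commutatorElement_def]
    have := hKV k hk v hv
    calc v * k * v⁻¹ * k⁻¹ = v * (k * v⁻¹) * k⁻¹ := by group
      _ = v * (v⁻¹ * k) * k⁻¹ := by
        have h' : k * v⁻¹ = v⁻¹ * k := by
          calc k * v⁻¹ = v⁻¹ * (v * k) * v⁻¹ := by group
            _ = v⁻¹ * (k * v) * v⁻¹ := by rw [this]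
            _ = v⁻¹ * k := by group
        rw [h']
      _ = 1 := by group
  rw [hVKbot, Subgroup.card_bot] at hVK4
  omega

example : Cfsg.Agent.H19.Sx.StW.{u} := w

end Cfsg.Agent.H82.Sx

#print axioms Cfsg.Agent.H82.Sx.w
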