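import Cfsg.Agent.H52.SrDefs

/-!
# SR-IND: independence of the family of four-groups (abstract)
-/

set_option autoImplicit false
open Cfsg

namespace Cfsg.Agent.H82.Sr

universe u

theorem ind : Cfsg.Agent.H52.Sr.StInd.{u} := by
  intro X _ ι K W h1 h2
  intro i
  rw [disjoint_iff, eq_bot_iff, ← h2 i]
  refine inf_le_inf_left _ ?_
  exact iSup₂_le fun j hj => h1 j i hj

example : Cfsg.Agent.H52.Sr.StInd.{u} := ind

end Cfsg.Agent.H82.Sr
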