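import Cfsg.Agent.H52.SrDefs

/-!
# SR-ODD: conjugation invariance of "generated by elements of odd order" (abstract)
-/

set_option autoImplicit false
open Cfsg

namespace Cfsg.Agent.H82.Sr

universe u

theorem odd : Cfsg.Agent.H52.Sr.StOdd.{u} := by
  intro X _ A l h
  have hord : ∀ a : X, orderOf ((MulAut.conj l).toMonoidHom a) = orderOf a := fun a =>
    orderOf_injective _ (MulAut.conj l).injective a
  have hset : {g : X | g ∈ A.map (MulAut.conj l).toMonoidHom ∧ Odd (orderOf g)} =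
      (MulAut.conj l).toMonoidHom '' {g : X | g ∈ A ∧ Odd (orderOf g)} := by
    ext g
    constructor
    · rintro ⟨⟨a, ha, rfl⟩, ho⟩
      refine ⟨a, ⟨ha, ?_⟩, rfl⟩
      rwa [hord a] at ho
    · rintro ⟨a, ⟨ha, ho⟩, rfl⟩
      refine ⟨⟨a, ha, rfl⟩, ?_⟩
      rwa [hord a]
  rw [hset, ← MonoidHom.map_closure, h]

example : Cfsg.Agent.H52.Sr.StOdd.{u} := odd

end Cfsg.Agent.H82.Sr
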