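import Mathlib

/-!
# A dichotomy for TI-subgroups that are direct products of four-groups

`V = W_1 × ⋯ × W_r` (`r ≥ 2`, each `W_i` of order 4), the blocks `W_i` permuted by `N_G(V)`,
`C_G(v) ≤ N_G(V)` for `1 ≠ v ∈ V`, and `V` a TI-subgroup.  Then every conjugate of `V` meeting
`N_G(V)` nontrivially centralizes `V`.  (Tool for the case `T = S` of S2951 / S2952.)
-/

set_option autoImplicit false

namespace Cfsg.Agent.H82.Jt

universe u v

variable {G : Type u} [Group G]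

theorem mem_conj {V : Subgroup G} {g x : G} :
    x ∈ V.map (MulAut.conj g).toMonoidHom ↔ g⁻¹ * x * g ∈ V := by
  constructor
  · rintro ⟨v, hv, rfl⟩
    have : g⁻¹ * ((MulAut.conj g).toMonoidHom v) * g = v := by
      simp [MulAut.conj_apply, mul_assoc]
    rw [this]; exact hv
  · intro h
    exact ⟨g⁻¹ * x * g, h, by simp [MulAut.conj_apply, mul_assoc]⟩

theorem conj_normalizer {V : Subgroup G} {h v : G} :
    v ∈ Subgroup.normalizer ((V.map (MulAut.conj h).toMonoidHom : Subgroup G) : Set G) ↔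
      h⁻¹ * v * h ∈ Subgroup.normalizer (V : Set G) := by
  rw [Subgroup.mem_normalizer_iff, Subgroup.mem_normalizer_iff]
  constructor
  · intro H x
    have := H (h * x * h⁻¹)
    rw [mem_conj, mem_conj] at this
    convert this using 2 <;> group
  · intro H x
    rw [mem_conj, mem_conj]
    have := H (h⁻¹ * x * h)
    convert this using 2
    group

theorem comm_of_sq {V : Subgroup G} (hV2 : ∀ v ∈ V, v * v = 1) {a b : G} (ha : a ∈ V)
    (hb : b ∈ V) : a * b = b * a := by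
  have h1 := hV2 _ (V.mul_mem ha hb)
  have h2 := hV2 a ha
  have h3 := hV2 b hb
  have ha' : a⁻¹ = a := inv_eq_of_mul_eq_one_left h2
  have hb' : b⁻¹ = b := inv_eq_of_mul_eq_one_left h3
  have : (a * b)⁻¹ = a * b := inv_eq_of_mul_eq_one_left h1
  rw [mul_inv_rev, ha', hb'] at this
  exact this.symm

theorem conj_conj {u w : G} (hu : u * u = 1) : u * (u * w * u⁻¹) * u⁻¹ = w := by
  have hu' : u⁻¹ = u := inv_eq_of_mul_eq_one_left hu
  rw [hu']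
  calc u * (u * w * u) * u = (u * u) * w * (u * u) := by group
    _ = w := by rw [hu]; simp

theorem fixed_mul {V : Subgroup G} (hV2 : ∀ v ∈ V, v * v = 1) {u w : G} (hu : u * u = 1)
    (hw : w ∈ V) (hc : u * w * u⁻¹ ∈ V) :
    u * (w * (u * w * u⁻¹)) = (w * (u * w * u⁻¹)) * u := by
  have h2 : u * (w * (u * w * u⁻¹)) * u⁻¹ = (u * w * u⁻¹) * w := by
    calc u * (w * (u * w * u⁻¹)) * u⁻¹ = (u * w * u⁻¹) * (u * (u * w * u⁻¹) * u⁻¹) := by group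
      _ = (u * w * u⁻¹) * w := by rw [conj_conj hu]
  rw [comm_of_sq hV2 hc hw] at h2
  exact mul_inv_eq_iff_eq_mul.mp h2

theorem four_elems (H : Subgroup G) (hc : Nat.card ↥H = 4) (a b c : G) (ha : a ∈ H) (hb : b ∈ H)
    (hc' : c ∈ H) (h1 : a ≠ 1) (h2 : b ≠ 1) (h3 : c ≠ 1) (hab : a ≠ b) (hac : a ≠ c)
    (hbc : b ≠ c) (x : G) (hx : x ∈ H) : x = 1 ∨ x = a ∨ x = b ∨ x = c := by
  by_contra hcon
  push_neg at hcon
  obtain ⟨hx1, hxa, hxb, hxc⟩ := hcon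
  haveI : Finite ↥H := Nat.finite_of_card_ne_zero (by omega)
  let f : Fin 5 → ↥H := ![⟨1, H.one_mem⟩, ⟨a, ha⟩, ⟨b, hb⟩, ⟨c, hc'⟩, ⟨x, hx⟩]
  have hf : Function.Injective f := by
    intro i j hij
    fin_cases i <;> fin_cases j <;>
      simp_all [f, Subtype.ext_iff, eq_comm]
  have := Nat.card_le_card_of_injective f hf
  rw [hc] at this
  simp at this

theorem exists_two (H : Subgroup G) (hc : Nat.card ↥H = 4) :
    ∃ a ∈ H, ∃ b ∈ H, a ≠ 1 ∧ b ≠ 1 ∧ a ≠ b := by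
  classical
  by_contra hcon
  push_neg at hcon
  haveI : Finite ↥H := Nat.finite_of_card_ne_zero (by omega)
  let f : ↥H → Bool := fun x => decide ((x : G) = 1)
  have hf : Function.Injective f := by
    intro x y hxy
    have hxy' : decide ((x : G) = 1) = decide ((y : G) = 1) := hxy
    by_cases hx : (x : G) = 1
    · have hy : (y : G) = 1 := by
        rw [decide_eq_true hx] at hxy'
        exact of_decide_eq_true hxy'.symm
      exact Subtype.ext (hx.trans hy.symm)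
    · have hy : (y : G) ≠ 1 := by
        intro hy
        rw [decide_eq_true hy, decide_eq_false hx] at hxy'
        exact Bool.noConfusion hxy'
      exact Subtype.ext (hcon x x.2 y y.2 hx hy)
  have := Nat.card_le_card_of_injective f hf
  rw [hc] at this
  simp at this

/-- Pairwise disjointness of the blocks. -/
theorem blk_disj {ι : Type v} {W : ι → Subgroup G} (hind : iSupIndep W) {i j : ι} (hij : i ≠ j)
    {x : G} (hi : x ∈ W i) (hj : x ∈ W j) : x = 1 :=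
  Subgroup.disjoint_def.mp (hind.pairwiseDisjoint hij) hi hj

/-- An element of one block that is a product of elements of other blocks is trivial. -/
theorem blk_ind {ι : Type v} {W : ι → Subgroup G} (hind : iSupIndep W) {i j1 j2 j3 : ι}
    (h1 : j1 ≠ i) (h2 : j2 ≠ i) (h3 : j3 ≠ i) {w x y z : G} (hw : w ∈ W i) (hx : x ∈ W j1)
    (hy : y ∈ W j2) (hz : z ∈ W j3) (he : w = y * z * x⁻¹) : w = 1 := by
  have hle : ∀ j, j ≠ i → W j ≤ ⨆ j, ⨆ (_ : j ≠ i), W j := fun j hj =>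
    le_iSup₂ (f := fun j (_ : j ≠ i) => W j) j hj
  have hmem : y * z * x⁻¹ ∈ ⨆ j, ⨆ (_ : j ≠ i), W j :=
    Subgroup.mul_mem _ (Subgroup.mul_mem _ (hle j2 h2 hy) (hle j3 h3 hz))
      (Subgroup.inv_mem _ (hle j1 h1 hx))
  rw [← he] at hmem
  exact Subgroup.disjoint_def.mp (hind i) hw hmem

/-- The block core: three involutions `u₁`, `u₂`, `u₂ u₁` permuting the blocks, all with the same
fixed points `U'` on `V`, fix every block elementwise. -/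
theorem core {ι : Type v} (V U' : Subgroup G) (W : ι → Subgroup G)
    (hV2 : ∀ v ∈ V, v * v = 1) (hWV : ∀ i, W i ≤ V) (hind : iSupIndep W)
    (hcard : ∀ i, Nat.card ↥(W i) = 4) (u₁ u₂ : G)
    (hb : ∀ u : G, u = u₁ ∨ u = u₂ ∨ u = u₂ * u₁ →
      (u * u = 1 ∧ (∀ i, ∃ j, ∀ w ∈ W i, u * w * u⁻¹ ∈ W j) ∧
        ∀ v ∈ V, (u * v = v * u ↔ v ∈ U')))
    (i : ι) : W i ≤ U' := by
  intro w hw
  by_contra hwU
  have hwV : w ∈ V := hWV i hw
  have hw1 : w ≠ 1 := fun h => hwU (h ▸ U'.one_mem)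
  have hww : w * w = 1 := hV2 w hwV
  -- a block fixed by `u` contains a nontrivial fixed point
  have key_fix : ∀ u : G, u = u₁ ∨ u = u₂ ∨ u = u₂ * u₁ → (∀ w ∈ W i, u * w * u⁻¹ ∈ W i) →
      ∃ f ∈ W i, f ≠ 1 ∧ f ∈ U' := by
    intro u hu hj
    obtain ⟨hu2, -, hfix⟩ := hb u hu
    have hc : u * w * u⁻¹ ∈ W i := hj w hw
    refine ⟨w * (u * w * u⁻¹), (W i).mul_mem hw hc, ?_, ?_⟩
    · intro h
      have h1 : u * w * u⁻¹ = w := by
        have : u * w * u⁻¹ = w⁻¹ := (inv_eq_of_mul_eq_one_right h).symm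
        rw [this]; exact inv_eq_of_mul_eq_one_left hww
      exact hwU ((hfix w hwV).mp (mul_inv_eq_iff_eq_mul.mp h1))
    · exact (hfix _ (V.mul_mem hwV (hWV i hc))).mp (fixed_mul hV2 hu2 hwV (hWV i hc))
  -- a block moved by `u` has no nontrivial fixed point
  have key_move : ∀ u : G, u = u₁ ∨ u = u₂ ∨ u = u₂ * u₁ → ∀ j, (∀ w ∈ W i, u * w * u⁻¹ ∈ W j) →
      j ≠ i → ∀ f ∈ W i, f ∈ U' → f = 1 := by
    intro u hu j hj hji f hf hfU
    obtain ⟨-, -, hfix⟩ := hb u hu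
    have h1 : u * f = f * u := (hfix f (hWV i hf)).mpr hfU
    have h2 : u * f * u⁻¹ = f := mul_inv_eq_iff_eq_mul.mpr h1
    have h3 : f ∈ W j := h2 ▸ hj f hf
    exact blk_disj hind hji.symm hf h3
  have mixed : ∀ ua ub : G, ua = u₁ ∨ ua = u₂ ∨ ua = u₂ * u₁ → ub = u₁ ∨ ub = u₂ ∨ ub = u₂ * u₁ →
      ∀ jb, (∀ w ∈ W i, ua * w * ua⁻¹ ∈ W i) → (∀ w ∈ W i, ub * w * ub⁻¹ ∈ W jb) → jb ≠ i →
      False := by
    intro ua ub hua hub jb ha hbj hjb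
    obtain ⟨f, hf, hf1, hfU⟩ := key_fix ua hua ha
    exact hf1 (key_move ub hub jb hbj hjb f hf hfU)
  obtain ⟨h1sq, h1blk, h1fix⟩ := hb u₁ (Or.inl rfl)
  obtain ⟨h2sq, h2blk, h2fix⟩ := hb u₂ (Or.inr (Or.inl rfl))
  obtain ⟨h3sq, h3blk, h3fix⟩ := hb (u₂ * u₁) (Or.inr (Or.inr rfl))
  obtain ⟨j1, hj1⟩ := h1blk i
  obtain ⟨j2, hj2⟩ := h2blk i
  obtain ⟨j3, hj3⟩ := h3blk i
  have hc3 : u₂ * u₁ * w * (u₂ * u₁)⁻¹ = u₂ * (u₁ * w * u₁⁻¹) * u₂⁻¹ := by group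
  rcases eq_or_ne j1 i with e1 | e1 <;> rcases eq_or_ne j2 i with e2 | e2 <;>
    rcases eq_or_ne j3 i with e3 | e3
  · -- all three fix the block
    subst e1; subst e2
    have hc1 : u₁ * w * u₁⁻¹ ∈ W j2 := hj1 w hw
    have hc2 : u₂ * w * u₂⁻¹ ∈ W j2 := hj2 w hw
    have hc1w : u₁ * w * u₁⁻¹ ≠ w := fun h =>
      hwU ((h1fix w hwV).mp (mul_inv_eq_iff_eq_mul.mp h))
    have hc2w : u₂ * w * u₂⁻¹ ≠ w := fun h =>
      hwU ((h2fix w hwV).mp (mul_inv_eq_iff_eq_mul.mp h))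
    have hfU : w * (u₁ * w * u₁⁻¹) ∈ U' :=
      (h1fix _ (V.mul_mem hwV (hWV _ hc1))).mp (fixed_mul hV2 h1sq hwV (hWV _ hc1))
    have hf1 : w * (u₁ * w * u₁⁻¹) ≠ 1 := by
      intro h
      have : u₁ * w * u₁⁻¹ = w⁻¹ := (inv_eq_of_mul_eq_one_right h).symm
      rw [inv_eq_of_mul_eq_one_left hww] at this
      exact hc1w this
    have hc11 : u₁ * w * u₁⁻¹ ≠ 1 := by
      intro h
      apply hw1
      have := conj_conj (w := w) h1sq
      rw [h] at this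
      simpa using this.symm
    have hc21 : u₂ * w * u₂⁻¹ ≠ 1 := by
      intro h
      apply hw1
      have := conj_conj (w := w) h2sq
      rw [h] at this
      simpa using this.symm
    have hfw : w * (u₁ * w * u₁⁻¹) ≠ w := fun h => hwU (h ▸ hfU)
    have hfc : w * (u₁ * w * u₁⁻¹) ≠ u₁ * w * u₁⁻¹ := by
      intro h
      exact hw1 (by simpa using h)
    have h4 := four_elems (W j2) (hcard j2) (w * (u₁ * w * u₁⁻¹)) w (u₁ * w * u₁⁻¹)
      ((W j2).mul_mem hw hc1) hw hc1 hf1 hw1 hc11 hfw hfc (fun h => hc1w h.symm)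
      (u₂ * w * u₂⁻¹) hc2
    have hc2f : u₂ * w * u₂⁻¹ ≠ w * (u₁ * w * u₁⁻¹) := by
      intro h
      have hU : u₂ * w * u₂⁻¹ ∈ U' := h ▸ hfU
      have h5 : u₂ * (u₂ * w * u₂⁻¹) = (u₂ * w * u₂⁻¹) * u₂ :=
        (h2fix _ (hWV _ hc2)).mpr hU
      have h6 : u₂ * (u₂ * w * u₂⁻¹) * u₂⁻¹ = u₂ * w * u₂⁻¹ := mul_inv_eq_iff_eq_mul.mpr h5
      rw [conj_conj h2sq] at h6
      exact hc2w h6.symm
    have h12 : u₂ * w * u₂⁻¹ = u₁ * w * u₁⁻¹ := by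
      rcases h4 with h | h | h | h
      · exact absurd h hc21
      · exact absurd h hc2f
      · exact absurd h hc2w
      · exact h
    have h7 : u₂ * u₁ * w * (u₂ * u₁)⁻¹ = w := by
      rw [hc3, ← h12, conj_conj h2sq]
    exact hwU ((h3fix w hwV).mp (mul_inv_eq_iff_eq_mul.mp h7))
  · exact mixed u₁ (u₂ * u₁) (Or.inl rfl) (Or.inr (Or.inr rfl)) j3 (e1 ▸ hj1) hj3 e3
  · exact mixed u₁ u₂ (Or.inl rfl) (Or.inr (Or.inl rfl)) j2 (e1 ▸ hj1) hj2 e2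
  · exact mixed u₁ u₂ (Or.inl rfl) (Or.inr (Or.inl rfl)) j2 (e1 ▸ hj1) hj2 e2
  · exact mixed u₂ u₁ (Or.inr (Or.inl rfl)) (Or.inl rfl) j1 (e2 ▸ hj2) hj1 e1
  · exact mixed u₂ u₁ (Or.inr (Or.inl rfl)) (Or.inl rfl) j1 (e2 ▸ hj2) hj1 e1
  · exact mixed (u₂ * u₁) u₁ (Or.inr (Or.inr rfl)) (Or.inl rfl) j1 (e3 ▸ hj3) hj1 e1
  · -- all three move the block
    have hc1 : u₁ * w * u₁⁻¹ ∈ W j1 := hj1 w hw
    have hc2 : u₂ * w * u₂⁻¹ ∈ W j2 := hj2 w hw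
    have hc3' : u₂ * u₁ * w * (u₂ * u₁)⁻¹ ∈ W j3 := hj3 w hw
    have hxU : w * (u₁ * w * u₁⁻¹) ∈ U' :=
      (h1fix _ (V.mul_mem hwV (hWV _ hc1))).mp (fixed_mul hV2 h1sq hwV (hWV _ hc1))
    have h5 : u₂ * (w * (u₁ * w * u₁⁻¹)) = (w * (u₁ * w * u₁⁻¹)) * u₂ :=
      (h2fix _ (V.mul_mem hwV (hWV _ hc1))).mpr hxU
    have h6 : u₂ * (w * (u₁ * w * u₁⁻¹)) * u₂⁻¹ = w * (u₁ * w * u₁⁻¹) :=
      mul_inv_eq_iff_eq_mul.mpr h5
    have h7 : w = (u₂ * w * u₂⁻¹) * (u₂ * u₁ * w * (u₂ * u₁)⁻¹) * (u₁ * w * u₁⁻¹)⁻¹ := by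
      have h8 : u₂ * (w * (u₁ * w * u₁⁻¹)) * u₂⁻¹ =
          (u₂ * w * u₂⁻¹) * (u₂ * u₁ * w * (u₂ * u₁)⁻¹) := by group
      rw [h8] at h6
      rw [h6]; group
    exact hw1 (blk_ind hind e1 e2 e3 hw hc1 hc2 hc3' h7)

/-- An involution permuting `r ≥ 2` blocks has two distinct nontrivial fixed points on `V`. -/
theorem two_fixed {ι : Type v} (V : Subgroup G) (W : ι → Subgroup G)
    (hV2 : ∀ v ∈ V, v * v = 1) (hWV : ∀ i, W i ≤ V) (hind : iSupIndep W)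
    (hcard : ∀ i, Nat.card ↥(W i) = 4) (hr : ∃ i j : ι, i ≠ j) (b : G) (hb2 : b * b = 1)
    (hblk : ∀ i, ∃ j, ∀ w ∈ W i, b * w * b⁻¹ ∈ W j) :
    ∃ v₁ ∈ V, ∃ v₂ ∈ V, v₁ ≠ 1 ∧ v₂ ≠ 1 ∧ v₁ ≠ v₂ ∧ b * v₁ = v₁ * b ∧ b * v₂ = v₂ * b := by
  have hinj : ∀ x : G, b * x * b⁻¹ = 1 → x = 1 := by
    intro x h
    have := conj_conj (w := x) hb2
    rw [h] at this
    simpa using this.symm
  have moved : ∀ i j, (∀ w ∈ W i, b * w * b⁻¹ ∈ W j) → j ≠ i →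
      ∃ v₁ ∈ V, ∃ v₂ ∈ V, v₁ ≠ 1 ∧ v₂ ≠ 1 ∧ v₁ ≠ v₂ ∧ b * v₁ = v₁ * b ∧ b * v₂ = v₂ * b := by
    intro i j hj hji
    obtain ⟨w, hw, w', hw', hw1, hw'1, hne⟩ := exists_two (W i) (hcard i)
    have hc := hj w hw
    have hc' := hj w' hw'
    have nz : ∀ x ∈ W i, x ≠ 1 → x * (b * x * b⁻¹) ≠ 1 := by
      intro x hx hx1 h
      have h1 : b * x * b⁻¹ = x⁻¹ := (inv_eq_of_mul_eq_one_right h).symm
      have h2 : b * x * b⁻¹ = 1 :=
        blk_disj hind hji.symm (h1 ▸ (W i).inv_mem hx) (hj x hx)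
      exact hx1 (hinj x h2)
    refine ⟨w * (b * w * b⁻¹), V.mul_mem (hWV i hw) (hWV j hc), w' * (b * w' * b⁻¹),
      V.mul_mem (hWV i hw') (hWV j hc'), nz w hw hw1, nz w' hw' hw'1, ?_,
      fixed_mul hV2 hb2 (hWV i hw) (hWV j hc), fixed_mul hV2 hb2 (hWV i hw') (hWV j hc')⟩
    intro h
    have h1 : w'⁻¹ * w = (b * w' * b⁻¹) * (b * w * b⁻¹)⁻¹ := by
      have : w = w' * (b * w' * b⁻¹) * (b * w * b⁻¹)⁻¹ := by rw [← h]; group
      calc w'⁻¹ * w = w'⁻¹ * (w' * (b * w' * b⁻¹) * (b * w * b⁻¹)⁻¹) := by rw [← this]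
        _ = (b * w' * b⁻¹) * (b * w * b⁻¹)⁻¹ := by group
    have h2 : w'⁻¹ * w = 1 :=
      blk_disj hind hji.symm ((W i).mul_mem ((W i).inv_mem hw') hw)
        (h1 ▸ (W j).mul_mem hc' ((W j).inv_mem hc))
    exact hne (by
      have := inv_mul_eq_one.mp h2
      exact this.symm)
  have fixedpt : ∀ i, (∀ w ∈ W i, b * w * b⁻¹ ∈ W i) → ∃ f ∈ W i, f ≠ 1 ∧ b * f = f * b := by
    intro i hi
    obtain ⟨w, hw, -, -, hw1, -, -⟩ := exists_two (W i) (hcard i)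
    by_cases hbw : b * w = w * b
    · exact ⟨w, hw, hw1, hbw⟩
    · refine ⟨w * (b * w * b⁻¹), (W i).mul_mem hw (hi w hw), ?_,
        fixed_mul hV2 hb2 (hWV i hw) (hWV i (hi w hw))⟩
      intro h
      have h1 : b * w * b⁻¹ = w⁻¹ := (inv_eq_of_mul_eq_one_right h).symm
      rw [inv_eq_of_mul_eq_one_left (hV2 w (hWV i hw))] at h1
      exact hbw (mul_inv_eq_iff_eq_mul.mp h1)
  obtain ⟨i₀, j₀, hij⟩ := hr
  obtain ⟨j1, h1⟩ := hblk i₀
  rcases eq_or_ne j1 i₀ with e1 | e1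
  · obtain ⟨j2, h2⟩ := hblk j₀
    rcases eq_or_ne j2 j₀ with e2 | e2
    · obtain ⟨f₁, hf₁, hf₁1, hf₁b⟩ := fixedpt i₀ (e1 ▸ h1)
      obtain ⟨f₂, hf₂, hf₂1, hf₂b⟩ := fixedpt j₀ (e2 ▸ h2)
      refine ⟨f₁, hWV _ hf₁, f₂, hWV _ hf₂, hf₁1, hf₂1, ?_, hf₁b, hf₂b⟩
      intro h
      exact hf₁1 (blk_disj hind hij hf₁ (h ▸ hf₂))
    · exact moved j₀ j2 h2 e2
  · exact moved i₀ j1 h1 e1

section main

variable {ι : Type v} (V : Subgroup G) (W : ι → Subgroup G)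

/-- `A(h) = V ∩ N(V^h)` and `B(h) = V^h ∩ N(V)` commute when `V ∩ V^h = 1`. -/
theorem ab_comm (h : G) (hd : V ⊓ V.map (MulAut.conj h).toMonoidHom = ⊥) {a b : G} (ha : a ∈ V)
    (haN : a ∈ Subgroup.normalizer ((V.map (MulAut.conj h).toMonoidHom : Subgroup G) : Set G))
    (hb : b ∈ V.map (MulAut.conj h).toMonoidHom) (hbN : b ∈ Subgroup.normalizer (V : Set G)) :
    a * b = b * a := by
  have h1 : a * b * a⁻¹ * b⁻¹ ∈ V := by
    have : b * a⁻¹ * b⁻¹ ∈ V := (Subgroup.mem_normalizer_iff.mp hbN a⁻¹).mp (V.inv_mem ha)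
    have h2 : a * b * a⁻¹ * b⁻¹ = a * (b * a⁻¹ * b⁻¹) := by group
    rw [h2]; exact V.mul_mem ha this
  have h2 : a * b * a⁻¹ * b⁻¹ ∈ V.map (MulAut.conj h).toMonoidHom := by
    have : a * b * a⁻¹ ∈ V.map (MulAut.conj h).toMonoidHom :=
      (Subgroup.mem_normalizer_iff.mp haN b).mp hb
    exact Subgroup.mul_mem _ this (Subgroup.inv_mem _ hb)
  have h3 : a * b * a⁻¹ * b⁻¹ ∈ V ⊓ V.map (MulAut.conj h).toMonoidHom := ⟨h1, h2⟩
  rw [hd, Subgroup.mem_bot] at h3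
  have h4 : a * b * a⁻¹ = b := mul_inv_eq_one.mp h3
  exact mul_inv_eq_iff_eq_mul.mp h4

variable (hcent : ∀ v ∈ V, v ≠ 1 → Subgroup.centralizer ({v} : Set G) ≤
  Subgroup.normalizer (V : Set G))

include hcent in
/-- An element of `V` commuting with a nontrivial element of `V^h` normalizes `V^h`. -/
theorem mem_norm_conj (h : G) {b v : G} (hb : b ∈ V.map (MulAut.conj h).toMonoidHom) (hb1 : b ≠ 1)
    (hbv : b * v = v * b) :
    v ∈ Subgroup.normalizer ((V.map (MulAut.conj h).toMonoidHom : Subgroup G) : Set G) := by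
  rw [conj_normalizer]
  have hb0 : h⁻¹ * b * h ∈ V := mem_conj.mp hb
  have hb01 : h⁻¹ * b * h ≠ 1 := by
    intro h1
    apply hb1
    have : b = h * (h⁻¹ * b * h) * h⁻¹ := by group
    rw [this, h1]; group
  apply hcent _ hb0 hb01
  rw [Subgroup.mem_centralizer_iff]
  intro y hy
  rw [Set.mem_singleton_iff] at hy
  subst hy
  calc h⁻¹ * b * h * (h⁻¹ * v * h) = h⁻¹ * (b * v) * h := by group
    _ = h⁻¹ * (v * b) * h := by rw [hbv]
    _ = h⁻¹ * v * h * (h⁻¹ * b * h) := by group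

variable (hV2 : ∀ v ∈ V, v * v = 1) (hsup : ⨆ i, W i = V) (hind : iSupIndep W)
  (hcard : ∀ i, Nat.card ↥(W i) = 4)
  (hperm : ∀ l ∈ Subgroup.normalizer (V : Set G), ∀ i, ∃ j,
    (W i).map (MulAut.conj l).toMonoidHom = W j)

include hperm in
theorem blk_of_perm {l : G} (hl : l ∈ Subgroup.normalizer (V : Set G)) :
    ∀ i, ∃ j, ∀ w ∈ W i, l * w * l⁻¹ ∈ W j := by
  intro i
  obtain ⟨j, hj⟩ := hperm l hl i
  refine ⟨j, fun w hw => ?_⟩
  rw [← hj]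
  exact ⟨w, hw, by simp [MulAut.conj_apply]⟩

include hsup in
theorem blk_le (i : ι) : W i ≤ V := hsup ▸ le_iSup W i

include hV2 in
theorem sq_conj (h : G) {b : G} (hb : b ∈ V.map (MulAut.conj h).toMonoidHom) : b * b = 1 := by
  have h1 := hV2 _ (mem_conj.mp hb)
  have : b * b = h * ((h⁻¹ * b * h) * (h⁻¹ * b * h)) * h⁻¹ := by group
  rw [this, h1]; group

include hcent hV2 hsup hind hcard hperm in
/-- One-sided: two distinct nontrivial elements of `B(h)` force `B(h)` to centralize `V`. -/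
theorem lemX (h : G) (hd : V ⊓ V.map (MulAut.conj h).toMonoidHom = ⊥) (b₁ b₂ : G)
    (hb₁ : b₁ ∈ V.map (MulAut.conj h).toMonoidHom) (hb₁N : b₁ ∈ Subgroup.normalizer (V : Set G))
    (hb₂ : b₂ ∈ V.map (MulAut.conj h).toMonoidHom) (hb₂N : b₂ ∈ Subgroup.normalizer (V : Set G))
    (h1 : b₁ ≠ 1) (h2 : b₂ ≠ 1) (h12 : b₁ ≠ b₂) :
    ∀ b, b ∈ V.map (MulAut.conj h).toMonoidHom → b ∈ Subgroup.normalizer (V : Set G) →
      ∀ v ∈ V, b * v = v * b := by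
  have hb3 : b₂ * b₁ ∈ V.map (MulAut.conj h).toMonoidHom := Subgroup.mul_mem _ hb₂ hb₁
  have hb3N : b₂ * b₁ ∈ Subgroup.normalizer (V : Set G) := Subgroup.mul_mem _ hb₂N hb₁N
  have h3 : b₂ * b₁ ≠ 1 := by
    intro h3
    apply h12
    have : b₂ = b₁⁻¹ := eq_inv_of_mul_eq_one_left h3
    rw [this]
    exact (inv_eq_of_mul_eq_one_left (sq_conj V hV2 h hb₁)).symm
  have hall : ∀ u : G, u = b₁ ∨ u = b₂ ∨ u = b₂ * b₁ →
      (u * u = 1 ∧ (∀ i, ∃ j, ∀ w ∈ W i, u * w * u⁻¹ ∈ W j) ∧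
        ∀ v ∈ V, (u * v = v * u ↔ v ∈ V ⊓ Subgroup.normalizer
          ((V.map (MulAut.conj h).toMonoidHom : Subgroup G) : Set G))) := by
    intro u hu
    have hu' : u ∈ V.map (MulAut.conj h).toMonoidHom ∧ u ∈ Subgroup.normalizer (V : Set G) ∧
        u ≠ 1 := by
      rcases hu with rfl | rfl | rfl
      · exact ⟨hb₁, hb₁N, h1⟩
      · exact ⟨hb₂, hb₂N, h2⟩
      · exact ⟨hb3, hb3N, h3⟩
    obtain ⟨huV, huN, hu1⟩ := hu'
    refine ⟨sq_conj V hV2 h huV, blk_of_perm V W hperm huN, fun v hv => ⟨fun hc => ?_, fun hc => ?_⟩⟩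
    · exact ⟨hv, mem_norm_conj V hcent h huV hu1 hc⟩
    · exact (ab_comm V h hd hc.1 hc.2 huV huN).symm
  have hVle : V ≤ V ⊓ Subgroup.normalizer
      ((V.map (MulAut.conj h).toMonoidHom : Subgroup G) : Set G) := by
    rw [← hsup]
    apply iSup_le
    intro i
    have := core V _ W hV2 (blk_le V W hsup) hind hcard b₁ b₂ hall i
    rwa [hsup]
  intro b hb hbN v hv
  exact (ab_comm V h hd hv (hVle hv).2 hb hbN).symm

include hcent hV2 hsup hind hcard hperm in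
/-- One-sided: a nontrivial element of `B(h)` gives two distinct nontrivial elements of `A(h)`. -/
theorem lemY (hr : ∃ i j : ι, i ≠ j) (h : G) (b : G)
    (hb : b ∈ V.map (MulAut.conj h).toMonoidHom) (hbN : b ∈ Subgroup.normalizer (V : Set G))
    (hb1 : b ≠ 1) :
    ∃ a₁ a₂ : G, a₁ ∈ V ∧
      a₁ ∈ Subgroup.normalizer ((V.map (MulAut.conj h).toMonoidHom : Subgroup G) : Set G) ∧
      a₂ ∈ V ∧
      a₂ ∈ Subgroup.normalizer ((V.map (MulAut.conj h).toMonoidHom : Subgroup G) : Set G) ∧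
      a₁ ≠ 1 ∧ a₂ ≠ 1 ∧ a₁ ≠ a₂ := by
  obtain ⟨v₁, hv₁, v₂, hv₂, h1, h2, h12, hc1, hc2⟩ :=
    two_fixed V W hV2 (blk_le V W hsup) hind hcard hr b (sq_conj V hV2 h hb)
      (blk_of_perm V W hperm hbN)
  exact ⟨v₁, v₂, hv₁, mem_norm_conj V hcent h hb hb1 hc1, hv₂,
    mem_norm_conj V hcent h hb hb1 hc2, h1, h2, h12⟩

include hcent hV2 hsup hind hcard hperm in
/-- **The dichotomy.** -/
theorem dich (hr : ∃ i j : ι, i ≠ j)
    (hTI : ∀ g : G, V ⊓ V.map (MulAut.conj g).toMonoidHom ≠ ⊥ →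
      V.map (MulAut.conj g).toMonoidHom = V)
    (g : G) (hg : V.map (MulAut.conj g).toMonoidHom ⊓ Subgroup.normalizer (V : Set G) ≠ ⊥) :
    V.map (MulAut.conj g).toMonoidHom ≤ Subgroup.centralizer (V : Set G) := by
  by_cases hgV : V.map (MulAut.conj g).toMonoidHom = V
  · rw [hgV]
    intro x hx
    rw [Subgroup.mem_centralizer_iff]
    intro y hy
    exact comm_of_sq hV2 hy hx
  have hd : V ⊓ V.map (MulAut.conj g).toMonoidHom = ⊥ := by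
    by_contra h
    exact hgV (hTI g h)
  have hd' : V ⊓ V.map (MulAut.conj g⁻¹).toMonoidHom = ⊥ := by
    by_contra h
    have h1 := hTI g⁻¹ h
    apply hgV
    ext x
    rw [mem_conj]
    constructor
    · intro hx
      have : g⁻¹ * x * g ∈ V.map (MulAut.conj g⁻¹).toMonoidHom := by rw [h1]; exact hx
      rw [mem_conj] at this
      have e : g⁻¹⁻¹ * (g⁻¹ * x * g) * g⁻¹ = x := by group
      rwa [e] at this
    · intro hx
      have : g⁻¹ * x * g ∈ V.map (MulAut.conj g⁻¹).toMonoidHom := by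
        rw [mem_conj]
        have e : g⁻¹⁻¹ * (g⁻¹ * x * g) * g⁻¹ = x := by group
        rwa [e]
      rwa [h1] at this
  obtain ⟨⟨b, hbm⟩, hb1⟩ := Subgroup.ne_bot_iff_exists_ne_one.mp hg
  have hb1' : b ≠ 1 := fun h => hb1 (Subtype.ext h)
  obtain ⟨a₁, a₂, ha₁, ha₁N, ha₂, ha₂N, h1, h2, h12⟩ :=
    lemY V W hcent hV2 hsup hind hcard hperm hr g b hbm.1 hbm.2 hb1'
  -- conjugate `a₁, a₂` by `g⁻¹`
  have cj : ∀ a, a ∈ V → a ∈ Subgroup.normalizer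
      ((V.map (MulAut.conj g).toMonoidHom : Subgroup G) : Set G) →
      g⁻¹ * a * g ∈ V.map (MulAut.conj g⁻¹).toMonoidHom ∧
        g⁻¹ * a * g ∈ Subgroup.normalizer (V : Set G) := by
    intro a ha haN
    refine ⟨?_, conj_normalizer.mp haN⟩
    rw [mem_conj]
    have e : g⁻¹⁻¹ * (g⁻¹ * a * g) * g⁻¹ = a := by group
    rwa [e]
  have cinj : ∀ a a' : G, g⁻¹ * a * g = g⁻¹ * a' * g → a = a' := by
    intro a a' h
    have : a = g * (g⁻¹ * a * g) * g⁻¹ := by group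
    rw [this, h]; group
  have hX := lemX V W hcent hV2 hsup hind hcard hperm g⁻¹ hd' (g⁻¹ * a₁ * g) (g⁻¹ * a₂ * g)
    (cj a₁ ha₁ ha₁N).1 (cj a₁ ha₁ ha₁N).2 (cj a₂ ha₂ ha₂N).1 (cj a₂ ha₂ ha₂N).2
    (fun h => h1 (cinj a₁ 1 (by rw [h]; group))) (fun h => h2 (cinj a₂ 1 (by rw [h]; group)))
    (fun h => h12 (cinj a₁ a₂ h))
  -- `a₁` centralizes `V^g`, hence `V^g ≤ N(V)`
  have hVgN : ∀ x ∈ V.map (MulAut.conj g).toMonoidHom, x ∈ Subgroup.normalizer (V : Set G) := by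
    intro x hx
    apply hcent a₁ ha₁ h1
    rw [Subgroup.mem_centralizer_iff]
    intro y hy
    rw [Set.mem_singleton_iff] at hy
    subst hy
    have h3 := hX (g⁻¹ * y * g) (cj y ha₁ ha₁N).1 (cj y ha₁ ha₁N).2 (g⁻¹ * x * g) (mem_conj.mp hx)
    calc y * x = g * ((g⁻¹ * y * g) * (g⁻¹ * x * g)) * g⁻¹ := by group
      _ = g * ((g⁻¹ * x * g) * (g⁻¹ * y * g)) * g⁻¹ := by rw [h3]
      _ = x * y := by group
  -- now `V^g = B(g)` has two distinct nontrivial elements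
  have up : ∀ a ∈ V, g * a * g⁻¹ ∈ V.map (MulAut.conj g).toMonoidHom := by
    intro a ha
    rw [mem_conj]
    have e : g⁻¹ * (g * a * g⁻¹) * g = a := by group
    rwa [e]
  have uinj : ∀ a a' : G, g * a * g⁻¹ = g * a' * g⁻¹ → a = a' := by
    intro a a' h
    have : a = g⁻¹ * (g * a * g⁻¹) * g := by group
    rw [this, h]; group
  have hX2 := lemX V W hcent hV2 hsup hind hcard hperm g hd (g * a₁ * g⁻¹) (g * a₂ * g⁻¹)
    (up a₁ ha₁) (hVgN _ (up a₁ ha₁)) (up a₂ ha₂) (hVgN _ (up a₂ ha₂))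
    (fun h => h1 (uinj a₁ 1 (by rw [h]; group))) (fun h => h2 (uinj a₂ 1 (by rw [h]; group)))
    (fun h => h12 (uinj a₁ a₂ h))
  intro x hx
  rw [Subgroup.mem_centralizer_iff]
  intro v hv
  exact (hX2 x hx (hVgN x hx) v hv).symm

end main

end Cfsg.Agent.H82.Jt
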