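import Cfsg.Agent.H82.JvCount

/-!
# The residual configuration of S2953, case `V ≤ Q₁` (abstract)

`Cfsg.Agent.H82.Jv.caseA`: `V` a TI four-group inside `Q₁ ≤ T'`, `Q₁ ≤ N_G(V)`, `k` of order 3
normalizing `Q₁` but not `V`; `A ≤ T'` of exponent 2 and of largest order among such subgroups of
`T'`, `a ∈ A` normalizing `V` and inverting `k` modulo `Q₁`, `A ⊆ Q₁ ∪ Q₁ a`.  Impossible: the
conjugates `V^k`, `V^(k⁻¹)` are commuting four-groups in `Q₁` swapped by `a`, and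
`Cfsg.Agent.H82.Jv.count` applies.
-/

set_option autoImplicit false

namespace Cfsg.Agent.H82.Jv

open Cfsg.Agent.H82.Jt

universe u

variable {G : Type u} [Group G]

/-- `Q` normalizes `V^g` when `g⁻¹ Q g ⊆ Q ≤ N(V)`. -/
theorem conj_norm {Q V : Subgroup G} (hQV : Q ≤ Subgroup.normalizer (V : Set G)) (g : G)
    (hg : ∀ q ∈ Q, g⁻¹ * q * g ∈ Q) :
    ∀ q ∈ Q, ∀ w ∈ V.map (MulAut.conj g).toMonoidHom,
      q * w * q⁻¹ ∈ V.map (MulAut.conj g).toMonoidHom := by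
  intro q hq w hw
  rw [mem_conj] at hw ⊢
  have h1 : g⁻¹ * (q * w * q⁻¹) * g = (g⁻¹ * q * g) * (g⁻¹ * w * g) * (g⁻¹ * q * g)⁻¹ := by
    group
  rw [h1]
  exact (Subgroup.mem_normalizer_iff.mp (hQV (hg q hq)) _).mp hw

/-- **Case `V ≤ Q₁`.** -/
theorem caseA [Finite G] (T' Q₁ V A : Subgroup G) (k a : G)
    (hQT : Q₁ ≤ T') (hVQ : V ≤ Q₁) (hV4 : Nat.card ↥V = 4) (hVe : ∀ v ∈ V, v * v = 1)
    (hTI : ∀ g : G, V ⊓ V.map (MulAut.conj g).toMonoidHom ≠ ⊥ →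
      g ∈ Subgroup.normalizer (V : Set G))
    (hQV : Q₁ ≤ Subgroup.normalizer (V : Set G))
    (hkQ : k ∈ Subgroup.normalizer (Q₁ : Set G)) (hk3 : k ^ 3 = 1)
    (hkV : k ∉ Subgroup.normalizer (V : Set G))
    (hAT : A ≤ T') (hAe : ∀ x ∈ A, x * x = 1)
    (hmax : ∀ B : Subgroup G, B ≤ T' → (∀ x ∈ B, x * x = 1) → Nat.card ↥B ≤ Nat.card ↥A)
    (haA : a ∈ A) (haV : a ∈ Subgroup.normalizer (V : Set G))
    (hak : a * k * a⁻¹ * k ∈ Q₁)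
    (hTQ : ∀ t ∈ A, t ∈ Q₁ ∨ t * a ∈ Q₁) : False := by
  classical
  have hkQ1 : ∀ q ∈ Q₁, k * q * k⁻¹ ∈ Q₁ := fun q hq =>
    (Subgroup.mem_normalizer_iff.mp hkQ q).mp hq
  have hkQ2 : ∀ q ∈ Q₁, k⁻¹ * q * k ∈ Q₁ := by
    intro q hq
    have h := (Subgroup.mem_normalizer_iff.mp hkQ (k⁻¹ * q * k)).mpr
    apply h
    have e : k * (k⁻¹ * q * k) * k⁻¹ = q := by group
    rw [e]; exact hq
  have hkQ2' : ∀ q ∈ Q₁, k⁻¹⁻¹ * q * k⁻¹ ∈ Q₁ := by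
    intro q hq
    rw [inv_inv]; exact hkQ1 q hq
  have hNV : ∀ q ∈ Q₁, ∀ v ∈ V, q * v * q⁻¹ ∈ V := fun q hq v hv =>
    (Subgroup.mem_normalizer_iff.mp (hQV hq) v).mp hv
  obtain ⟨V₁, hV₁⟩ : ∃ V₁ : Subgroup G, V₁ = V.map (MulAut.conj k).toMonoidHom := ⟨_, rfl⟩
  obtain ⟨V₂, hV₂⟩ : ∃ V₂ : Subgroup G, V₂ = V.map (MulAut.conj k⁻¹).toMonoidHom := ⟨_, rfl⟩
  have hm₁ : ∀ x : G, x ∈ V₁ ↔ k⁻¹ * x * k ∈ V := fun x => by rw [hV₁, mem_conj]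
  have hm₂ : ∀ x : G, x ∈ V₂ ↔ k * x * k⁻¹ ∈ V := fun x => by
    rw [hV₂, mem_conj, inv_inv]
  have hV₁Q : V₁ ≤ Q₁ := by
    intro x hx
    have h1 : k⁻¹ * x * k ∈ Q₁ := hVQ ((hm₁ x).mp hx)
    have e : x = k * (k⁻¹ * x * k) * k⁻¹ := by group
    rw [e]; exact hkQ1 _ h1
  have hV₂Q : V₂ ≤ Q₁ := by
    intro x hx
    have h1 : k * x * k⁻¹ ∈ Q₁ := hVQ ((hm₂ x).mp hx)
    have e : x = k⁻¹ * (k * x * k⁻¹) * k := by group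
    rw [e]; exact hkQ2 _ h1
  have hQV₁ : ∀ q ∈ Q₁, ∀ w ∈ V₁, q * w * q⁻¹ ∈ V₁ := by
    rw [hV₁]; exact conj_norm hQV k hkQ2
  have hQV₂ : ∀ q ∈ Q₁, ∀ w ∈ V₂, q * w * q⁻¹ ∈ V₂ := by
    rw [hV₂]; exact conj_norm hQV k⁻¹ hkQ2'
  -- `V₁ ∩ V₂ = 1`
  have hkk : k * k = k⁻¹ := by
    have h : k * k * k = 1 := by
      have := hk3
      rw [pow_succ, pow_two] at this
      exact this
    exact eq_inv_of_mul_eq_one_left h
  have hdisj : V₁ ⊓ V₂ = ⊥ := by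
    rw [eq_bot_iff]
    intro x hx
    rw [Subgroup.mem_bot]
    by_contra hx1
    obtain ⟨hx₁, hx₂⟩ := hx
    have hy : k⁻¹ * x * k ∈ V := (hm₁ x).mp hx₁
    have hy1 : k⁻¹ * x * k ≠ 1 := by
      intro h
      apply hx1
      have e : x = k * (k⁻¹ * x * k) * k⁻¹ := by group
      rw [e, h]; group
    have hy' : k⁻¹ * x * k ∈ V.map (MulAut.conj (k * k)⁻¹).toMonoidHom := by
      rw [mem_conj, inv_inv]
      have e : k * k * (k⁻¹ * x * k) * (k * k)⁻¹ = k * x * k⁻¹ := by group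
      rw [e]; exact (hm₂ x).mp hx₂
    have hne : V ⊓ V.map (MulAut.conj (k * k)⁻¹).toMonoidHom ≠ ⊥ := by
      intro hbot
      have : k⁻¹ * x * k ∈ V ⊓ V.map (MulAut.conj (k * k)⁻¹).toMonoidHom := ⟨hy, hy'⟩
      rw [hbot, Subgroup.mem_bot] at this
      exact hy1 this
    have h1 := hTI _ hne
    rw [hkk, inv_inv] at h1
    exact hkV h1
  have hbot : ∀ x, x ∈ V₁ → x ∈ V₂ → x = 1 := fun x h1 h2 => by
    have : x ∈ V₁ ⊓ V₂ := ⟨h1, h2⟩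
    rw [hdisj] at this; exact Subgroup.mem_bot.mp this
  have hcomm : ∀ w₁ ∈ V₁, ∀ w₂ ∈ V₂, w₁ * w₂ = w₂ * w₁ := by
    intro w₁ h1 w₂ h2
    have hc1 : w₁ * w₂ * w₁⁻¹ * w₂⁻¹ ∈ V₂ :=
      V₂.mul_mem (hQV₂ w₁ (hV₁Q h1) w₂ h2) (V₂.inv_mem h2)
    have hc2 : w₁ * w₂ * w₁⁻¹ * w₂⁻¹ ∈ V₁ := by
      have e : w₁ * w₂ * w₁⁻¹ * w₂⁻¹ = w₁ * (w₂ * w₁⁻¹ * w₂⁻¹) := by group
      rw [e]
      exact V₁.mul_mem h1 (hQV₁ w₂ (hV₂Q h2) _ (V₁.inv_mem h1))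
    have h3 := hbot _ hc2 hc1
    calc w₁ * w₂ = (w₁ * w₂ * w₁⁻¹ * w₂⁻¹) * (w₂ * w₁) := by group
      _ = w₂ * w₁ := by rw [h3, one_mul]
  have hc₁ : Nat.card ↥V₁ = 4 := by
    rw [hV₁, Subgroup.card_map_of_injective (MulAut.conj k).injective, hV4]
  have hc₂ : Nat.card ↥V₂ = 4 := by
    rw [hV₂, Subgroup.card_map_of_injective (MulAut.conj k⁻¹).injective, hV4]
  have he₁ : ∀ w ∈ V₁, w * w = 1 := by
    intro w hw
    have h1 := hVe _ ((hm₁ w).mp hw)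
    have e : w * w = k * ((k⁻¹ * w * k) * (k⁻¹ * w * k)) * k⁻¹ := by group
    rw [e, h1]; group
  have he₂ : ∀ w ∈ V₂, w * w = 1 := by
    intro w hw
    have h1 := hVe _ ((hm₂ w).mp hw)
    have e : w * w = k⁻¹ * ((k * w * k⁻¹) * (k * w * k⁻¹)) * k := by group
    rw [e, h1]; group
  have haV' : ∀ v ∈ V, a * v * a⁻¹ ∈ V := fun v hv =>
    (Subgroup.mem_normalizer_iff.mp haV v).mp hv
  have hswap : ∀ w ∈ V₁, a * w * a⁻¹ ∈ V₂ := by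
    intro w hw
    rw [hm₂]
    have hv : k⁻¹ * w * k ∈ V := (hm₁ w).mp hw
    have hv' : a * (k⁻¹ * w * k) * a⁻¹ ∈ V := haV' _ hv
    have hq : k * (a * k * a⁻¹ * k) * k⁻¹ ∈ Q₁ := hkQ1 _ hak
    have e : k * (a * w * a⁻¹) * k⁻¹ =
        (k * (a * k * a⁻¹ * k) * k⁻¹) * (a * (k⁻¹ * w * k) * a⁻¹) *
          (k * (a * k * a⁻¹ * k) * k⁻¹)⁻¹ := by group
    rw [e]
    exact hNV _ hq _ hv'
  have hswap' : ∀ w ∈ V₂, a * w * a⁻¹ ∈ V₁ := by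
    intro w hw
    rw [hm₁]
    have hv : k * w * k⁻¹ ∈ V := (hm₂ w).mp hw
    have hv' : a * (k * w * k⁻¹) * a⁻¹ ∈ V := haV' _ hv
    have hq : (a * k * a⁻¹ * k)⁻¹ ∈ Q₁ := Q₁.inv_mem hak
    have e : k⁻¹ * (a * w * a⁻¹) * k =
        (a * k * a⁻¹ * k)⁻¹ * (a * (k * w * k⁻¹) * a⁻¹) * (a * k * a⁻¹ * k)⁻¹⁻¹ := by group
    rw [e]
    exact hNV _ hq _ hv'
  -- the index-2 subgroup `A₀ = A ∩ Q₁`
  have hidx : Nat.card ↥A ≤ 2 * Nat.card ↥(A ⊓ Q₁ : Subgroup G) := by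
    let f : ↥A → ↥(A ⊓ Q₁ : Subgroup G) × Bool := fun x =>
      if h : (x : G) ∈ Q₁ then (⟨x, ⟨x.2, h⟩⟩, false)
      else (⟨(x : G) * a, ⟨A.mul_mem x.2 haA, (hTQ x x.2).resolve_left h⟩⟩, true)
    have hf : Function.Injective f := by
      intro x y hxy
      by_cases hx : (x : G) ∈ Q₁ <;> by_cases hy : (y : G) ∈ Q₁
      · simp only [f, dif_pos hx, dif_pos hy] at hxy
        have h1 := congrArg (fun p : ↥(A ⊓ Q₁ : Subgroup G) × Bool => ((p.1 : ↥(A ⊓ Q₁ : Subgroup G)) : G)) hxy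
        exact Subtype.ext h1
      · simp only [f, dif_pos hx, dif_neg hy, Prod.mk.injEq] at hxy
        exact absurd hxy.2 (by decide)
      · simp only [f, dif_neg hx, dif_pos hy, Prod.mk.injEq] at hxy
        exact absurd hxy.2 (by decide)
      · simp only [f, dif_neg hx, dif_neg hy] at hxy
        have h1 := congrArg (fun p : ↥(A ⊓ Q₁ : Subgroup G) × Bool => ((p.1 : ↥(A ⊓ Q₁ : Subgroup G)) : G)) hxy
        exact Subtype.ext (mul_right_cancel h1)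
    have h := Nat.card_le_card_of_injective f hf
    have hb : Nat.card Bool = 2 := by
      rw [Nat.card_eq_fintype_card, Fintype.card_bool]
    rw [Nat.card_prod, hb] at h
    omega
  exact count T' V₁ V₂ A (A ⊓ Q₁) a (hV₁Q.trans hQT) (hV₂Q.trans hQT) hc₁ hc₂ he₁ he₂ hdisj hcomm
    hAT hAe hmax inf_le_left hidx haA hswap hswap'
    (fun x hx w hw => hQV₁ x hx.2 w hw)

end Cfsg.Agent.H82.Jv
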