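import Cfsg.Agent.Lib.Helper30.BG12TDefs
import Cfsg.Agent.H31.PLen

set_option autoImplicit false

/-!
Piece BG12T-FRAT of the team project BG12T (helper30): `p`-length one and the Frattini argument.
-/

namespace Cfsg.Agent.H82.BG12T

open Cfsg Subgroup Cfsg.Agent.H58.BG10 Cfsg.Agent.H57.BG12 Cfsg.Agent.Lib.Helper30.BG12T

universe u

variable {G : Type u} [Group G] [Finite G]

theorem frat (_hG : IsMinSimpleOddOrder G) (h10 : St1410 G) : StFrat G := by
  intro p _ S H L hH hSH hNL hW
  have hpl : PLengthLE p 1 H := h10 p H hH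
  obtain ⟨K, hKn, hKc, hsup⟩ :=
    Cfsg.Agent.H31.exists_normal_pprime_of_plength_one p hpl (S.subtype hSH)
  intro h hh
  have hmem : (⟨h, hh⟩ : H) ∈ (((normalizer (((S.subtype hSH : Sylow p H) : Subgroup H) : Set H)
      ⊔ K : Subgroup H)) : Set H) := by
    rw [hsup]
    exact mem_top _
  haveI := hKn
  rw [Subgroup.mul_normal] at hmem
  obtain ⟨n, hn, k, hk, hnk⟩ := Set.mem_mul.mp hmem
  have h1 : (n : G) ∈ L := by
    apply hNL
    refine ⟨n.2, ?_⟩
    have h3 := Subgroup.le_normalizer_map H.subtype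
      (H := ((S.subtype hSH : Sylow p H) : Subgroup H)) ⟨n, hn, rfl⟩
    rw [Sylow.coe_subtype, Subgroup.subgroupOf_map_subtype, inf_eq_left.mpr hSH] at h3
    exact h3
  have h2 : (k : G) ∈ L := by
    refine hW (K.map H.subtype) (Subgroup.map_subtype_le K) ?_ ?_ ⟨k, hk, rfl⟩
    · intro x hx
      exact Subgroup.le_normalizer_map H.subtype (H := K)
        ⟨⟨x, hx⟩, by rw [Subgroup.normalizer_eq_top]; exact mem_top _, rfl⟩
    · rw [Subgroup.card_map_of_injective H.subtype_injective]
      intro hdvd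
      have h3 := Nat.Coprime.eq_one_of_dvd hKc.symm hdvd
      exact (Fact.out : p.Prime).one_lt.ne' h3
  have h5 : h = (n : G) * (k : G) := by
    have h6 := congrArg Subtype.val hnk
    simpa using h6.symm
  rw [h5]
  exact L.mul_mem h1 h2

end Cfsg.Agent.H82.BG12T
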