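import Cfsg.Agent.H48.SpUDefs

set_option autoImplicit false

open Matrix
open Cfsg.Agent.H48.SpU

namespace Cfsg.Agent.H82.SpU

universe u

section acard

variable {F : Type*} [Field F] {m : ℕ}

theorem mem_ASet_J_iff (a b c d : Matrix (Fin m) (Fin m) F) :
    fromBlocks a b c d ∈ ASet (Matrix.J (Fin m) F) ↔ bᵀ = b ∧ cᵀ = c ∧ d = -1 - aᵀ := by
  unfold ASet
  rw [Set.mem_setOf_eq]
  unfold Matrix.J
  rw [fromBlocks_transpose, fromBlocks_multiply, fromBlocks_multiply, fromBlocks_add,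
    fromBlocks_neg, fromBlocks_inj]
  simp only [Matrix.zero_mul, Matrix.mul_zero, Matrix.one_mul, Matrix.mul_one, Matrix.neg_mul,
    Matrix.mul_neg, zero_add, add_zero, neg_zero, neg_neg]
  constructor
  · rintro ⟨h1, h2, _, h4⟩
    refine ⟨(add_neg_eq_zero.mp h4).symm, (neg_add_eq_zero.mp h1).symm, ?_⟩
    have h5 : d = -(-d + -aᵀ) - aᵀ := by abel
    rw [h5, h2]
  · rintro ⟨hb, hc, hd⟩
    subst hd
    refine ⟨?_, ?_, ?_, ?_⟩
    · rw [hc]; abel
    · abel
    · rw [Matrix.transpose_sub, Matrix.transpose_neg, Matrix.transpose_one,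
        Matrix.transpose_transpose]; abel
    · rw [hb]; abel

/-- symmetric matrices -/
abbrev SymM (F : Type*) [Field F] (m : ℕ) : Type _ := {b : Matrix (Fin m) (Fin m) F // bᵀ = b}

theorem mem_ASet_J_blocks (X : Matrix (Fin m ⊕ Fin m) (Fin m ⊕ Fin m) F)
    (hX : X ∈ ASet (Matrix.J (Fin m) F)) :
    (X.toBlocks₁₂)ᵀ = X.toBlocks₁₂ ∧ (X.toBlocks₂₁)ᵀ = X.toBlocks₂₁ ∧
      X.toBlocks₂₂ = -1 - (X.toBlocks₁₁)ᵀ := by
  have h : fromBlocks X.toBlocks₁₁ X.toBlocks₁₂ X.toBlocks₂₁ X.toBlocks₂₂ ∈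
      ASet (Matrix.J (Fin m) F) := by
    rw [fromBlocks_toBlocks]; exact hX
  exact (mem_ASet_J_iff _ _ _ _).mp h

/-- the affine space `ASet J` in block coordinates -/
def aEquiv : ↥(ASet (Matrix.J (Fin m) F)) ≃
    Matrix (Fin m) (Fin m) F × SymM F m × SymM F m where
  toFun X := (X.1.toBlocks₁₁, ⟨X.1.toBlocks₁₂, (mem_ASet_J_blocks X.1 X.2).1⟩,
    ⟨X.1.toBlocks₂₁, (mem_ASet_J_blocks X.1 X.2).2.1⟩)
  invFun t := ⟨fromBlocks t.1 t.2.1.1 t.2.2.1 (-1 - t.1ᵀ),
    (mem_ASet_J_iff _ _ _ _).mpr ⟨t.2.1.2, t.2.2.2, rfl⟩⟩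
  left_inv X := by
    apply Subtype.ext
    show fromBlocks X.1.toBlocks₁₁ X.1.toBlocks₁₂ X.1.toBlocks₂₁ (-1 - (X.1.toBlocks₁₁)ᵀ) = X.1
    rw [← (mem_ASet_J_blocks X.1 X.2).2.2, fromBlocks_toBlocks]
  right_inv t := by
    rcases t with ⟨a, ⟨b, hb⟩, ⟨c, hc⟩⟩
    simp only [toBlocks_fromBlocks₁₁, toBlocks_fromBlocks₁₂, toBlocks_fromBlocks₂₁]

/-- pairs of symmetric matrices ↔ a full matrix and a diagonal -/
def symPairEquiv : SymM F m × SymM F m ≃ Matrix (Fin m) (Fin m) F × (Fin m → F) where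
  toFun t := (Matrix.of fun i j => if i ≤ j then t.1.1 i j else t.2.1 i j, fun i => t.2.1 i i)
  invFun s := (⟨Matrix.of fun i j => if i ≤ j then s.1 i j else s.1 j i, by
      ext i j
      simp only [Matrix.transpose_apply, Matrix.of_apply]
      by_cases h : i ≤ j
      · by_cases h' : j ≤ i
        · have hij : i = j := le_antisymm h h'
          subst hij; rfl
        · simp [h, h']
      · have h' : j ≤ i := le_of_not_ge h
        simp [h, h']⟩,
    ⟨Matrix.of fun i j => if j < i then s.1 i j else if i < j then s.1 j i else s.2 i, by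
      ext i j
      simp only [Matrix.transpose_apply, Matrix.of_apply]
      rcases lt_trichotomy i j with h | h | h
      · simp [h, not_lt.mpr h.le]
      · subst h; simp
      · simp [h, not_lt.mpr h.le]⟩)
  left_inv t := by
    rcases t with ⟨⟨b, hb⟩, ⟨c, hc⟩⟩
    have hb' : ∀ i j, b j i = b i j := fun i j => congrFun (congrFun hb i) j
    have hc' : ∀ i j, c j i = c i j := fun i j => congrFun (congrFun hc i) j
    refine Prod.ext (Subtype.ext ?_) (Subtype.ext ?_)
    · ext i j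
      simp only [Matrix.of_apply]
      by_cases h : i ≤ j
      · simp [h]
      · have h' : j ≤ i := le_of_not_ge h
        simp [h, h', hb' i j]
    · ext i j
      simp only [Matrix.of_apply]
      rcases lt_trichotomy i j with h | h | h
      · simp [h, not_lt.mpr h.le, not_le.mpr h, hc' i j]
      · subst h; simp
      · simp [h, not_le.mpr h]
  right_inv s := by
    rcases s with ⟨Z, δ⟩
    refine Prod.ext ?_ ?_
    · ext i j
      simp only [Matrix.of_apply]
      by_cases h : i ≤ j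
      · simp [h]
      · have h' : j < i := not_le.mp h
        simp [h, h']
    · funext i
      simp

end acard

theorem aCard : ACardStmt.{u} := by
  intro F _ _ m
  classical
  have hmat : Nat.card (Matrix (Fin m) (Fin m) F) = Fintype.card F ^ (m * m) := by
    show Nat.card (Fin m → Fin m → F) = _
    rw [Nat.card_fun, Nat.card_fun, Nat.card_eq_fintype_card (α := F), Nat.card_eq_fintype_card,
      Fintype.card_fin, ← pow_mul]
  have hvec : Nat.card (Fin m → F) = Fintype.card F ^ m := by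
    rw [Nat.card_fun, Nat.card_eq_fintype_card (α := F), Nat.card_eq_fintype_card,
      Fintype.card_fin]
  rw [Nat.card_congr aEquiv, Nat.card_prod, Nat.card_congr symPairEquiv, Nat.card_prod, hmat,
    hvec]
  ring

example : ACardStmt.{u} := aCard

end Cfsg.Agent.H82.SpU
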