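import Cfsg.Agent.H48.SpUDefs

set_option autoImplicit false

open Matrix
open Cfsg.Agent.H48.SpU

namespace Cfsg.Agent.H82.SpU

universe u

theorem card_eq_sum_fiber {α : Type*} [Fintype α] (S : Set α) (f : α → ℕ) (n : ℕ)
    (hf : ∀ x ∈ S, f x < n) :
    Nat.card S = ∑ j ∈ Finset.range n, Nat.card {x | x ∈ S ∧ f x = j} := by
  classical
  have key : ∀ T : Set α, Nat.card T = (Finset.univ.filter (fun x => x ∈ T)).card := by
    intro T
    rw [Nat.card_eq_fintype_card, Fintype.card_subtype]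
  have hmaps : Set.MapsTo f ↑(Finset.univ.filter (fun x => x ∈ S)) ↑(Finset.range n) := by
    intro x hx
    have hx' : x ∈ Finset.univ.filter (fun x => x ∈ S) := hx
    rw [Finset.mem_filter] at hx'
    exact Finset.mem_coe.mpr (Finset.mem_range.mpr (hf x hx'.2))
  rw [key, Finset.card_eq_sum_card_fiberwise hmaps]
  apply Finset.sum_congr rfl
  intro j _
  rw [key]
  congr 1
  ext x
  simp

theorem sumU (hE : EvenStmt.{u}) (hP : PerpUStmt.{u}) (hF : FittStmt.{u}) : SumUStmt.{u} := by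
  intro F _ _ ι _ _ M m hM hcard
  have hrank : ∀ g ∈ SpSet M, ∃ j, j ≤ m ∧ (((g - 1) ^ (2 * m)).rank = 2 * j) := by
    intro g hg
    have hev : Even ((g - 1) ^ (2 * m)).rank := by
      apply hE F ι M ((g - 1) ^ (2 * m)) hM
      · exact hP F ι M g (2 * m) hM.2 hg
      · exact hF F ι (g - 1) (2 * m) (le_of_eq hcard)
    obtain ⟨j, hj⟩ := hev
    have hle : ((g - 1) ^ (2 * m)).rank ≤ Fintype.card ι := Matrix.rank_le_card_width _
    exact ⟨j, by omega, by omega⟩
  rw [card_eq_sum_fiber (SpSet M) (fun g => ((g - 1) ^ (2 * m)).rank / 2) (m + 1)]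
  · apply Finset.sum_congr rfl
    intro j _
    have hset : {g | g ∈ SpSet M ∧ ((g - 1) ^ (2 * m)).rank / 2 = j} = SpR M (2 * m) (2 * j) := by
      ext g
      constructor
      · rintro ⟨hg, hj⟩
        obtain ⟨j', _, hj'⟩ := hrank g hg
        refine ⟨hg, ?_⟩
        omega
      · rintro ⟨hg, hj⟩
        refine ⟨hg, ?_⟩
        show ((g - 1) ^ (2 * m)).rank / 2 = j
        omega
    rw [hset]
  · intro g hg
    obtain ⟨j, hj, hj'⟩ := hrank g hg
    show ((g - 1) ^ (2 * m)).rank / 2 < m + 1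
    omega

example (hE : EvenStmt.{u}) (hP : PerpUStmt.{u}) (hF : FittStmt.{u}) : SumUStmt.{u} :=
  sumU hE hP hF

end Cfsg.Agent.H82.SpU
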