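import Cfsg.Agent.H48.SpUDefs

set_option autoImplicit false

open Matrix
open Cfsg.Agent.H48.SpU

namespace Cfsg.Agent.H82.SpU

universe u

section conj

variable {F : Type*} [Field F] {ι ι' : Type*} [Fintype ι] [DecidableEq ι] [Fintype ι']
  [DecidableEq ι']

/-- the ring isomorphism `X ↦ P X Q` for mutually inverse rectangular matrices -/
def conjR (P : Matrix ι ι' F) (Q : Matrix ι' ι F) (hPQ : P * Q = 1) (hQP : Q * P = 1) :
    Matrix ι' ι' F ≃+* Matrix ι ι F where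
  toFun X := P * X * Q
  invFun Y := Q * Y * P
  left_inv X := by
    show Q * (P * X * Q) * P = X
    calc Q * (P * X * Q) * P = (Q * P) * X * (Q * P) := by simp only [Matrix.mul_assoc]
      _ = X := by rw [hQP, Matrix.one_mul, Matrix.mul_one]
  right_inv Y := by
    show P * (Q * Y * P) * Q = Y
    calc P * (Q * Y * P) * Q = (P * Q) * Y * (P * Q) := by simp only [Matrix.mul_assoc]
      _ = Y := by rw [hPQ, Matrix.one_mul, Matrix.mul_one]
  map_mul' X Y := by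
    show P * (X * Y) * Q = (P * X * Q) * (P * Y * Q)
    calc P * (X * Y) * Q = P * X * (Y * Q) := by simp only [Matrix.mul_assoc]
      _ = P * X * ((Q * P) * (Y * Q)) := by rw [hQP, Matrix.one_mul]
      _ = (P * X * Q) * (P * Y * Q) := by simp only [Matrix.mul_assoc]
  map_add' X Y := by
    show P * (X + Y) * Q = P * X * Q + P * Y * Q
    rw [Matrix.mul_add, Matrix.add_mul]

theorem conjR_apply (P : Matrix ι ι' F) (Q : Matrix ι' ι F) (hPQ : P * Q = 1) (hQP : Q * P = 1)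
    (X : Matrix ι' ι' F) : conjR P Q hPQ hQP X = P * X * Q := rfl

theorem conjR_rank (P : Matrix ι ι' F) (Q : Matrix ι' ι F) (hPQ : P * Q = 1) (hQP : Q * P = 1)
    (X : Matrix ι' ι' F) : (conjR P Q hPQ hQP X).rank = X.rank := by
  rw [conjR_apply]
  apply le_antisymm
  · exact (Matrix.rank_mul_le_left _ _).trans (Matrix.rank_mul_le_right _ _)
  · have h : X = Q * (P * X * Q) * P := ((conjR P Q hPQ hQP).left_inv X).symm
    calc X.rank = (Q * (P * X * Q) * P).rank := by rw [← h]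
      _ ≤ (Q * (P * X * Q)).rank := Matrix.rank_mul_le_left _ _
      _ ≤ (P * X * Q).rank := Matrix.rank_mul_le_right _ _

end conj

theorem trans : TransStmt.{u} := by
  intro F _ _ ι ι' _ _ _ _ M M' P Q hPQ hQP hM
  classical
  set e := conjR P Q hPQ hQP with he
  have hPtQt : Pᵀ * Qᵀ = 1 := by rw [← Matrix.transpose_mul, hQP, Matrix.transpose_one]
  have hQtPt : Qᵀ * Pᵀ = 1 := by rw [← Matrix.transpose_mul, hPQ, Matrix.transpose_one]
  have hMQ : M = Qᵀ * M' * Q := by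
    rw [← hM]
    calc M = (Qᵀ * Pᵀ) * M * (P * Q) := by rw [hPQ, hQtPt, Matrix.one_mul, Matrix.mul_one]
      _ = Qᵀ * (Pᵀ * M * P) * Q := by simp only [Matrix.mul_assoc]
  have finj : ∀ Z Z' : Matrix ι' ι' F, Qᵀ * Z * Q = Qᵀ * Z' * Q → Z = Z' := by
    intro Z Z' h
    have h2 : ∀ W : Matrix ι' ι' F, Pᵀ * (Qᵀ * W * Q) * P = W := by
      intro W
      calc Pᵀ * (Qᵀ * W * Q) * P = (Pᵀ * Qᵀ) * W * (Q * P) := by simp only [Matrix.mul_assoc]
        _ = W := by rw [hPtQt, hQP, Matrix.one_mul, Matrix.mul_one]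
    rw [← h2 Z, ← h2 Z', h]
  have hsp : ∀ X : Matrix ι' ι' F, (e X)ᵀ * M * (e X) = Qᵀ * (Xᵀ * M' * X) * Q := by
    intro X
    show (P * X * Q)ᵀ * M * (P * X * Q) = _
    calc (P * X * Q)ᵀ * M * (P * X * Q) = Qᵀ * Xᵀ * (Pᵀ * M * P) * X * Q := by
          simp only [Matrix.transpose_mul, Matrix.mul_assoc]
      _ = Qᵀ * (Xᵀ * M' * X) * Q := by rw [hM]; simp only [Matrix.mul_assoc]
  have hA : ∀ X : Matrix ι' ι' F, M * (e X) + (e X)ᵀ * M = Qᵀ * (M' * X + Xᵀ * M') * Q := by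
    intro X
    show M * (P * X * Q) + (P * X * Q)ᵀ * M = _
    have h1 : M * (P * X * Q) = Qᵀ * (M' * X) * Q := by
      calc M * (P * X * Q) = Qᵀ * M' * (Q * P) * X * Q := by
            rw [hMQ]; simp only [Matrix.mul_assoc]
        _ = Qᵀ * (M' * X) * Q := by rw [hQP, Matrix.mul_one]; simp only [Matrix.mul_assoc]
    have h2 : (P * X * Q)ᵀ * M = Qᵀ * (Xᵀ * M') * Q := by
      calc (P * X * Q)ᵀ * M = Qᵀ * Xᵀ * (Pᵀ * Qᵀ) * M' * Q := by
            rw [hMQ]; simp only [Matrix.transpose_mul, Matrix.mul_assoc]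
        _ = Qᵀ * (Xᵀ * M') * Q := by rw [hPtQt, Matrix.mul_one]; simp only [Matrix.mul_assoc]
    rw [h1, h2, Matrix.mul_add, Matrix.add_mul]
  have hnegM : -M = Qᵀ * (-M') * Q := by
    rw [Matrix.mul_neg, Matrix.neg_mul, ← hMQ]
  have cSp : ∀ X : Matrix ι' ι' F, Xᵀ * M' * X = M' ↔ (e X)ᵀ * M * (e X) = M := by
    intro X
    rw [hsp X]
    constructor
    · intro h; rw [h, ← hMQ]
    · intro h; exact finj _ _ (h.trans hMQ)
  have cA : ∀ X : Matrix ι' ι' F, M' * X + Xᵀ * M' = -M' ↔ M * (e X) + (e X)ᵀ * M = -M := by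
    intro X
    rw [hA X]
    constructor
    · intro h; rw [h, ← hnegM]
    · intro h; exact finj _ _ (h.trans hnegM)
  have e_sub_one : ∀ X : Matrix ι' ι' F, e X - 1 = e (X - 1) := by
    intro X; rw [map_sub, map_one]
  have e_add_one : ∀ X : Matrix ι' ι' F, e X + 1 = e (X + 1) := by
    intro X; rw [map_add, map_one]
  have cNil : ∀ Z : Matrix ι' ι' F, IsNilpotent Z ↔ IsNilpotent (e Z) :=
    fun Z => (IsNilpotent.map_iff e.injective).symm
  have cUnit : ∀ Z : Matrix ι' ι' F, IsUnit Z ↔ IsUnit (e Z) :=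
    fun Z => (isUnit_map_iff e Z).symm
  have cRank : ∀ Z : Matrix ι' ι' F, (e Z).rank = Z.rank := fun Z => conjR_rank P Q hPQ hQP Z
  refine ⟨?_, ?_, ?_, ?_, ?_, ?_, ?_, ?_⟩
  · exact Nat.card_congr (e.toEquiv.subtypeEquiv (fun X => cSp X))
  · refine Nat.card_congr (e.toEquiv.subtypeEquiv (fun X => ?_))
    show (Xᵀ * M' * X = M' ∧ IsNilpotent (X - 1)) ↔
      ((e X)ᵀ * M * (e X) = M ∧ IsNilpotent (e X - 1))
    rw [e_sub_one, ← cNil, ← cSp]
  · refine Nat.card_congr (e.toEquiv.subtypeEquiv (fun X => ?_))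
    show (Xᵀ * M' * X = M' ∧ IsUnit (X - 1)) ↔
      ((e X)ᵀ * M * (e X) = M ∧ IsUnit (e X - 1))
    rw [e_sub_one, ← cUnit, ← cSp]
  · exact Nat.card_congr (e.toEquiv.subtypeEquiv (fun X => cA X))
  · refine Nat.card_congr (e.toEquiv.subtypeEquiv (fun X => ?_))
    show (M' * X + Xᵀ * M' = -M' ∧ IsNilpotent (X * (X + 1))) ↔
      (M * (e X) + (e X)ᵀ * M = -M ∧ IsNilpotent (e X * (e X + 1)))
    rw [e_add_one, ← map_mul, ← cNil, ← cA]
  · refine Nat.card_congr (e.toEquiv.subtypeEquiv (fun X => ?_))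
    show (M' * X + Xᵀ * M' = -M' ∧ IsUnit X) ↔
      (M * (e X) + (e X)ᵀ * M = -M ∧ IsUnit (e X))
    rw [← cUnit, ← cA]
  · intro n r
    refine Nat.card_congr (e.toEquiv.subtypeEquiv (fun X => ?_))
    show (Xᵀ * M' * X = M' ∧ ((X - 1) ^ n).rank = r) ↔
      ((e X)ᵀ * M * (e X) = M ∧ ((e X - 1) ^ n).rank = r)
    rw [e_sub_one, ← map_pow, cRank, ← cSp]
  · intro n r
    refine Nat.card_congr (e.toEquiv.subtypeEquiv (fun X => ?_))
    show (M' * X + Xᵀ * M' = -M' ∧ ((X * (X + 1)) ^ n).rank = r) ↔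
      (M * (e X) + (e X)ᵀ * M = -M ∧ ((e X * (e X + 1)) ^ n).rank = r)
    rw [e_add_one, ← map_mul, ← map_pow, cRank, ← cA]

example : TransStmt.{u} := trans

end Cfsg.Agent.H82.SpU
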