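import Mathlib
import Cfsg.Prelude.Def_Spor_Conway
import Cfsg.Agent.H6.Co3Defs0

/-!
# The Conway group Co3 of the Prelude and the stabiliser of the standard vector

Pieces CO3-ISO and CO3-SIMPLE of the team project S2071 (led by helper6).
-/

set_option autoImplicit false
set_option maxRecDepth 100000

namespace Cfsg.Agent.H82.Co3P

open Cfsg Cfsg.Agent.H9 Cfsg.Agent.H93 Cfsg.Agent.H33 Cfsg.Agent.H6.Co3

theorem vecV_sq48 : sqNorm Spor.vecV = 48 := by decide +kernel

/-- the group of the Prelude as a stabiliser in the automorphism group of the lattice -/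
noncomputable def co3Equiv : ↥Spor.Co3 ≃* ↥(MulAction.stabilizer ↥Co0 Spor.leechV) where
  toFun g := ⟨⟨g.1, g.2.1⟩,
    MulAction.mem_stabilizer_iff.mpr (MulAction.mem_stabilizer_iff.mp g.2.2)⟩
  invFun g := ⟨g.1.1, ⟨g.1.2, MulAction.mem_stabilizer_iff.mpr (MulAction.mem_stabilizer_iff.mp g.2)⟩⟩
  left_inv _ := rfl
  right_inv _ := rfl
  map_mul' _ _ := rfl

/-- piece CO3-ISO -/
theorem iso : StIso := by
  have hv : sqNorm ((Spor.leechV : leechLattice) : GolayPt → ℤ) = 48 := vecV_sq48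
  obtain ⟨h, hh, he⟩ := co0_trans48 Spor.leechV a48 hv a48_sq
  exact ⟨co3Equiv.trans (conjEquiv _ _ (⟨h, hh⟩ : ↥Co0) (stab_conj h hh Spor.leechV a48 he))⟩

/-- piece CO3-SIMPLE -/
theorem simple : StSimple := co3_isCo3 a48 a48_sq

example : Cfsg.Agent.H6.Co3.StIso := iso

example : Cfsg.Agent.H6.Co3.StSimple := simple

end Cfsg.Agent.H82.Co3P
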