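import Cfsg.Agent.H42.SpnDefs

set_option autoImplicit false

/-!
Shared lemma for the pieces SPN-UCYC1 and SPN-UCYC2 of the team project S5956 (helper42):
the span of the Jordan chains of a family of vectors killed by `(T - 1) ^ e` whose socle pairs
nondegenerately with the family is an invariant nondegenerate subspace with known kernels.
-/

namespace Cfsg.Agent.H82.Spn

open Cfsg.Agent.H45 Cfsg.Agent.H42.Spd Cfsg.Agent.H42.Spn Module

universe u v

section Cyc

variable {F : Type u} [Field F] {V : Type v} [AddCommGroup V] [Module F V]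
  {ι : Type} [Fintype ι]

/-- The span of the vectors `N ^ l (u k)` with `i ≤ l`. -/
def cycSpan (N : Module.End F V) (u : ι → V) (i : ℕ) : Submodule F V :=
  Submodule.span F {x | ∃ k l, i ≤ l ∧ x = (N ^ l) (u k)}

theorem cycSpan_map (N : Module.End F V) (u : ι → V) (i j : ℕ) :
    (cycSpan N u i).map (N ^ j) = cycSpan N u (i + j) := by
  unfold cycSpan
  rw [Submodule.map_span]
  congr 1
  ext x
  constructor
  · rintro ⟨y, ⟨k, l, hl, rfl⟩, rfl⟩
    refine ⟨k, l + j, by omega, ?_⟩
    rw [← Module.End.mul_apply, ← pow_add, add_comm]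
  · rintro ⟨k, l, hl, rfl⟩
    refine ⟨(N ^ (l - j)) (u k), ⟨k, l - j, by omega, rfl⟩, ?_⟩
    rw [← Module.End.mul_apply, ← pow_add]
    congr 2
    omega

theorem cycSpan_anti (N : Module.End F V) (u : ι → V) {i j : ℕ} (h : i ≤ j) :
    cycSpan N u j ≤ cycSpan N u i := by
  unfold cycSpan
  apply Submodule.span_mono
  rintro x ⟨k, l, hl, rfl⟩
  exact ⟨k, l, by omega, rfl⟩

theorem pow_apply_eq_zero_of_le (N : Module.End F V) {e l : ℕ} (h : e ≤ l) {x : V}
    (hx : (N ^ e) x = 0) : (N ^ l) x = 0 := by
  have : l = (l - e) + e := by omega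
  rw [this, pow_add, Module.End.mul_apply, hx, map_zero]

theorem cycSpan_eq_bot (N : Module.End F V) (u : ι → V) {e i : ℕ} (h : e ≤ i)
    (hN : ∀ k, (N ^ e) (u k) = 0) : cycSpan N u i = ⊥ := by
  unfold cycSpan
  rw [Submodule.span_eq_bot]
  rintro x ⟨k, l, hl, rfl⟩
  exact pow_apply_eq_zero_of_le N (by omega) (hN k)

theorem cycSpan_finrank_le [FiniteDimensional F V] (N : Module.End F V) (u : ι → V) (e i : ℕ)
    (hN : ∀ k, (N ^ e) (u k) = 0) :
    Module.finrank F ↥(cycSpan N u i) ≤ Fintype.card ι * (e - i) := by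
  have h1 : cycSpan N u i ≤
      Submodule.span F (Set.range (fun p : ι × Fin (e - i) => (N ^ (i + (p.2 : ℕ))) (u p.1))) := by
    unfold cycSpan
    apply Submodule.span_le.mpr
    rintro x ⟨k, l, hl, rfl⟩
    by_cases hle : e ≤ l
    · rw [pow_apply_eq_zero_of_le N hle (hN k)]
      exact Submodule.zero_mem _
    · apply Submodule.subset_span
      refine ⟨(k, ⟨l - i, by omega⟩), ?_⟩
      simp only
      congr 2
      omega
  refine le_trans (Submodule.finrank_mono h1) ?_
  refine le_trans (finrank_range_le_card _) ?_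
  simp

theorem cycSpan_top_layer (N : Module.End F V) (u : ι → V) (e : ℕ) (he : 0 < e)
    (hN : ∀ k, (N ^ e) (u k) = 0) :
    cycSpan N u (e - 1) = Submodule.span F (Set.range (fun k => (N ^ (e - 1)) (u k))) := by
  unfold cycSpan
  apply le_antisymm
  · apply Submodule.span_le.mpr
    rintro x ⟨k, l, hl, rfl⟩
    by_cases hle : e ≤ l
    · rw [pow_apply_eq_zero_of_le N hle (hN k)]
      exact Submodule.zero_mem _
    · have : l = e - 1 := by omega
      subst this
      exact Submodule.subset_span ⟨k, rfl⟩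
  · apply Submodule.span_mono
    rintro x ⟨k, rfl⟩
    exact ⟨k, e - 1, le_refl _, rfl⟩

theorem finrank_inf_ker_add_map [FiniteDimensional F V] (P : Submodule F V)
    (f : Module.End F V) :
    Module.finrank F ↥(P ⊓ LinearMap.ker f) + Module.finrank F ↥(P.map f) =
      Module.finrank F ↥P := by
  have h := LinearMap.finrank_range_add_finrank_ker (f.domRestrict P)
  have h1 : LinearMap.range (f.domRestrict P) = P.map f := by
    rw [LinearMap.domRestrict, LinearMap.range_comp, Submodule.range_subtype]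
  have h2 : Module.finrank F ↥(LinearMap.ker (f.domRestrict P)) =
      Module.finrank F ↥(P ⊓ LinearMap.ker f) := by
    have e1 : LinearMap.ker (f.domRestrict P) = (P ⊓ LinearMap.ker f).comap P.subtype := by
      ext x
      simp [LinearMap.domRestrict]
    rw [e1]
    exact (Submodule.comapSubtypeEquivOfLe inf_le_left).finrank_eq
  rw [h1, h2] at h
  omega

theorem cycSpan_finrank [FiniteDimensional F V] (N : Module.End F V) (u : ι → V) (e : ℕ)
    (he : 0 < e) (hN : ∀ k, (N ^ e) (u k) = 0)
    (hind : LinearIndependent F (fun k => (N ^ (e - 1)) (u k))) :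
    ∀ t : ℕ, t ≤ e → Module.finrank F ↥(cycSpan N u (e - t)) = Fintype.card ι * t := by
  intro t
  induction t with
  | zero =>
    intro _
    rw [Nat.sub_zero, cycSpan_eq_bot N u (le_refl e) hN]
    simp
  | succ t ih =>
    intro ht
    have ih' := ih (by omega)
    have hrn := finrank_inf_ker_add_map (cycSpan N u (e - (t + 1))) (N ^ t)
    have hmap : (cycSpan N u (e - (t + 1))).map (N ^ t) = cycSpan N u (e - 1) := by
      rw [cycSpan_map]
      congr 1
      omega
    have htop : Module.finrank F ↥(cycSpan N u (e - 1)) = Fintype.card ι := by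
      rw [cycSpan_top_layer N u e he hN]
      exact finrank_span_eq_card hind
    have hle : cycSpan N u (e - t) ≤ cycSpan N u (e - (t + 1)) ⊓ LinearMap.ker (N ^ t) := by
      refine le_inf (cycSpan_anti N u (by omega)) ?_
      intro x hx
      rw [LinearMap.mem_ker]
      have hx' : (N ^ t) x ∈ (cycSpan N u (e - t)).map (N ^ t) := Submodule.mem_map_of_mem hx
      rw [cycSpan_map, cycSpan_eq_bot N u (by omega) hN] at hx'
      exact (Submodule.mem_bot F).mp hx'
    have h1 := Submodule.finrank_mono hle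
    have h2 := cycSpan_finrank_le N u e (e - (t + 1)) hN
    rw [hmap, htop] at hrn
    have h3 : e - (e - (t + 1)) = t + 1 := by omega
    rw [h3] at h2
    rw [ih'] at h1
    rw [Nat.mul_succ] at h2 ⊢
    omega

theorem cycSpan_ker_finrank [FiniteDimensional F V] (N : Module.End F V) (u : ι → V) (e : ℕ)
    (he : 0 < e) (hN : ∀ k, (N ^ e) (u k) = 0)
    (hind : LinearIndependent F (fun k => (N ^ (e - 1)) (u k))) (j : ℕ) :
    Module.finrank F ↥(cycSpan N u 0 ⊓ LinearMap.ker (N ^ j)) = Fintype.card ι * min j e := by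
  have hrn := finrank_inf_ker_add_map (cycSpan N u 0) (N ^ j)
  have h0 := cycSpan_finrank N u e he hN hind e (le_refl e)
  rw [Nat.sub_self] at h0
  rw [cycSpan_map, zero_add, h0] at hrn
  by_cases hje : e ≤ j
  · rw [cycSpan_eq_bot N u hje hN] at hrn
    rw [min_eq_right hje]
    simpa using hrn
  · have h1 := cycSpan_finrank N u e he hN hind (e - j) (by omega)
    have h2 : e - (e - j) = j := by omega
    rw [h2] at h1
    rw [h1] at hrn
    rw [min_eq_left (by omega)]
    have h3 : Fintype.card ι * e = Fintype.card ι * (e - j) + Fintype.card ι * j := by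
      rw [← Nat.mul_add]
      congr 1
      omega
    omega

theorem cycSpan_ker_eq [FiniteDimensional F V] (N : Module.End F V) (u : ι → V) (e : ℕ)
    (he : 0 < e) (hN : ∀ k, (N ^ e) (u k) = 0)
    (hind : LinearIndependent F (fun k => (N ^ (e - 1)) (u k))) :
    cycSpan N u 0 ⊓ LinearMap.ker N =
      Submodule.span F (Set.range (fun k => (N ^ (e - 1)) (u k))) := by
  symm
  apply Submodule.eq_of_le_of_finrank_eq
  · apply Submodule.span_le.mpr
    rintro x ⟨k, rfl⟩
    refine ⟨Submodule.subset_span ⟨k, e - 1, Nat.zero_le _, rfl⟩, ?_⟩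
    change N ((N ^ (e - 1)) (u k)) = 0
    rw [← Module.End.mul_apply, ← pow_succ']
    have : e - 1 + 1 = e := by omega
    rw [this]
    exact hN k
  · have h := cycSpan_ker_finrank N u e he hN hind 1
    rw [pow_one] at h
    rw [h, finrank_span_eq_card hind]
    rw [min_eq_left (by omega), mul_one]

theorem cyc_master [FiniteDimensional F V] (B : V →ₗ[F] V →ₗ[F] F) (T : Module.End F V)
    (hI : Iso B T) (W : Submodule F V) (hW : W ∈ T.invtSubmodule) (e : ℕ) (he : 0 < e)
    (u : ι → V) (hu : ∀ k, u k ∈ W) (hN : ∀ k, ((T - 1) ^ e) (u k) = 0)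
    (H : ∀ c : ι → F, (∀ k, B (u k) (∑ j, c j • ((T - 1) ^ (e - 1)) (u j)) = 0) → c = 0) :
    ∃ P : Submodule F V, P ≤ W ∧ Nd B T P ∧
      ∀ j : ℕ, Module.finrank F ↥(P ⊓ LinearMap.ker ((T - 1) ^ j)) =
        Fintype.card ι * min j e := by
  have hind : LinearIndependent F (fun k => ((T - 1) ^ (e - 1)) (u k)) := by
    rw [Fintype.linearIndependent_iff]
    intro c hc k
    have h0 := H c (fun k => by rw [hc, map_zero])
    rw [h0]
    rfl
  have hNT : ∀ x : V, (T - 1) x = T x - x := by
    intro x
    rw [LinearMap.sub_apply, Module.End.one_apply]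
  generalize hNdef : T - 1 = N at hN H hind hNT ⊢
  have hWN : ∀ w ∈ W, N w ∈ W := by
    intro w hw
    rw [hNT]
    exact W.sub_mem ((Module.End.mem_invtSubmodule_iff_forall_mem_of_mem T).mp hW w hw) hw
  have hWNl : ∀ l : ℕ, ∀ w ∈ W, (N ^ l) w ∈ W := by
    intro l
    induction l with
    | zero =>
      intro w hw
      simpa using hw
    | succ l ih =>
      intro w hw
      rw [pow_succ', Module.End.mul_apply]
      exact hWN _ (ih w hw)
  have hPN : ∀ x ∈ cycSpan N u 0, N x ∈ cycSpan N u 0 := by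
    intro x hx
    have h1 : (N ^ 1) x ∈ (cycSpan N u 0).map (N ^ 1) := Submodule.mem_map_of_mem hx
    rw [cycSpan_map, pow_one] at h1
    exact cycSpan_anti N u (Nat.zero_le _) h1
  have hPT : ∀ x ∈ cycSpan N u 0, T x ∈ cycSpan N u 0 := by
    intro x hx
    have h1 : T x = N x + x := by
      rw [hNT]
      abel
    rw [h1]
    exact Submodule.add_mem _ (hPN x hx) hx
  have hTinj : Function.Injective T := by
    rw [← LinearMap.ker_eq_bot, LinearMap.ker_eq_bot']
    intro x hx
    apply hI.nondeg
    intro y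
    rw [← hI.isom, hx, map_zero, LinearMap.zero_apply]
  have hsurj : ∀ p ∈ cycSpan N u 0, ∃ p' ∈ cycSpan N u 0, T p' = p := by
    intro p hp
    have hinj : Function.Injective (T.restrict hPT) := by
      intro a b hab
      apply Subtype.ext
      apply hTinj
      have h1 := congrArg Subtype.val hab
      simpa using h1
    have hs := LinearMap.injective_iff_surjective.mp hinj
    obtain ⟨p', hp'⟩ := hs ⟨p, hp⟩
    exact ⟨p'.1, p'.2, by simpa using congrArg Subtype.val hp'⟩
  have hRN : ∀ w, w ∈ cycSpan N u 0 → w ∈ perp B (cycSpan N u 0) →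
      N w ∈ perp B (cycSpan N u 0) := by
    intro w hwP hw p hp
    obtain ⟨p', hp', rfl⟩ := hsurj p hp
    rw [hNT, map_sub, hI.isom, hw p' hp', hw _ (hPT p' hp'), sub_zero]
  have hbot : cycSpan N u 0 ⊓ perp B (cycSpan N u 0) = ⊥ := by
    rw [Submodule.eq_bot_iff]
    rintro w ⟨hwP, hwR⟩
    by_contra hw0
    have hkill : (N ^ e) w = 0 := by
      have h1 : (N ^ e) w ∈ (cycSpan N u 0).map (N ^ e) := Submodule.mem_map_of_mem hwP
      rw [cycSpan_map, zero_add, cycSpan_eq_bot N u (le_refl e) hN] at h1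
      exact (Submodule.mem_bot F).mp h1
    have hex : ∃ n, (N ^ n) w = 0 := ⟨e, hkill⟩
    classical
    have hspec := Nat.find_spec hex
    have hn0 : Nat.find hex ≠ 0 := by
      intro h0
      rw [h0, pow_zero] at hspec
      exact hw0 hspec
    have hmin : (N ^ (Nat.find hex - 1)) w ≠ 0 := Nat.find_min hex (by omega)
    have hall : ∀ l : ℕ, (N ^ l) w ∈ cycSpan N u 0 ∧ (N ^ l) w ∈ perp B (cycSpan N u 0) := by
      intro l
      induction l with
      | zero => exact ⟨by simpa using hwP, by simpa using hwR⟩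
      | succ l ih =>
        rw [pow_succ', Module.End.mul_apply]
        exact ⟨hPN _ ih.1, hRN _ ih.1 ih.2⟩
    have hker : (N ^ (Nat.find hex - 1)) w ∈ cycSpan N u 0 ⊓ LinearMap.ker N := by
      refine ⟨(hall _).1, ?_⟩
      change N ((N ^ (Nat.find hex - 1)) w) = 0
      rw [← Module.End.mul_apply, ← pow_succ']
      have h1 : Nat.find hex - 1 + 1 = Nat.find hex := by omega
      rw [h1]
      exact hspec
    rw [cycSpan_ker_eq N u e he hN hind, Submodule.mem_span_range_iff_exists_fun] at hker
    obtain ⟨c, hc⟩ := hker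
    have hc0 : c = 0 := by
      apply H
      intro k
      rw [hc]
      exact (hall (Nat.find hex - 1)).2 (u k)
        (Submodule.subset_span ⟨k, 0, le_refl _, by simp⟩)
    apply hmin
    rw [← hc, hc0]
    simp
  refine ⟨cycSpan N u 0, ?_, ⟨?_, hbot⟩, ?_⟩
  · unfold cycSpan
    apply Submodule.span_le.mpr
    rintro x ⟨k, l, _, rfl⟩
    exact hWNl l _ (hu k)
  · exact (Module.End.mem_invtSubmodule_iff_forall_mem_of_mem T).mpr hPT
  · intro j
    exact cycSpan_ker_finrank N u e he hN hind j

end Cyc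

end Cfsg.Agent.H82.Spn
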