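import Cfsg.Agent.H82.BrLibA
import Cfsg.Agent.H82.BL12
import Cfsg.Agent.H82.MdP
import Cfsg.Agent.S4502

/-!
# S4504-LIB, part B (helper82)

* `stNC`: `N(P) = C(P)` and a faithful character of degree `≤ (p - 1) / 2` force `P` central.
* `irr_of_half`: a faithful character of degree `(p - 1) / 2` is irreducible.
* `shape_half`: its restriction to `C` is `trN (tw μ ϑ)` with `ϑ` linear, `|N : C| = χ(1)`.
-/

set_option autoImplicit false
set_option linter.style.haveILetI false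
set_option linter.unusedSectionVars false

namespace Cfsg.Agent.H82.BrLib

open Cfsg Cfsg.Agent.H4 Cfsg.Agent.H82 Cfsg.Agent.H82.BL Cfsg.Agent.Clifford Cfsg.Agent.H82.P1
open scoped ComplexConjugate

universe u

/-- `N(P) = C(P)` and a faithful character of degree `≤ (p-1)/2` force `P` central. -/
theorem stNC : StNC.{u} := by
  intro G _ _ p _ P hP hNC χ hχ hfaith hdeg x hx g
  classical
  have hp : p.Prime := Fact.out
  letI : Fintype G := Fintype.ofFinite G
  obtain ⟨S⟩ := exists_setup_of_card P hP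
  letI : Fintype ↥(NN P) := Fintype.ofFinite _
  letI : Fintype ↥(CC P) := Fintype.ofFinite _
  letI : Fintype (IrrCharacter G) := Cfsg.Agent.H4.fintypeIrr G
  letI : Fintype (IrrCharacter ↥(NN P)) := Cfsg.Agent.H4.fintypeIrr _
  letI : Fintype (IrrCharacter ↥(CC P)) := Cfsg.Agent.H4.fintypeIrr _
  letI : Fintype ↥((P : Subgroup G).subgroupOf (CC P)) := Fintype.ofFinite _
  have hcomm : ∀ a b : ↥((P : Subgroup G).subgroupOf (CC P)), a * b = b * a := by
    intro a b
    apply Subtype.ext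
    apply Subtype.ext
    have := S.cent (a : G) (Subgroup.mem_subgroupOf.mp a.2) (b : G) (b : ↥(CC P)).2
    simpa using this
  haveI : Finite (↥((P : Subgroup G).subgroupOf (CC P)) →* ℂˣ) := (card_hom_units hcomm).1
  letI : Fintype (↥((P : Subgroup G).subgroupOf (CC P)) →* ℂˣ) := Fintype.ofFinite _
  have hP' : Nat.card ↥(P : Subgroup G) = p := hP
  have hG : Nat.card G = p * (P : Subgroup G).index := Cfsg.Agent.H82.Md.sylp_card P hP
  have hndvd : ¬ p ∣ (P : Subgroup G).index := Cfsg.Agent.H82.Md.sylp_not_dvd_index P hP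
  have hdiv : p ∣ Nat.card G := by
    rw [hG]
    exact dvd_mul_right _ _
  have hsq : ¬ p ^ 2 ∣ Nat.card G := by
    rw [hG, pow_two]
    intro h
    exact hndvd ((Nat.mul_dvd_mul_iff_left hp.pos).mp h)
  have hcount := Cfsg.Agent.S4502.result p hdiv hsq P
  have heq : Fintype.card (IrrCharacter ↥(NN P)) ≤
      (Finset.univ.filter fun χ : IrrCharacter G =>
        ¬ Nat.card ↥(P : Subgroup G) ∣ charDegree χ.1).card := by
    rw [hP']
    have h := hcount
    rw [← Cfsg.Agent.H4.card_irr_eq_card_conjClasses, Nat.card_eq_fintype_card,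
      Nat.card_eq_fintype_card, Fintype.card_subtype] at h
    exact h.symm.le
  have hcyc := isCyclic_norm_mod_cent P hP S
  have hind : ind S = 1 := by
    have h1 : NN P = CC P := le_antisymm hNC S.hCN
    have h2 : Nat.card ↥(NN P) = Nat.card ↥(CC P) := by rw [h1]
    have h3 : ind S = Nat.card ↥(NN P) / Nat.card ↥(CC P) := rfl
    rw [h3, h2]
    exact Nat.div_self Nat.card_pos
  exact comm_of_ind_one_le S hp hP' hcyc heq hind χ hχ hfaith hdeg x hx g

open Classical

variable {G : Type u} [Group G] [Fintype G] {p : ℕ} {N C P : Subgroup G} [Fintype N] [Fintype C]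
  (S : Setup p N C P)
  [Fintype (IrrCharacter G)] [Fintype (IrrCharacter N)] [Fintype (IrrCharacter C)]
  [Fintype (P.subgroupOf C)] [Fintype (P.subgroupOf C →* ℂˣ)]

/-- A faithful character of degree `(p - 1) / 2` is irreducible (when `G` is the normal
closure of `P` and `|N : C| ≥ 2`). -/
theorem irr_of_half (hp : p.Prime) (hP : Nat.card P = p)
    (hcyc : haveI := normal_CN S; IsCyclic (N ⧸ C.subgroupOf N))
    (heq : Fintype.card (IrrCharacter N) ≤
      (Finset.univ.filter fun χ : IrrCharacter G => ¬ Nat.card P ∣ charDegree χ.1).card)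
    (q : ℕ) (hG : Nat.card G = p * q) (hpq : p.Coprime q)
    (hcl : ∀ Φ : IrrCharacter G, (∀ x ∈ P, Φ.1 x = Φ.1 1) → Φ.1 = fun _ => 1)
    (hf2 : 2 ≤ ind S) (χ : G → ℂ) (hχ : IsCharacter G χ)
    (hfaith : ∀ g : G, χ g = χ 1 → g = 1) (hdeg : 2 * charDegree χ + 1 = p) :
    IsIrrCharacter G χ := by
  have hP1 : ∃ x ∈ P, x ≠ 1 := by
    haveI : Nontrivial P := Finite.one_lt_card_iff_nontrivial.mp (by rw [hP]; exact hp.one_lt)
    obtain ⟨x, hx⟩ := exists_ne (1 : P)
    exact ⟨x, x.2, fun h => hx (Subtype.ext h)⟩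
  obtain ⟨x, hx, hx1⟩ := hP1
  have hχx : χ x ≠ χ 1 := fun h => hx1 (hfaith x h)
  obtain ⟨mm, hmm⟩ := isCharacter_iff.mp hχ
  have hinner : ∀ ψ : IrrCharacter G, classInner χ ψ.1 = mm ψ := by
    intro ψ
    rw [hmm, classInner_finsum_irr]
  rw [finsum_eq_sum_of_fintype] at hmm
  have hex : ∃ ψ : IrrCharacter G, mm ψ ≠ 0 ∧ ψ.1 x ≠ ψ.1 1 := by
    by_contra hcon
    push Not at hcon
    apply hχx
    rw [hmm, Finset.sum_apply, Finset.sum_apply]
    refine Finset.sum_congr rfl fun ψ _ => ?_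
    rw [Pi.smul_apply, Pi.smul_apply]
    by_cases h0 : mm ψ = 0
    · rw [h0]
      simp
    · rw [hcon ψ h0]
  obtain ⟨ψ, hψ0, hψx⟩ := hex
  have hψne : classInner χ ψ.1 ≠ 0 := by
    rw [hinner]
    exact_mod_cast hψ0
  obtain ⟨r, hr, hr0⟩ := constituent_degree hχ ψ hψne
  have hdψ : charDegree χ = charDegree ψ.1 + r := by
    have h2 : χ 1 = ((charDegree ψ.1 + r : ℕ) : ℂ) := by
      rw [hr, irr_one_eq_charDegree]
      push_cast
      rfl
    exact charDegree_of_natCast h2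
  by_cases hr' : r = 0
  · rw [hr0 hr']
    exact ψ.2
  · exfalso
    exact small_irr_false S hp hP hcyc heq q hG hpq hcl hf2 ψ (by omega) x hx hψx

/-- The shape on `C` of an irreducible character of degree `(p - 1) / 2` not containing `P`
in its kernel: `ϑ` is linear and `|N : C| = χ(1)`. -/
theorem shape_half (hp : p.Prime) (hP : Nat.card P = p)
    (hcyc : haveI := normal_CN S; IsCyclic (N ⧸ C.subgroupOf N))
    (heq : Fintype.card (IrrCharacter N) ≤
      (Finset.univ.filter fun χ : IrrCharacter G => ¬ Nat.card P ∣ charDegree χ.1).card)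
    (q : ℕ) (hG : Nat.card G = p * q) (hpq : p.Coprime q)
    (hcl : ∀ Φ : IrrCharacter G, (∀ x ∈ P, Φ.1 x = Φ.1 1) → Φ.1 = fun _ => 1)
    (hf2 : 2 ≤ ind S) (χ : IrrCharacter G) (hdeg : 2 * charDegree χ.1 + 1 = p)
    (x : G) (hx : x ∈ P) (hne : χ.1 x ≠ χ.1 1) :
    ∃ (ϑ : Irr0 S) (μ : {μ : P.subgroupOf C →* ℂˣ // μ ≠ 1}),
      (fun c : C => χ.1 c) = trN S (tw S μ.1 ϑ.1.1) ∧ ϑ.1.1 1 = 1 ∧
        ind S = charDegree χ.1 := by
  obtain ⟨ϑ, μ1, hχ⟩ := shape_le S hp hP hcyc heq χ hdeg.le x hx hne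
  have h2 : charDegree χ.1 = ind S * charDegree ϑ.1.1 := by
    have h1 := congrFun hχ 1
    rw [trN_one, cinv_mul_cardN] at h1
    simp only [tw, map_one, Units.val_one, one_mul, OneMemClass.coe_one] at h1
    rw [irr_one_eq_charDegree χ, irr_one_eq_charDegree ϑ.1] at h1
    exact_mod_cast h1
  have hpos := charDegree_pos ϑ.1
  have hd1 : charDegree ϑ.1.1 = 1 := by
    by_contra hcon
    have h2le : 2 ≤ charDegree ϑ.1.1 := by omega
    have h3 : ind S * 2 ≤ ind S * charDegree ϑ.1.1 := Nat.mul_le_mul_left _ h2le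
    have hf : 2 * ind S + 1 < p := by omega
    obtain ⟨w, b, s, hw, hwc, hwb, hs, hb, hv⟩ := exists_wbs_gen S hp hcyc heq (triv0 S) μ1
    rw [card_setA_triv S hcyc] at hwc
    obtain ⟨hs1, ν, hν⟩ := exists_min_exc S hp hP hcyc heq q hG hpq w b s hs hwb hb hv χ ϑ
      μ1.1 μ1.2 hχ hf
    subst hs1
    exact final_count S hp hP hcyc heq q hG hpq hcl hf2 hf w b hw hwc hwb hv ν hν
  refine ⟨ϑ, μ1, hχ, ?_, ?_⟩
  · rw [irr_one_eq_charDegree ϑ.1, hd1, Nat.cast_one]
  · rw [h2, hd1, mul_one]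

end Cfsg.Agent.H82.BrLib
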