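import Cfsg.Agent.H82.BrLibA

/-!
# S4504-LIB, part C (helper82): a character whose kernel contains the `p`-regular part of `C`

`exists_ker`: if an irreducible character `χ` restricts to `C` as `trN (tw μ₁ ϑ)` and the
non-trivial characters of `P` form at least two `N`-orbits, there is a non-principal irreducible
character `ψ` of `G` with `ψ(c) = ψ(1)` for every `p`-regular `c ∈ C`.
-/

set_option autoImplicit false
set_option linter.style.haveILetI false
set_option linter.unusedSectionVars false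

namespace Cfsg.Agent.H82.BrLib

open Cfsg Cfsg.Agent.H4 Cfsg.Agent.H82 Cfsg.Agent.H82.BL Cfsg.Agent.Clifford Cfsg.Agent.H82.P1
open scoped ComplexConjugate
open Classical

universe u

variable {G : Type u} [Group G] [Fintype G] {p : ℕ} {N C P : Subgroup G} [Fintype N] [Fintype C]
  (S : Setup p N C P)
  [Fintype (IrrCharacter G)] [Fintype (IrrCharacter N)] [Fintype (IrrCharacter C)]
  [Fintype (P.subgroupOf C)] [Fintype (P.subgroupOf C →* ℂˣ)]

/-- The multiplicity of `tw (μ₁ μ₂⁻¹) 1` in `trN (tw μ₁ ϑ) * conj (trN (tw μ₂ ϑ))` is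
non-zero. -/
theorem inner_tw_trN_mul_ne (ϑ : Irr0 S) (μ1 μ2 μ : P.subgroupOf C →* ℂˣ)
    (hμdef : μ = μ1 * μ2⁻¹) :
    classInner (tw S μ 1)
      (fun c => trN S (tw S μ1 ϑ.1.1) c * conj (trN S (tw S μ2 ϑ.1.1) c)) ≠ 0 := by
  have hexp : (fun c => trN S (tw S μ1 ϑ.1.1) c * conj (trN S (tw S μ2 ϑ.1.1) c)) =
      ((Nat.card C : ℂ)⁻¹ * (Nat.card C : ℂ)⁻¹) •
        ∑ n : N, ∑ n' : N,
          (fun c => tw S μ1 ϑ.1.1 (cj S n c) * conj (tw S μ2 ϑ.1.1 (cj S n' c))) := by
    funext c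
    simp only [trN, Pi.smul_apply, Finset.sum_apply, smul_eq_mul, map_mul, map_inv₀,
      Complex.conj_natCast, map_sum]
    rw [← Finset.sum_mul_sum]
    ring
  have hnat : ∀ n n' : N, ∃ k : ℕ, classInner (tw S μ 1)
      (fun c => tw S μ1 ϑ.1.1 (cj S n c) * conj (tw S μ2 ϑ.1.1 (cj S n' c))) = k := by
    intro n n'
    apply classInner_isCharacter_nat
      (isCharacter_tw S μ (isCharacter_of_isIrrCharacter (triv0 S).1.2))
    exact isCharacter_mul (isCharacter_of_isIrrCharacter (cjI S n (twI S μ1 ϑ.1)).2)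
      (isCharacter_conj (isCharacter_of_isIrrCharacter (cjI S n' (twI S μ2 ϑ.1)).2))
  choose k hk using hnat
  have h11 : k 1 1 = 1 := by
    have h := hk 1 1
    have e : (fun c => tw S μ1 ϑ.1.1 (cj S 1 c) * conj (tw S μ2 ϑ.1.1 (cj S 1 c))) =
        tw S μ (fun c => ϑ.1.1 c * conj (ϑ.1.1 c)) := by
      funext c
      rw [cj_one_apply, tw_apply, tw_apply, tw_apply, map_mul, conj_hom, hμdef,
        MonoidHom.mul_apply, Units.val_mul]
      ring
    rw [e, inner_tw] at h
    have e2 : classInner (1 : C → ℂ) (fun c => ϑ.1.1 c * conj (ϑ.1.1 c)) =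
        classInner ϑ.1.1 ϑ.1.1 := by
      unfold classInner
      congr 1
      refine Finset.sum_congr rfl fun c _ => ?_
      simp only [Pi.one_apply, one_mul, map_mul, Complex.conj_conj]
      ring
    rw [e2, irr_inner_self] at h
    exact_mod_cast h.symm
  rw [hexp, classInner_smul_right, classInner_sum_right]
  simp_rw [classInner_sum_right, hk]
  apply mul_ne_zero
  · rw [map_ne_zero]
    exact mul_ne_zero (inv_ne_zero (cardC_ne_zero C)) (inv_ne_zero (cardC_ne_zero C))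
  · have hpos : (0 : ℕ) < ∑ n : N, ∑ n' : N, k n n' := by
      calc 0 < k 1 1 := by rw [h11]; exact one_pos
        _ ≤ ∑ n' : N, k 1 n' :=
          Finset.single_le_sum (fun _ _ => Nat.zero_le _) (Finset.mem_univ (1 : N))
        _ ≤ ∑ n : N, ∑ n' : N, k n n' :=
          Finset.single_le_sum (f := fun n : N => ∑ n' : N, k n n')
            (fun _ _ => Nat.zero_le _) (Finset.mem_univ (1 : N))
    exact_mod_cast hpos.ne'

/-- The `P`-average of a class function of `C` without `P`-trivial constituents vanishes. -/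
theorem nAvg_eq_zero_of_no_triv {A : C → ℂ} (hA : IsClassFunction C A)
    (h0 : ∀ ϑ' : Irr0 S, classInner ϑ'.1.1 A = 0) :
    haveI := normal_sub S
    nAvg (P.subgroupOf C) A = 0 := by
  haveI := normal_sub S
  apply eq_zero_of_inner_irr_eq_zero (nAvg_isClassFunction _ hA)
  intro β
  by_cases hker : ∀ x ∈ P.subgroupOf C, β.1 x = β.1 1
  · rw [classInner_nAvg_of_ker _ _ β hker]
    obtain ⟨ω, hω⟩ := exists_isCen S β
    have hω1 : ω = 1 := by
      ext x
      have h3 := hω x 1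
      rw [mul_one, hker x x.2] at h3
      have h4 : ((ω x : ℂˣ) : ℂ) * β.1 1 = 1 * β.1 1 := by rw [one_mul]; exact h3.symm
      rw [MonoidHom.one_apply, Units.val_one]
      exact mul_right_cancel₀ (irr_one_ne_zero β) h4
    rw [hω1] at hω
    rw [← classInner_conj_symm, h0 ⟨β, hω⟩, map_zero]
  · push Not at hker
    exact classInner_nAvg_of_not_ker _ _ β hker

/-- A non-principal irreducible character whose kernel contains the `p`-regular elements
of `C`. -/
theorem exists_ker (hp : p.Prime) (hP : Nat.card P = p)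
    (hcyc : haveI := normal_CN S; IsCyclic (N ⧸ C.subgroupOf N))
    (heq : Fintype.card (IrrCharacter N) ≤
      (Finset.univ.filter fun χ : IrrCharacter G => ¬ Nat.card P ∣ charDegree χ.1).card)
    (q : ℕ) (hG : Nat.card G = p * q) (hpq : p.Coprime q)
    (χ : IrrCharacter G) (ϑ : Irr0 S) (μ1 : {μ : P.subgroupOf C →* ℂˣ // μ ≠ 1})
    (hχ : (fun c : C => χ.1 c) = trN S (tw S μ1.1 ϑ.1.1)) (hind : ind S + 1 < p) :
    ∃ ψ : IrrCharacter G, (ψ.1 ≠ fun _ => 1) ∧
      ∀ c : C, ¬ p ∣ orderOf (c : G) → ψ.1 c = ψ.1 1 := by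
  have hΛ := card_dual S hP
  obtain ⟨μ2, hμ2, hconj⟩ : ∃ μ2 : P.subgroupOf C →* ℂˣ, μ2 ≠ 1 ∧
      ∀ n : N, μ2 ≠ μ1.1.comp (cjP S n) := by
    by_contra hcon
    push Not at hcon
    have hsub : (Finset.univ.erase (1 : P.subgroupOf C →* ℂˣ)) ⊆
        Finset.univ.image (fun n : N => μ1.1.comp (cjP S n)) := by
      intro μ hμ
      obtain ⟨n, hn⟩ := hcon μ (Finset.mem_erase.mp hμ).1
      exact Finset.mem_image.mpr ⟨n, Finset.mem_univ _, hn.symm⟩
    have h1 := Finset.card_le_card hsub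
    rw [card_orbit_eq S μ1.2, Finset.card_erase_of_mem (Finset.mem_univ _), Finset.card_univ,
      hΛ] at h1
    omega
  obtain ⟨θ, hθ, -⟩ := galois S hp hP q hG hpq χ ϑ μ1.1 μ2 μ1.2 hμ2 hχ
  obtain ⟨Ξ, hΞdef⟩ : ∃ Ξ : G → ℂ, Ξ = χ.1 * (fun g => conj (θ.1 g)) := ⟨_, rfl⟩
  have hΞ : IsCharacter G Ξ := by
    rw [hΞdef]
    exact isCharacter_mul (isCharacter_of_isIrrCharacter χ.2)
      (isCharacter_conj (isCharacter_of_isIrrCharacter θ.2))
  have hΞC : (fun c : C => Ξ c) =
      fun c => trN S (tw S μ1.1 ϑ.1.1) c * conj (trN S (tw S μ2 ϑ.1.1) c) := by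
    funext c
    rw [← hχ, ← hθ, hΞdef]
    rfl
  have h0 : ∀ ϑ' : Irr0 S, classInner ϑ'.1.1 (fun c : C => Ξ c) = 0 := by
    intro ϑ'
    rw [hΞC]
    exact inner_cen_trN_mul S (isCen_tw S μ1.1 ϑ.2) (isCen_tw S μ2 ϑ.2)
      (fun n n' => not_conj_of' S μ1.1 μ2 hconj n n') ϑ'.1.1 ϑ'.2
  obtain ⟨w, b, s, hw, hwc, hwb, hs, hb, hv⟩ := exists_wbs_gen S hp hcyc heq (triv0 S) μ1
  obtain ⟨mm, hmm, hstar⟩ := b0_star S w b s hv hΞ h0
  obtain ⟨μ, hμdef⟩ : ∃ μ : P.subgroupOf C →* ℂˣ, μ = μ1.1 * μ2⁻¹ := ⟨_, rfl⟩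
  have hμ : μ ≠ 1 := by
    intro h
    rw [hμdef] at h
    have h2 : μ1.1 = μ2 := mul_inv_eq_one.mp h
    apply hconj 1
    rw [cjP_one_eq, MonoidHom.comp_id, h2]
  have hkey : classInner (tw S μ 1) (fun c : C => Ξ c) ≠ 0 := by
    rw [hΞC]
    exact inner_tw_trN_mul_ne S ϑ μ1.1 μ2 μ hμdef
  have h1 := hstar ⟨μ, hμ⟩
  have hex : ∃ ψ : IrrCharacter G, mm ψ ≠ 0 ∧
      (w ψ ≠ 0 ∨ ψ = b (LamN S ⟨μ, hμ⟩ (triv0 S))) := by
    by_contra hcon
    push Not at hcon
    apply hkey
    rw [h1]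
    have e1 : ∑ ψ : IrrCharacter G, (mm ψ : ℤ) * w ψ = 0 := by
      refine Finset.sum_eq_zero fun ψ _ => ?_
      by_cases hm : mm ψ = 0
      · rw [hm]
        simp
      · rw [(hcon ψ hm).1, mul_zero]
    have e2 : mm (b (LamN S ⟨μ, hμ⟩ (triv0 S))) = 0 := by
      by_contra hm
      exact (hcon _ hm).2 rfl
    rw [e1, e2]
    simp
  obtain ⟨ψ, hmψ, hcase⟩ := hex
  have hψne : classInner Ξ ψ.1 ≠ 0 := by
    rw [hmm]
    exact_mod_cast hmψ
  have h0ψ := no_triv_of_constituent S hΞ h0 ψ hψne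
  refine ⟨ψ, ?_, ?_⟩
  · intro h1ψ
    have h2 := h0ψ (triv0 S)
    rw [h1ψ] at h2
    exact one_ne_zero ((irr_inner_self (triv0 S).1).symm.trans h2)
  · intro k hk
    rcases hcase with hwψ | hψb
    · obtain ⟨hw1, hdegψ⟩ := neg_of_no_triv S hp hP hcyc heq w b s hw hwb hv μ1 ψ h0ψ hwψ
      have hsing : ∀ c : C, p ∣ orderOf (c : G) → ψ.1 c = -1 := by
        intro c hc
        rw [sing_value S hcyc heq w b s hwb hv μ1 ψ hwψ c hc, hw1]
        push_cast
        rfl
      have hA : IsClassFunction C (fun c : C => ψ.1 c) :=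
        isClassFunction_of_isCharacter
          (isCharacter_restrict C (isCharacter_of_isIrrCharacter ψ.2))
      have hz := nAvg_eq_zero_of_no_triv S hA h0ψ
      have hzk : nAvg (P.subgroupOf C) (fun c : C => ψ.1 c) k = 0 := by
        rw [hz]
        rfl
      unfold nAvg at hzk
      have hcard : Fintype.card (P.subgroupOf C) = p := by
        rw [← Nat.card_eq_fintype_card,
          Nat.card_congr (Subgroup.subgroupOfEquivOfLe S.hPC).toEquiv, hP]
      have hne0 : (Nat.card (P.subgroupOf C) : ℂ)⁻¹ ≠ 0 := by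
        rw [Nat.card_eq_fintype_card, hcard]
        exact inv_ne_zero (by exact_mod_cast hp.ne_zero)
      have hsum := (mul_eq_zero.mp hzk).resolve_left hne0
      rw [← Finset.add_sum_erase Finset.univ _ (Finset.mem_univ (1 : P.subgroupOf C))] at hsum
      have hterm : ∀ x ∈ Finset.univ.erase (1 : P.subgroupOf C),
          ψ.1 ((((x : C) * k : C)) : G) = -1 := by
        intro x hx
        apply hsing
        by_contra hnd
        have h5 := (S.hreg ((x : C) * k)).mp hnd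
        rw [map_mul, S.hρ, (S.hreg k).mp hk, mul_one] at h5
        exact (Finset.mem_erase.mp hx).1 h5
      rw [Finset.sum_congr rfl hterm, Finset.sum_const,
        Finset.card_erase_of_mem (Finset.mem_univ _), Finset.card_univ, hcard] at hsum
      have h6 : ψ.1 (k : G) = ((p - 1 : ℕ) : ℂ) := by
        simp only [OneMemClass.coe_one, one_mul, nsmul_eq_mul] at hsum
        linear_combination hsum
      rw [h6, irr_one_eq_charDegree, hdegψ]
    · have h0b : ∀ ϑ' : Irr0 S,
          classInner ϑ'.1.1 (fun c : C => (b (LamN S ⟨μ, hμ⟩ (triv0 S))).1 c) = 0 := by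
        rw [← hψb]
        exact h0ψ
      obtain ⟨-, hres⟩ := exc_structure S hcyc heq w b s hs hwb hb hv ⟨μ, hμ⟩ h0b
      rw [← hψb] at hres
      have hval : ∀ c : C, ¬ p ∣ orderOf (c : G) → trN S (tw S μ 1) c = (ind S : ℂ) := by
        intro c hc
        have h7 : ∀ n : N, tw S μ 1 (cj S n c) = 1 := by
          intro n
          rw [tw_apply, rho_cj, (S.hreg c).mp hc, map_one, map_one, Units.val_one,
            Pi.one_apply, one_mul]
        simp only [trN]
        rw [Finset.sum_congr rfl (fun n _ => h7 n), Finset.sum_const, Finset.card_univ,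
          ← Nat.card_eq_fintype_card, nsmul_eq_mul, mul_one, cinv_mul_cardN]
      have hreg1 : ¬ p ∣ orderOf ((1 : C) : G) := by
        rw [OneMemClass.coe_one, orderOf_one]
        exact hp.one_lt.ne' ∘ Nat.dvd_one.mp
      have e1 : ψ.1 (k : G) = trN S (tw S μ 1) k := congrFun hres k
      have e2 : ψ.1 ((1 : C) : G) = trN S (tw S μ 1) 1 := congrFun hres 1
      rw [OneMemClass.coe_one] at e2
      rw [e1, e2, hval k hk, hval 1 hreg1]

end Cfsg.Agent.H82.BrLib
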