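import Cfsg.Agent.H82.BrLibA

/-!
# S4504-LIB, pieces E and F1 (helper82): orbit sums of characters of `P`

* `sum_sq_Zs`: `∑_{x ∈ P} |Zs μ x|² = p |N| |C|`.
* `Zs_two_orbits`: if `|N : C| = (p - 1) / 2`, two non-conjugate non-trivial characters `α`,
  `β` of `P` satisfy `Zs α x + Zs β x = -|C|` for `x ≠ 1`.
-/

set_option autoImplicit false
set_option linter.style.haveILetI false
set_option linter.unusedSectionVars false

namespace Cfsg.Agent.H82.BrLib

open Cfsg Cfsg.Agent.H4 Cfsg.Agent.H82 Cfsg.Agent.H82.BL Cfsg.Agent.Clifford Cfsg.Agent.H82.P1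
open scoped ComplexConjugate
open Classical

universe u

variable {G : Type u} [Group G] [Fintype G] {p : ℕ} {N C P : Subgroup G} [Fintype N] [Fintype C]
  (S : Setup p N C P)
  [Fintype (IrrCharacter G)] [Fintype (IrrCharacter N)] [Fintype (IrrCharacter C)]
  [Fintype (P.subgroupOf C)] [Fintype (P.subgroupOf C →* ℂˣ)]

/-- **S4504-LIB-E**. -/
theorem sum_sq_Zs (hP : Nat.card P = p) (μ : P.subgroupOf C →* ℂˣ) (hμ : μ ≠ 1) :
    ∑ x : P.subgroupOf C, Zs S μ x * conj (Zs S μ x) =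
      (p : ℂ) * (Nat.card N : ℂ) * (Nat.card C : ℂ) := by
  have hcard : Nat.card (P.subgroupOf C) = p := by
    rw [Nat.card_congr (Subgroup.subgroupOfEquivOfLe S.hPC).toEquiv, hP]
  have h1 : ∀ x : P.subgroupOf C, Zs S μ x * conj (Zs S μ x) =
      ∑ n : N, ∑ m : N, (((μ.comp (cjP S n)) x : ℂˣ) : ℂ) *
        conj ((((μ.comp (cjP S m)) x : ℂˣ) : ℂ)) := by
    intro x
    simp only [Zs, map_sum, Finset.sum_mul_sum, MonoidHom.comp_apply]
  rw [Finset.sum_congr rfl (fun x _ => h1 x), Finset.sum_comm]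
  have h2 : ∀ n : N, ∑ x : P.subgroupOf C, ∑ m : N, (((μ.comp (cjP S n)) x : ℂˣ) : ℂ) *
      conj ((((μ.comp (cjP S m)) x : ℂˣ) : ℂ)) = (p : ℂ) * (Nat.card C : ℂ) := by
    intro n
    rw [Finset.sum_comm]
    have h3 : ∀ m : N, ∑ x : P.subgroupOf C, (((μ.comp (cjP S n)) x : ℂˣ) : ℂ) *
        conj ((((μ.comp (cjP S m)) x : ℂˣ) : ℂ)) =
          if ((m * n⁻¹ : N) : G) ∈ C then (p : ℂ) else 0 := by
      intro m
      rw [sum_hom_mul_conj, hcard]
      by_cases h : ((m * n⁻¹ : N) : G) ∈ C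
      · rw [if_pos h, if_pos ((comp_cjP_eq_iff S hμ m n).mpr h).symm]
      · rw [if_neg h, if_neg (fun h' => h ((comp_cjP_eq_iff S hμ m n).mp h'.symm))]
    rw [Finset.sum_congr rfl (fun m _ => h3 m), sum_ite_coset S n (p : ℂ), mul_comm]
  rw [Finset.sum_congr rfl (fun n _ => h2 n), Finset.sum_const, Finset.card_univ, nsmul_eq_mul,
    ← Nat.card_eq_fintype_card]
  ring

/-- The orbit sum as a sum over the orbit. -/
theorem Zs_eq_sum_orbit (γ : P.subgroupOf C →* ℂˣ) (hγ : γ ≠ 1) (x : P.subgroupOf C) :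
    Zs S γ x = (Nat.card C : ℂ) *
      ∑ μ ∈ Finset.univ.image (fun n : N => γ.comp (cjP S n)), ((μ x : ℂˣ) : ℂ) := by
  have h1 : Zs S γ x = ∑ n : N,
      (fun μ : P.subgroupOf C →* ℂˣ => ((μ x : ℂˣ) : ℂ)) (γ.comp (cjP S n)) := rfl
  rw [h1, ← Finset.sum_fiberwise_of_maps_to (g := fun n : N => γ.comp (cjP S n))
    (t := Finset.univ.image (fun n : N => γ.comp (cjP S n)))
    (fun n _ => Finset.mem_image_of_mem _ (Finset.mem_univ n)), Finset.mul_sum]
  refine Finset.sum_congr rfl fun μ hμ => ?_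
  obtain ⟨m, -, rfl⟩ := Finset.mem_image.mp hμ
  rw [Finset.sum_congr rfl (fun n hn => by rw [(Finset.mem_filter.mp hn).2]), Finset.sum_const,
    nsmul_eq_mul]
  congr 1
  have h2 := sum_ite_coset S m (1 : ℂ)
  rw [mul_one] at h2
  rw [← h2, Finset.card_filter, Nat.cast_sum]
  simp only [Nat.cast_ite, Nat.cast_one, Nat.cast_zero]
  refine Finset.sum_congr rfl fun n _ => ?_
  by_cases h : ((n * m⁻¹ : N) : G) ∈ C
  · rw [if_pos h, if_pos ((comp_cjP_eq_iff S hγ n m).mpr h)]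
  · rw [if_neg h, if_neg (fun h' => h ((comp_cjP_eq_iff S hγ n m).mp h'))]

/-- **S4504-LIB-F1**. -/
theorem Zs_two_orbits (hp : p.Prime) (hP : Nat.card P = p) (hind : 2 * ind S + 1 = p)
    (α β : P.subgroupOf C →* ℂˣ) (hα : α ≠ 1) (hβ : β ≠ 1)
    (hαβ : ∀ n : N, β ≠ α.comp (cjP S n)) (x : P.subgroupOf C) (hx : x ≠ 1) :
    Zs S α x + Zs S β x = -(Nat.card C : ℂ) := by
  have hΛ := card_dual S hP
  obtain ⟨Oα, hOα⟩ : ∃ O : Finset (P.subgroupOf C →* ℂˣ),
      O = Finset.univ.image (fun n : N => α.comp (cjP S n)) := ⟨_, rfl⟩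
  obtain ⟨Oβ, hOβ⟩ : ∃ O : Finset (P.subgroupOf C →* ℂˣ),
      O = Finset.univ.image (fun n : N => β.comp (cjP S n)) := ⟨_, rfl⟩
  have hdisj : Disjoint Oα Oβ := by
    rw [Finset.disjoint_left]
    intro μ h1 h2
    rw [hOα] at h1
    rw [hOβ] at h2
    obtain ⟨m, -, rfl⟩ := Finset.mem_image.mp h1
    obtain ⟨m', -, h3⟩ := Finset.mem_image.mp h2
    exact not_conj_of' S α β hαβ m m' h3
  have hunion : Oα ∪ Oβ = Finset.univ.erase (1 : P.subgroupOf C →* ℂˣ) := by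
    apply Finset.eq_of_subset_of_card_le
    · intro μ hμ
      rw [Finset.mem_erase]
      refine ⟨?_, Finset.mem_univ _⟩
      rcases Finset.mem_union.mp hμ with h | h
      · rw [hOα] at h
        obtain ⟨m, -, rfl⟩ := Finset.mem_image.mp h
        exact comp_cjP_ne_one S hα m
      · rw [hOβ] at h
        obtain ⟨m, -, rfl⟩ := Finset.mem_image.mp h
        exact comp_cjP_ne_one S hβ m
    · rw [Finset.card_union_of_disjoint hdisj, hOα, hOβ, card_orbit_eq S hα, card_orbit_eq S hβ,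
        Finset.card_erase_of_mem (Finset.mem_univ _), Finset.card_univ, hΛ]
      omega
  have hsum := sum_hom_apply (comm_sub S) x
  rw [if_neg hx, ← Finset.add_sum_erase Finset.univ _
    (Finset.mem_univ (1 : P.subgroupOf C →* ℂˣ)), ← hunion, Finset.sum_union hdisj] at hsum
  simp only [MonoidHom.one_apply, Units.val_one] at hsum
  rw [Zs_eq_sum_orbit S α hα, Zs_eq_sum_orbit S β hβ, ← mul_add, ← hOα, ← hOβ]
  have h4 : ∑ μ ∈ Oα, ((μ x : ℂˣ) : ℂ) + ∑ μ ∈ Oβ, ((μ x : ℂˣ) : ℂ) = -1 := by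
    linear_combination hsum
  rw [h4]
  ring

end Cfsg.Agent.H82.BrLib
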