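import Cfsg.Agent.H82.BrLibK
import Cfsg.Agent.H82.BrLibC
import Cfsg.Agent.H82.BrLibE
import Cfsg.Agent.H78.BrLibF2
import Cfsg.Agent.H32.LinAb
import Cfsg.Agent.H79.BrDefs

/-!
# S4504-LIB (helper82): the local analysis for Brauer's theorem on faithful characters of
degree `(p - 1) / 2`

`lib : Cfsg.Agent.H79.Br.StLib`.
-/

set_option autoImplicit false
set_option linter.style.haveILetI false
set_option linter.unusedSectionVars false

namespace Cfsg.Agent.H82.BrLib

open Cfsg Cfsg.Agent.H4 Cfsg.Agent.H82 Cfsg.Agent.H82.BL Cfsg.Agent.Clifford Cfsg.Agent.H82.P1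
open scoped ComplexConjugate

universe u

theorem lib : Cfsg.Agent.H79.Br.StLib.{u} := by
  intro G _ _ p _ P hP hcl hnn χ hχ hfaith hdeg
  classical
  have hp : p.Prime := Fact.out
  letI : Fintype G := Fintype.ofFinite G
  obtain ⟨S⟩ := exists_setup_of_card P hP
  letI : Fintype ↥(NN P) := Fintype.ofFinite _
  letI : Fintype ↥(CC P) := Fintype.ofFinite _
  letI : Fintype (IrrCharacter G) := Cfsg.Agent.H4.fintypeIrr G
  letI : Fintype (IrrCharacter ↥(NN P)) := Cfsg.Agent.H4.fintypeIrr _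
  letI : Fintype (IrrCharacter ↥(CC P)) := Cfsg.Agent.H4.fintypeIrr _
  letI : Fintype ↥((P : Subgroup G).subgroupOf (CC P)) := Fintype.ofFinite _
  have hcomm : ∀ a b : ↥((P : Subgroup G).subgroupOf (CC P)), a * b = b * a := by
    intro a b
    apply Subtype.ext
    apply Subtype.ext
    have := S.cent (a : G) (Subgroup.mem_subgroupOf.mp a.2) (b : G) (b : ↥(CC P)).2
    simpa using this
  haveI : Finite (↥((P : Subgroup G).subgroupOf (CC P)) →* ℂˣ) := (card_hom_units hcomm).1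
  letI : Fintype (↥((P : Subgroup G).subgroupOf (CC P)) →* ℂˣ) := Fintype.ofFinite _
  have hP' : Nat.card ↥(P : Subgroup G) = p := hP
  have hG : Nat.card G = p * (P : Subgroup G).index := Cfsg.Agent.H82.Md.sylp_card P hP
  have hndvd : ¬ p ∣ (P : Subgroup G).index := Cfsg.Agent.H82.Md.sylp_not_dvd_index P hP
  have hpq : p.Coprime (P : Subgroup G).index := (Nat.Prime.coprime_iff_not_dvd hp).mpr hndvd
  have hdiv : p ∣ Nat.card G := by
    rw [hG]
    exact dvd_mul_right _ _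
  have hsq : ¬ p ^ 2 ∣ Nat.card G := by
    rw [hG, pow_two]
    intro h
    exact hndvd ((Nat.mul_dvd_mul_iff_left hp.pos).mp h)
  have hcount := Cfsg.Agent.S4502.result p hdiv hsq P
  have heq : Fintype.card (IrrCharacter ↥(NN P)) ≤
      (Finset.univ.filter fun χ : IrrCharacter G =>
        ¬ Nat.card ↥(P : Subgroup G) ∣ charDegree χ.1).card := by
    rw [hP']
    have h := hcount
    rw [← Cfsg.Agent.H4.card_irr_eq_card_conjClasses, Nat.card_eq_fintype_card,
      Nat.card_eq_fintype_card, Fintype.card_subtype] at h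
    exact h.symm.le
  have hcyc := isCyclic_norm_mod_cent P hP S
  have hcl' := ker_hyp P hcl
  -- `|N : C| ≥ 2`
  have hf2 : 2 ≤ ind S := by
    by_contra hcon
    have hind : ind S = 1 := by
      have := ind_pos S
      omega
    apply hnn
    constructor
    intro y hy g
    have h1 := comm_of_ind_one_le S hp hP' hcyc heq hind χ hχ hfaith hdeg.le y hy g
    have h6 : g * y * g⁻¹ = y := by rw [← h1, mul_inv_cancel_right]
    rw [h6]
    exact hy
  -- (a)
  have hirr : IsIrrCharacter G χ :=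
    irr_of_half S hp hP' hcyc heq _ hG hpq hcl' hf2 χ hχ hfaith hdeg
  obtain ⟨x0, hx0, hx01⟩ := exists_ne_one_of_card P (by rw [hP]; exact hp.one_lt)
  have hχx : χ x0 ≠ χ 1 := fun h => hx01 (hfaith x0 h)
  obtain ⟨ϑ, μ1, hχC, hϑ1, hindeq⟩ :=
    shape_half S hp hP' hcyc heq _ hG hpq hcl' hf2 ⟨χ, hirr⟩ hdeg x0 hx0 hχx
  have hindeq' : ind S = charDegree χ := hindeq
  have hind2 : 2 * ind S + 1 = p := by
    rw [hindeq']
    exact hdeg
  -- (b)
  obtain ⟨ψ0, hψ01, hψ0reg⟩ :=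
    exists_ker S hp hP' hcyc heq _ hG hpq ⟨χ, hirr⟩ ϑ μ1 hχC (by omega)
  have hb : ∀ c ∈ CC P, ¬ p ∣ orderOf c → c ∈ Subgroup.center G := by
    intro c hc hcreg
    have hM : ¬ (P : Subgroup G) ≤ irrKer ψ0 := by
      intro hle
      apply hψ01
      apply hcl' ψ0
      intro x hx
      exact (mem_irrKer ψ0 x).mp (hle hx)
    have hcen := stKer p P hP hcl χ hχ hfaith hdeg.le
      (irrKer ψ0) inferInstance hM
    apply hcen
    exact (mem_irrKer ψ0 c).mpr (hψ0reg ⟨c, hc⟩ hcreg)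
  -- values of `χ` on `P`
  have hχP : ∀ x : ↥((P : Subgroup G).subgroupOf (CC P)),
      χ ((x : ↥(CC P)) : G) = (Nat.card ↥(CC P) : ℂ)⁻¹ * Zs S μ1.1 x := by
    intro x
    have h1 := congrFun hχC (x : ↥(CC P))
    rw [trN_tw_apply_P, hϑ1, mul_one] at h1
    exact h1
  have hconv : ∀ F : G → ℂ, ∑ᶠ x : (P : Subgroup G), F x =
      ∑ x : ↥((P : Subgroup G).subgroupOf (CC P)), F ((x : ↥(CC P)) : G) := by
    intro F
    rw [← finsum_eq_sum_of_fintype,
      ← finsum_comp_equiv (Subgroup.subgroupOfEquivOfLe S.hPC).toEquiv]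
    rfl
  -- `C` is abelian with `N`-invariant characters
  have hsplit : ∀ c : ↥(CC P), ∃ k : ↥(CC P), ¬ p ∣ orderOf (k : G) ∧
      c = ((S.ρ c : ↥((P : Subgroup G).subgroupOf (CC P))) : ↥(CC P)) * k := by
    intro c
    refine ⟨((S.ρ c : ↥((P : Subgroup G).subgroupOf (CC P))) : ↥(CC P))⁻¹ * c, ?_, ?_⟩
    · rw [S.hreg, map_mul, map_inv, S.hρ, inv_mul_cancel]
    · rw [mul_inv_cancel_left]
  have hcenk : ∀ k : ↥(CC P), ¬ p ∣ orderOf (k : G) → ∀ g : G, g * (k : G) = (k : G) * g := by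
    intro k hk g
    exact Subgroup.mem_center_iff.mp (hb k k.2 hk) g
  have hCcomm : ∀ a b : ↥(CC P), a * b = b * a := by
    intro a b
    obtain ⟨k, hk, ha⟩ := hsplit a
    apply Subtype.ext
    have h1 := S.cent ((S.ρ a : ↥((P : Subgroup G).subgroupOf (CC P))) : G)
      (Subgroup.mem_subgroupOf.mp (S.ρ a).2) (b : G) b.2
    have h2 := hcenk k hk (b : G)
    rw [ha]
    push_cast
    rw [mul_assoc, ← h2, ← mul_assoc, h1, mul_assoc]
  have hlin : ∀ ϑ' : Irr0 S, ϑ'.1.1 1 = 1 := fun ϑ' =>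
    (Cfsg.Agent.H32.irr_linear_of_comm hCcomm ϑ'.1.2).1
  have hinv : ∀ (ϑ' : Irr0 S) (n : ↥(NN P)) (c : ↥(CC P)),
      ϑ'.1.1 (cj S n c) = ϑ'.1.1 c := by
    intro ϑ' n c
    obtain ⟨k, hk, hc⟩ := hsplit c
    have h1 : cj S n k = k := by
      apply Subtype.ext
      rw [cj_coe, hcenk k hk (n : G), mul_inv_cancel_right]
    have h2 : cj S n c = ((cjP S n (S.ρ c) : ↥((P : Subgroup G).subgroupOf (CC P))) :
        ↥(CC P)) * k := by
      conv_lhs => rw [hc]
      rw [map_mul, h1, cjP_coe]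
    have h3 := ϑ'.2 (cjP S n (S.ρ c)) k
    have h4 := ϑ'.2 (S.ρ c) k
    rw [MonoidHom.one_apply, Units.val_one, one_mul] at h3 h4
    rw [h2, h3]
    conv_rhs => rw [hc]
    exact h4.symm
  have htwo := fun (α β : ↥((P : Subgroup G).subgroupOf (CC P)) →* ℂˣ) (hα : α ≠ 1)
      (hβ : β ≠ 1) (hαβ : ∀ n : ↥(NN P), β ≠ α.comp (cjP S n))
      (x : ↥((P : Subgroup G).subgroupOf (CC P))) (hx : x ≠ 1) =>
    Zs_two_orbits S hp hP' hind2 α β hα hβ hαβ x hx
  refine ⟨hirr, hb, ?_, ?_, ?_, ?_⟩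
  · -- (c)
    rw [← hindeq']
    exact (ind_mul S).symm
  · -- (d)
    rw [hconv]
    have h1 := sum_P_trN_tw S ϑ μ1
    rw [← hχC] at h1
    exact h1
  · -- (e)
    rw [hconv (fun g => χ g * conj (χ g))]
    have h1 := sum_sq_Zs S hP' μ1.1 μ1.2
    have hC0 : (Nat.card ↥(CC P) : ℂ) ≠ 0 := cardC_ne_zero (CC P)
    have h2 : ∀ x : ↥((P : Subgroup G).subgroupOf (CC P)),
        χ ((x : ↥(CC P)) : G) * conj (χ ((x : ↥(CC P)) : G)) =
          ((Nat.card ↥(CC P) : ℂ)⁻¹ * (Nat.card ↥(CC P) : ℂ)⁻¹) *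
            (Zs S μ1.1 x * conj (Zs S μ1.1 x)) := by
      intro x
      rw [hχP x, map_mul, map_inv₀, Complex.conj_natCast]
      ring
    rw [Finset.sum_congr rfl (fun x _ => h2 x), ← Finset.mul_sum, h1, cardN_cast S, ← hindeq']
    field_simp
  · -- (f)
    intro ψ
    have hmk : ∀ x ∈ (P : Subgroup G), x ≠ 1 →
        ∃ xD : ↥((P : Subgroup G).subgroupOf (CC P)), xD ≠ 1 ∧ ((xD : ↥(CC P)) : G) = x := by
      intro x hx hx1
      refine ⟨⟨⟨x, S.hPC hx⟩, Subgroup.mem_subgroupOf.mpr hx⟩, ?_, rfl⟩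
      intro h
      apply hx1
      have := congrArg (fun y : ↥((P : Subgroup G).subgroupOf (CC P)) => ((y : ↥(CC P)) : G)) h
      simpa using this
    have hty := Cfsg.Agent.H78.BrLib.types S hp hP' hcyc heq hlin hinv htwo μ1.1 μ1.2 ψ
    rcases hty with h | h | h | h | h | h | h
    · left
      intro x hx hx1
      obtain ⟨xD, hxD1, rfl⟩ := hmk x hx hx1
      exact h xD hxD1
    · right; left
      intro x hx hx1
      obtain ⟨xD, hxD1, rfl⟩ := hmk x hx hx1
      exact h xD hxD1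
    · right; right; left
      intro x hx hx1
      obtain ⟨xD, hxD1, rfl⟩ := hmk x hx hx1
      exact h xD hxD1
    · right; right; right; left
      intro x hx hx1
      obtain ⟨xD, hxD1, rfl⟩ := hmk x hx hx1
      rw [h xD hxD1, hχP xD]
    · right; right; right; right; left
      intro x hx hx1
      obtain ⟨xD, hxD1, rfl⟩ := hmk x hx hx1
      rw [h xD hxD1, hχP xD]
    · right; right; right; right; right; left
      intro x hx hx1
      obtain ⟨xD, hxD1, rfl⟩ := hmk x hx hx1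
      rw [h xD hxD1, hχP xD]
    · right; right; right; right; right; right
      intro x hx hx1
      obtain ⟨xD, hxD1, rfl⟩ := hmk x hx hx1
      rw [h xD hxD1, hχP xD]

end Cfsg.Agent.H82.BrLib
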