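import Cfsg.Agent.H79.HcDefs
import Cfsg.Agent.S4435
import Cfsg.Agent.H20.FongReynolds2
import Cfsg.Agent.H81.DefZero
import Cfsg.Agent.H81.HcLI
import Cfsg.Agent.H81.Reg
import Cfsg.Agent.H4.Clifford
import Cfsg.Agent.Lib.Clifford

/-!
# S4440 piece P17 (for helper79): `StmtFR` from `StmtBlockPart` (the Fong–Reynolds step)
-/

set_option autoImplicit false
set_option linter.unusedSectionVars false
set_option linter.style.haveILetI false

namespace Cfsg.Agent.H82.Hc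

open Cfsg Cfsg.Agent.H79.Hc Cfsg.Agent.H4
open scoped ComplexConjugate

universe u

/-- (FR) the Fong–Reynolds step, from (BLOCKPART). -/
theorem stmtFR (p : ℕ) (M : Ideal AlgInt) (hBP : StmtBlockPart.{u} p M) : StmtFR.{u} p M := by
  intro G _ _ K T hK _ hM hcop θ hT hUP U hU χ hχU hχθ ψ hψ
  classical
  have hp : p.Prime := hM.1
  haveI : Fact p.Prime := ⟨hp⟩
  have hMp : M.IsPrime := Cfsg.Agent.H20.isPrime_of_isPModular hM
  letI : Fintype G := Fintype.ofFinite G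
  letI : Fintype T := Fintype.ofFinite T
  -- `{θ}` is a block of `K`
  have hb : blockOf M (θ : K → ℂ) = {θ} := by
    apply Cfsg.Agent.H81.blockOf_eq_singleton_of_defect_zero hM θ
    intro h
    have h1 : Nat.card K / charDegree (θ : K → ℂ) ∣ Nat.card K :=
      Nat.div_dvd_of_dvd (Cfsg.Agent.H81.irr_charDegree_dvd θ)
    exact (Nat.Prime.coprime_iff_not_dvd hp).mp hcop.symm (h.trans h1)
  have hbB : IsPBlock M ({θ} : Set (IrrCharacter K)) := ⟨θ, hb.symm⟩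
  have hθc : IsClassFunction K (θ : K → ℂ) :=
    isClassFunction_of_isCharacter (isCharacter_of_isIrrCharacter θ.2)
  have hT' : ∀ g : G, g ∈ T ↔ ∀ θ₁ ∈ ({θ} : Set (IrrCharacter K)), ∀ θ' : IrrCharacter K,
      (∀ n : K, (θ' : K → ℂ) n = (θ₁ : K → ℂ) ⟨g * n * g⁻¹, hK.conj_mem n n.2 g⟩) →
      θ' ∈ ({θ} : Set (IrrCharacter K)) := by
    intro g
    rw [hT g]
    constructor
    · intro h θ₁ hθ₁ θ' hθ'
      rw [Set.mem_singleton_iff] at hθ₁ ⊢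
      subst hθ₁
      apply Subtype.ext
      funext n
      rw [hθ' n, h n]
    · intro h n
      have h1 := h θ rfl ⟨Cfsg.Agent.Clifford.conjChar K (θ : K → ℂ) g,
        Cfsg.Agent.Clifford.isIrrCharacter_conjChar K θ.2 g⟩ (fun n => rfl)
      rw [Set.mem_singleton_iff] at h1
      exact congrArg (fun c : IrrCharacter K => (c : K → ℂ) n) h1
  have hKT : K ≤ T := by
    intro k hk
    rw [hT]
    intro n
    have h1 := hθc n ⟨k, hk⟩
    have e : (⟨k * n * k⁻¹, hK.conj_mem n n.2 k⟩ : K) = ⟨k, hk⟩ * n * ⟨k, hk⟩⁻¹ :=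
      Subtype.ext rfl
    rw [e]; exact h1
  obtain ⟨h_i, -, h_iii⟩ := Cfsg.Agent.S4435.result p M hM K ({θ} : Set (IrrCharacter K)) hbB T
    hT' hKT
  have hχB : χ ∈ blockOf M (χ : G → ℂ) := Cfsg.Agent.H80.mem_blockOf_self hMp χ
  obtain ⟨B', hB', hcov', hind⟩ := h_iii (blockOf M (χ : G → ℂ)) ⟨χ, rfl⟩
    ⟨χ, hχB, θ, rfl, hχθ⟩
  obtain ⟨B₂, hind₂, -, hirr, hB₂⟩ := h_i B' hB' hcov'
  have hBeq : B₂ = blockOf M (χ : G → ℂ) := Cfsg.Agent.H20.isInducedBlock_unique hMp hind₂ hind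
  rw [hBeq] at hB₂
  obtain ⟨U', hU'def⟩ : ∃ U' : Set (IrrCharacter T), U' =
      {ψ' | ψ' ∈ B' ∧ ∃ χ' ∈ U, (χ' : G → ℂ) = indFun T (ψ' : T → ℂ)} := ⟨_, rfl⟩
  have hmemU' : ∀ ψ' : IrrCharacter T, ψ' ∈ U' ↔
      ψ' ∈ B' ∧ ∃ χ' ∈ U, (χ' : G → ℂ) = indFun T (ψ' : T → ℂ) := by
    intro ψ'; rw [hU'def]; rfl
  have hwcf : IsClassFunction G (fun x => wsum U x) := by
    rw [Cfsg.Agent.H81.Hc.wsum_eq_finsum_irr]; exact isClassFunction_finsum_irr _
  have hinner : ∀ ψ' ∈ B', classInner (fun t : T => wsum U (t : G)) (ψ' : T → ℂ) =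
      if ψ' ∈ U' then (T.index : ℂ) * (ψ' : T → ℂ) 1 else 0 := by
    intro ψ' hψ'
    have h1 := frobenius_reciprocity T (ψ' : T → ℂ) (fun x => wsum U x) hwcf
    rw [← classInner_conj_symm, ← h1, classInner_conj_symm]
    have h2 := classInner_finsum_irr
      (fun χ' : IrrCharacter G => if χ' ∈ U then (χ' : G → ℂ) 1 else 0)
      ⟨indFun T (ψ' : T → ℂ), hirr ψ' hψ'⟩
    rw [← Cfsg.Agent.H81.Hc.wsum_eq_finsum_irr U] at h2
    refine h2.trans ?_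
    by_cases hin : (⟨indFun T (ψ' : T → ℂ), hirr ψ' hψ'⟩ : IrrCharacter G) ∈ U
    · rw [if_pos hin, if_pos ((hmemU' ψ').mpr ⟨hψ', _, hin, rfl⟩)]
      exact indFun_one_eq T _
    · rw [if_neg hin, if_neg]
      intro h
      obtain ⟨-, χ', hχ', he⟩ := (hmemU' ψ').mp h
      apply hin
      have e : χ' = ⟨indFun T (ψ' : T → ℂ), hirr ψ' hψ'⟩ := Subtype.ext he
      rw [← e]; exact hχ'
  have hU' : VanishSing p U' := by
    intro x hx
    obtain ⟨ξ, hξ⟩ := hB'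
    have hf0 : ∀ t : T, p ∣ orderOf t → (fun t : T => wsum U (t : G)) t = 0 := by
      intro t ht
      exact hU (t : G) (by rwa [Subgroup.orderOf_coe])
    have hfc : IsClassFunction T (fun t : T => wsum U (t : G)) := by
      intro g h
      exact hwcf (g : G) (h : G)
    have h0 := hBP T hM _ hfc hf0 ξ x hx
    rw [← hξ] at h0
    have h1 : ∑ᶠ ψ' ∈ B', classInner (fun t : T => wsum U (t : G)) (ψ' : T → ℂ) *
        (ψ' : T → ℂ) x = (T.index : ℂ) * wsum U' x := by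
      have hw : wsum U' x = ∑ᶠ ψ' ∈ U', (ψ' : T → ℂ) 1 * (ψ' : T → ℂ) x := rfl
      rw [hw, mul_finsum_mem, finsum_mem_def, finsum_mem_def]
      refine finsum_congr ?_
      intro ψ'
      by_cases hB : ψ' ∈ B'
      · rw [Set.indicator_of_mem hB, hinner ψ' hB]
        by_cases hin : ψ' ∈ U'
        · rw [if_pos hin, Set.indicator_of_mem hin]; ring
        · rw [if_neg hin, Set.indicator_of_notMem hin, zero_mul]
      · have hin : ψ' ∉ U' := fun h => hB ((hmemU' ψ').mp h).1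
        rw [Set.indicator_of_notMem hB, Set.indicator_of_notMem hin]
    rw [h1] at h0
    have hidx : (T.index : ℂ) ≠ 0 := by
      exact_mod_cast (Subgroup.index_ne_zero_of_finite (H := T))
    exact (mul_eq_zero.mp h0).resolve_left hidx
  obtain ⟨ψ₀, hψ₀B, hχeq⟩ := (hB₂ χ).mp hχB
  have hψB : ψ ∈ blockOf M (χ : G → ℂ) := hψ
  obtain ⟨ψ₁, hψ₁B, hψeq⟩ := (hB₂ ψ).mp hψB
  have hψ₀U : ψ₀ ∈ U' := (hmemU' ψ₀).mpr ⟨hψ₀B, χ, hχU, hχeq⟩
  have hsame : SameBlock M (ψ₀ : T → ℂ) (ψ₁ : T → ℂ) := by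
    obtain ⟨ξ, hξ⟩ := hB'
    rw [hξ] at hψ₀B hψ₁B
    exact Cfsg.Agent.H80.sameBlock_trans hMp (Cfsg.Agent.H80.sameBlock_symm hψ₀B) hψ₁B
  have hψ₁U : ψ₁ ∈ U' := hUP U' hU' ψ₀ hψ₀U ψ₁ hsame
  obtain ⟨-, χ', hχ', he⟩ := (hmemU' ψ₁).mp hψ₁U
  have e : χ' = ψ := Subtype.ext (he.trans hψeq.symm)
  rw [← e]; exact hχ'

end Cfsg.Agent.H82.Hc
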