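import Cfsg.Agent.H79.HcDefs
import Cfsg.Agent.Lib.Gallagher
import Cfsg.Agent.H16.GCChar
import Cfsg.Agent.H4.RelC
import Cfsg.Agent.H4.Frob
import Cfsg.Agent.H4.BrauerBasic

/-!
# S4440 piece P20 (for helper79): `StmtTransA`

Gallagher: with central-extension data `(Ĝ, π, θt, ν)` for `(G, K, θ)`, every irreducible
character `ψ` of `G` over `θ` satisfies `ψ ∘ π = β · θt` for an irreducible character `β` of `Ĝ`
on which `π⁻¹(K)` acts through `ν⁻¹`.
-/

set_option autoImplicit false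
set_option linter.unusedSectionVars false
set_option linter.style.haveILetI false

namespace Cfsg.Agent.H82.Hc

open Cfsg Cfsg.Agent.H79.Hc Cfsg.Agent.H4 Cfsg.Agent.Clifford
open scoped ComplexConjugate

universe u

/-- `ν 1 = 1` for central-extension data. -/
theorem ce_nu_one {G : Type u} [Group G] {K : Subgroup G} {θ : K → ℂ} {Ĝ : Type u} [Group Ĝ]
    {π : Ĝ →* G} {θt ν : Ĝ → ℂ} (D : CEData K θ Ĝ π θt ν) : ν 1 = 1 := by
  have h1 : π (1 : Ĝ) ∈ K := by rw [map_one]; exact K.one_mem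
  have h := D.nu_mul 1 1 h1 h1
  rw [one_mul] at h
  have h0 := D.nu_ne 1 h1
  have h2 : ν 1 * 1 = ν 1 * ν 1 := by rw [mul_one]; exact h
  exact (mul_left_cancel₀ h0 h2).symm

/-- `ν (k⁻¹) = (ν k)⁻¹` on `π⁻¹(K)`. -/
theorem ce_nu_inv {G : Type u} [Group G] {K : Subgroup G} {θ : K → ℂ} {Ĝ : Type u} [Group Ĝ]
    {π : Ĝ →* G} {θt ν : Ĝ → ℂ} (D : CEData K θ Ĝ π θt ν) (k : Ĝ) (hk : π k ∈ K) :
    ν k⁻¹ = (ν k)⁻¹ := by
  have hk' : π k⁻¹ ∈ K := by rw [map_inv]; exact K.inv_mem hk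
  have h := D.nu_mul k k⁻¹ hk hk'
  rw [mul_inv_cancel, ce_nu_one D] at h
  exact eq_inv_of_mul_eq_one_right h.symm

/-- (TRANSA) -/
theorem stmtTransA : StmtTransA.{u} := by
  intro G _ _ K _ _ θ Ĝ _ _ π θt ν D ψ hψ
  classical
  letI : Fintype Ĝ := Fintype.ofFinite Ĝ
  letI : Fintype G := Fintype.ofFinite G
  obtain ⟨N, hNdef⟩ : ∃ N : Subgroup Ĝ, N = K.comap π := ⟨_, rfl⟩
  have hmemN : ∀ x : Ĝ, x ∈ N ↔ π x ∈ K := by
    intro x; rw [hNdef, Subgroup.mem_comap]
  haveI hNn : N.Normal := by rw [hNdef]; infer_instance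
  letI : Fintype N := Fintype.ofFinite N
  -- the linear character `φ = ν⁻¹` of `N`
  let lam : N →* ℂˣ :=
    { toFun := fun x => Units.mk0 ((ν (x : Ĝ))⁻¹) (inv_ne_zero (D.nu_ne x ((hmemN x).mp x.2)))
      map_one' := by
        apply Units.ext
        simp only [Units.val_mk0, Units.val_one, Subgroup.coe_one]
        rw [ce_nu_one D, inv_one]
      map_mul' := fun x y => by
        apply Units.ext
        simp only [Units.val_mk0, Units.val_mul, Subgroup.coe_mul]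
        rw [D.nu_mul x y ((hmemN x).mp x.2) ((hmemN y).mp y.2), mul_inv] }
  obtain ⟨φ, hφdef⟩ : ∃ φ : N → ℂ, φ = fun x : N => (ν (x : Ĝ))⁻¹ := ⟨_, rfl⟩
  obtain ⟨ϑ, hϑdef⟩ : ∃ ϑ : N → ℂ, ϑ = fun x : N => θt (x : Ĝ) := ⟨_, rfl⟩
  have hφ : IsIrrCharacter N φ := by
    rw [hφdef]; exact isIrrCharacter_of_hom lam
  have hϑ : IsIrrCharacter N ϑ := by
    rw [hϑdef]
    subst hNdef
    exact D.res_irr
  have hθtc : IsClassFunction Ĝ θt :=
    isClassFunction_of_isCharacter (isCharacter_of_isIrrCharacter D.irr)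
  have hφinv : ∀ g : Ĝ, conjChar N φ g = φ := by
    intro g
    funext n
    rw [conjChar_apply, hφdef]
    change (ν (g * (n : Ĝ) * g⁻¹))⁻¹ = (ν (n : Ĝ))⁻¹
    rw [D.nu_conj n g ((hmemN n).mp n.2)]
  have hϑinv : ∀ g : Ĝ, conjChar N ϑ g = ϑ := by
    intro g
    funext n
    rw [conjChar_apply, hϑdef]
    exact hθtc n g
  -- the hom `N → K`
  obtain ⟨πN, hπN⟩ : ∃ πN : N →* K, ∀ x : N, ((πN x : K) : G) = π (x : Ĝ) := by
    subst hNdef
    exact ⟨π.subgroupComap K, fun x => rfl⟩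
  have hπNsurj : Function.Surjective πN := by
    intro k
    obtain ⟨x, hx⟩ := D.surj (k : G)
    have hxN : x ∈ N := by rw [hmemN, hx]; exact k.2
    refine ⟨⟨x, hxN⟩, ?_⟩
    apply Subtype.ext
    rw [hπN]; exact hx
  have hprodeq : φ * ϑ = fun x : N => (θ : K → ℂ) (πN x) := by
    funext x
    have hx : π (x : Ĝ) ∈ K := (hmemN x).mp x.2
    have h1 := D.res x hx
    have h2 : (πN x : K) = ⟨π (x : Ĝ), hx⟩ := Subtype.ext (hπN x)
    rw [h2, Pi.mul_apply, hφdef, hϑdef]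
    change (ν (x : Ĝ))⁻¹ * θt (x : Ĝ) = _
    rw [h1, ← mul_assoc, inv_mul_cancel₀ (D.nu_ne x hx), one_mul]
  have hprod : IsIrrCharacter N (φ * ϑ) := by
    rw [hprodeq]
    exact isIrrCharacter_comp_surjective πN hπNsurj θ.2
  have hχ : IsCharacter Ĝ θt := isCharacter_of_isIrrCharacter D.irr
  have hext : ∀ n : N, θt n = ϑ n := by
    intro n; rw [hϑdef]
  -- `ψ ∘ π`
  have hψπ : IsIrrCharacter Ĝ (fun x => (ψ : G → ℂ) (π x)) :=
    isIrrCharacter_comp_surjective π D.surj ψ.2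
  have hψπc : IsClassFunction Ĝ (fun x => (ψ : G → ℂ) (π x)) :=
    isClassFunction_of_isCharacter (isCharacter_of_isIrrCharacter hψπ)
  have hover : classInner (indFun N (φ * ϑ)) (fun x => (ψ : G → ℂ) (π x)) ≠ 0 := by
    rw [frobenius_reciprocity N (φ * ϑ) _ hψπc, hprodeq]
    have h1 : (fun h : N => (ψ : G → ℂ) (π (h : Ĝ))) =
        fun h : N => (fun k : K => (ψ : G → ℂ) k) (πN h) := by
      funext h
      change _ = (ψ : G → ℂ) ((πN h : K) : G)
      rw [hπN]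
    rw [h1, classInner_comp_surj' πN hπNsurj (θ : K → ℂ) (fun k : K => (ψ : G → ℂ) k),
      ← classInner_conj_symm]
    intro h0
    apply hψ
    have := congrArg (starRingEnd ℂ) h0
    simpa using this
  obtain ⟨-, -, h3⟩ := gallagher N hφ hϑ hφinv hϑinv hprod hχ hext
  obtain ⟨β, hβirr, hβφ, hβχ⟩ := h3 _ hψπ hover
  refine ⟨⟨β, hβirr⟩, ?_, ?_⟩
  · intro x
    have := congrFun hβχ x
    rw [Pi.mul_apply] at this
    exact this.symm
  · -- `β` restricted to `N` is `β 1 • φ`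
    have hβc : IsClassFunction Ĝ β :=
      isClassFunction_of_isCharacter (isCharacter_of_isIrrCharacter hβirr)
    have h1 : classInner (fun n : N => β n) φ ≠ 0 := by
      rw [frobenius_reciprocity N φ β hβc, ← classInner_conj_symm] at hβφ
      intro h0
      apply hβφ
      rw [h0, map_zero]
    have hres := clifford_res N hβirr hφ h1
    have hset : {ψ' : N → ℂ | ∃ g : Ĝ, ψ' = conjChar N φ g} = {φ} := by
      ext ψ'
      simp only [Set.mem_setOf_eq, Set.mem_singleton_iff]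
      constructor
      · rintro ⟨g, rfl⟩; exact hφinv g
      · intro h; exact ⟨1, by rw [h, hφinv]⟩
    rw [hset, finsum_mem_singleton] at hres
    have hβN : ∀ n : N, β n = classInner (fun n : N => β n) φ * φ n := by
      intro n
      have := congrFun hres n
      simpa using this
    have hφ1 : φ 1 = 1 := by
      rw [hφdef]
      change (ν ((1 : N) : Ĝ))⁻¹ = 1
      rw [Subgroup.coe_one, ce_nu_one D, inv_one]
    have he : classInner (fun n : N => β n) φ = β 1 := by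
      have := hβN 1
      rw [hφ1, mul_one, Subgroup.coe_one] at this
      exact this.symm
    have hβN' : ∀ n : Ĝ, π n ∈ K → β n = β 1 * (ν n)⁻¹ := by
      intro n hn
      have := hβN ⟨n, (hmemN n).mpr hn⟩
      rw [he, hφdef] at this
      exact this
    intro x k hk
    have hk1 : π k⁻¹ ∈ K := by rw [map_inv]; exact K.inv_mem hk
    have hcen : k ∈ Cfsg.Agent.H16.irrCen (⟨β, hβirr⟩ : IrrCharacter Ĝ) := by
      rw [Cfsg.Agent.H16.mem_irrCen]
      intro g
      rw [Cfsg.Agent.H82.mem_irrKer]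
      change β (k * g * k⁻¹ * g⁻¹) = β 1
      have hg1 : π (g * k⁻¹ * g⁻¹) ∈ K := by
        rw [map_mul, map_mul, map_inv π g]
        exact ‹K.Normal›.conj_mem _ hk1 _
      have hall : π (k * g * k⁻¹ * g⁻¹) ∈ K := by
        have e : k * g * k⁻¹ * g⁻¹ = k * (g * k⁻¹ * g⁻¹) := by group
        rw [e, map_mul]
        exact K.mul_mem hk hg1
      rw [hβN' _ hall]
      have e : k * g * k⁻¹ * g⁻¹ = k * (g * k⁻¹ * g⁻¹) := by group
      rw [e, D.nu_mul k _ hk hg1, D.nu_conj k⁻¹ g hk1, ce_nu_inv D k hk,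
        mul_inv_cancel₀ (D.nu_ne k hk), inv_one, mul_one]
    obtain ⟨c, hc, -, -⟩ := Cfsg.Agent.H16.irrCen_scalar (⟨β, hβirr⟩ : IrrCharacter Ĝ) hcen
    have hc' : ∀ g : Ĝ, β (k * g) = c * β g := hc
    have hβ1 : β 1 ≠ 0 := irr_one_ne_zero' hβirr
    have hcval : c = (ν k)⁻¹ := by
      have h2 := hc' 1
      rw [mul_one, hβN' k hk] at h2
      have h3 : β 1 * (ν k)⁻¹ = β 1 * c := by rw [h2, mul_comm]
      exact (mul_left_cancel₀ hβ1 h3).symm
    change β (x * k) = (ν k)⁻¹ * β x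
    have h4 : β (x * (k * x) * x⁻¹) = β (k * x) := hβc (k * x) x
    have e : x * (k * x) * x⁻¹ = x * k := by group
    rw [e] at h4
    rw [h4, hc', hcval]

end Cfsg.Agent.H82.Hc
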