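import Cfsg.Agent.H79.HcDefs
import Cfsg.Agent.Lib.Gallagher

/-!
# S4440 piece P21 (for helper79): `StmtTransB` from `StmtTransA` and `StmtNV`

Vanishing of the weighted sum transfers from `U ⊆ Irr(G | θ)` to `liftSet K Ĝ π θt ν U`.
-/

set_option autoImplicit false
set_option linter.unusedSectionVars false
set_option linter.style.haveILetI false

namespace Cfsg.Agent.H82.Hc

open Cfsg Cfsg.Agent.H79.Hc Cfsg.Agent.H4 Cfsg.Agent.Clifford
open scoped ComplexConjugate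

universe u

/-- (TRANSB) from (TRANSA) and (NV). -/
theorem stmtTransB (p : ℕ) [Fact p.Prime] (hA : StmtTransA.{u}) (hNV : StmtNV.{u}) :
    StmtTransB.{u} p := by
  intro G _ _ K _ _ θ Ĝ _ _ π θt ν D hcop U hU hover
  classical
  have hp : p.Prime := Fact.out
  obtain ⟨Û, hÛdef⟩ : ∃ Û : Set (IrrCharacter Ĝ), Û = liftSet K Ĝ π θt ν U := ⟨_, rfl⟩
  rw [← hÛdef]
  have hmem : ∀ β : IrrCharacter Ĝ, β ∈ Û ↔
      (∀ x k : Ĝ, π k ∈ K → (β : Ĝ → ℂ) (x * k) = (ν k)⁻¹ * (β : Ĝ → ℂ) x) ∧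
      ∃ χ ∈ U, ∀ x : Ĝ, (χ : G → ℂ) (π x) = (β : Ĝ → ℂ) x * θt x := by
    intro β; rw [hÛdef]; rfl
  -- members of `Û` with the same product with `θt` are equal
  have hinj : ∀ β ∈ Û, ∀ β' ∈ Û,
      (∀ x, (β : Ĝ → ℂ) x * θt x = (β' : Ĝ → ℂ) x * θt x) → β = β' := by
    intro β hβ β' hβ' h
    apply Subtype.ext
    funext x
    obtain ⟨k, hk, hne⟩ := hNV Ĝ (K.comap π) θt D.irr D.res_irr x
    have hk' : π k ∈ K := hk
    have h1 := h (x * k)
    have h2 := mul_right_cancel₀ hne h1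
    rw [((hmem β).mp hβ).1 x k hk', ((hmem β').mp hβ').1 x k hk'] at h2
    exact mul_left_cancel₀ (inv_ne_zero (D.nu_ne k hk')) h2
  have hex : ∀ χ ∈ U, ∃ β ∈ Û, ∀ x, (χ : G → ℂ) (π x) = (β : Ĝ → ℂ) x * θt x := by
    intro χ hχ
    obtain ⟨β, h1, h2⟩ := hA G K θ Ĝ π θt ν D χ (hover χ hχ)
    exact ⟨β, (hmem β).mpr ⟨h2, χ, hχ, h1⟩, h1⟩
  let e : IrrCharacter G → IrrCharacter Ĝ := fun χ =>
    if h : ∃ β ∈ Û, ∀ x, (χ : G → ℂ) (π x) = (β : Ĝ → ℂ) x * θt x then Classical.choose h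
    else ⟨θt, D.irr⟩
  have he : ∀ χ ∈ U, e χ ∈ Û ∧ ∀ x, (χ : G → ℂ) (π x) = (e χ : Ĝ → ℂ) x * θt x := by
    intro χ hχ
    have h := hex χ hχ
    simp only [e, dif_pos h]
    exact Classical.choose_spec h
  have hbij : Set.BijOn e U Û := by
    refine ⟨fun χ hχ => (he χ hχ).1, ?_, ?_⟩
    · intro χ hχ χ' hχ' hee
      apply Subtype.ext
      funext g
      obtain ⟨x, rfl⟩ := D.surj g
      rw [(he χ hχ).2 x, (he χ' hχ').2 x, hee]
    · intro β hβ
      obtain ⟨χ, hχ, h1⟩ := ((hmem β).mp hβ).2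
      refine ⟨χ, hχ, ?_⟩
      exact hinj _ (he χ hχ).1 β hβ (fun x => by rw [← (he χ hχ).2 x, h1 x])
  have hsum : ∀ x : Ĝ, wsum U (π x) = θt 1 * θt x * wsum Û x := by
    intro x
    unfold wsum
    rw [mul_finsum_mem]
    refine finsum_mem_eq_of_bijOn e hbij ?_
    intro χ hχ
    have h1 := (he χ hχ).2 1
    rw [map_one] at h1
    rw [h1, (he χ hχ).2 x]
    ring
  have hshift : ∀ x k : Ĝ, π k ∈ K → wsum Û (x * k) = (ν k)⁻¹ * wsum Û x := by
    intro x k hk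
    unfold wsum
    rw [mul_finsum_mem]
    refine finsum_mem_congr rfl ?_
    intro β hβ
    rw [((hmem β).mp hβ).1 x k hk]
    ring
  intro x hx
  obtain ⟨k, hk, hne⟩ := hNV Ĝ (K.comap π) θt D.irr D.res_irr x
  have hk' : π k ∈ K := hk
  have hpK : ¬ p ∣ Nat.card K := (Nat.Prime.coprime_iff_not_dvd hp).mp hcop.symm
  -- `π (x * k)` is `p`-singular
  have hsing : p ∣ orderOf (π (x * k)) := by
    by_contra hreg
    obtain ⟨m, hm⟩ : ∃ m : ℕ, m = orderOf (π (x * k)) := ⟨_, rfl⟩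
    rw [← hm] at hreg
    have h1 : (π (x * k)) ^ m = 1 := by rw [hm]; exact pow_orderOf_eq_one _
    have h2 : (π x) ^ m ∈ K := by
      have h4 : QuotientGroup.mk' K (π (x * k)) = QuotientGroup.mk' K (π x) := by
        have hq : QuotientGroup.mk' K (π k) = 1 := (QuotientGroup.eq_one_iff _).mpr hk'
        rw [map_mul π, map_mul (QuotientGroup.mk' K), hq, mul_one]
      have h3 : (QuotientGroup.mk' K (π x)) ^ m = 1 := by
        rw [← h4, ← map_pow, h1, map_one]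
      rw [← map_pow] at h3
      exact (QuotientGroup.eq_one_iff _).mp h3
    have h5 : ((π x) ^ m) ^ Nat.card K = 1 := by
      have h : (⟨(π x) ^ m, h2⟩ : K) ^ Nat.card K = 1 := pow_card_eq_one'
      have h' := congrArg (Subtype.val : K → G) h
      rw [Subgroup.coe_pow, Subgroup.coe_one] at h'
      exact h'
    have h6 : x ^ (m * Nat.card K) ∈ π.ker := by
      rw [MonoidHom.mem_ker, map_pow, pow_mul]; exact h5
    have h7 := D.ker_exp _ h6
    rw [← pow_mul] at h7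
    have h8 : orderOf x ∣ m * Nat.card K * Nat.card K := orderOf_dvd_of_pow_eq_one h7
    have h9 := hx.trans h8
    rcases hp.dvd_mul.mp h9 with h | h
    · rcases hp.dvd_mul.mp h with h | h
      · exact hreg h
      · exact hpK h
    · exact hpK h
  have h0 := hU (π (x * k)) hsing
  rw [hsum, hshift x k hk'] at h0
  have hθt1 : θt 1 ≠ 0 := irr_one_ne_zero' D.irr
  have hν : (ν k)⁻¹ ≠ 0 := inv_ne_zero (D.nu_ne k hk')
  rcases mul_eq_zero.mp h0 with h | h
  · rcases mul_eq_zero.mp h with h | h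
    · exact absurd h hθt1
    · exact absurd h hne
  · rcases mul_eq_zero.mp h with h | h
    · exact absurd h hν
    · exact h

end Cfsg.Agent.H82.Hc
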