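import Cfsg.Agent.H79.HtDefs
import Cfsg.Agent.S4435
import Cfsg.Agent.S4436
import Cfsg.Agent.H20.FongReynolds2
import Cfsg.Agent.H81.DefZero
import Cfsg.Agent.H81.Reg
import Cfsg.Agent.Lib.Clifford
import Cfsg.Agent.H5.BlockKer
import Cfsg.Agent.H80.MaxConj2
import Cfsg.Agent.H77.HtSylowCenter

/-!
# S4439 piece H4 (for helper79): `StmtHtFR` (the Fong–Reynolds step for heights)
-/

set_option autoImplicit false
set_option linter.unusedSectionVars false
set_option linter.style.haveILetI false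

namespace Cfsg.Agent.H82.Hc

open Cfsg Cfsg.Agent.H79.Hc Cfsg.Agent.H4
open scoped ComplexConjugate

universe u

/-- The Fong–Reynolds setting for an irreducible character `θ` of a normal `p'`-subgroup `K`
with stabilizer `T`: `{θ}` is a block of `K`, `T` is its stabilizer in the sense of S4435, and
`K ≤ T`. -/
theorem fr_data {G : Type u} [Group G] [Finite G] (K T : Subgroup G) [hK : K.Normal]
    [Fintype K] {p : ℕ} {M : Ideal AlgInt} (hM : IsPModular p M)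
    (hcop : (Nat.card K).Coprime p) (θ : IrrCharacter K)
    (hT : ∀ g : G, g ∈ T ↔
      ∀ n : K, (θ : K → ℂ) ⟨g * n * g⁻¹, hK.conj_mem n n.2 g⟩ = (θ : K → ℂ) n) :
    IsPBlock M ({θ} : Set (IrrCharacter K)) ∧
    (∀ g : G, g ∈ T ↔ ∀ θ₁ ∈ ({θ} : Set (IrrCharacter K)), ∀ θ' : IrrCharacter K,
      (∀ n : K, (θ' : K → ℂ) n = (θ₁ : K → ℂ) ⟨g * n * g⁻¹, hK.conj_mem n n.2 g⟩) →
      θ' ∈ ({θ} : Set (IrrCharacter K))) ∧ K ≤ T := by
  classical
  have hp : p.Prime := hM.1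
  have hb : blockOf M (θ : K → ℂ) = {θ} := by
    apply Cfsg.Agent.H81.blockOf_eq_singleton_of_defect_zero hM θ
    intro h
    have h1 : Nat.card K / charDegree (θ : K → ℂ) ∣ Nat.card K :=
      Nat.div_dvd_of_dvd (Cfsg.Agent.H81.irr_charDegree_dvd θ)
    exact (Nat.Prime.coprime_iff_not_dvd hp).mp hcop.symm (h.trans h1)
  have hθc : IsClassFunction K (θ : K → ℂ) :=
    isClassFunction_of_isCharacter (isCharacter_of_isIrrCharacter θ.2)
  refine ⟨⟨θ, hb.symm⟩, ?_, ?_⟩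
  · intro g
    rw [hT g]
    constructor
    · intro h θ₁ hθ₁ θ' hθ'
      rw [Set.mem_singleton_iff] at hθ₁ ⊢
      subst hθ₁
      apply Subtype.ext
      funext n
      rw [hθ' n, h n]
    · intro h n
      have h1 := h θ rfl ⟨Cfsg.Agent.Clifford.conjChar K (θ : K → ℂ) g,
        Cfsg.Agent.Clifford.isIrrCharacter_conjChar K θ.2 g⟩ (fun n => rfl)
      rw [Set.mem_singleton_iff] at h1
      exact congrArg (fun c : IrrCharacter K => (c : K → ℂ) n) h1
  · intro k hk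
    rw [hT]
    intro n
    have h1 := hθc n ⟨k, hk⟩
    have e : (⟨k * n * k⁻¹, hK.conj_mem n n.2 k⟩ : K) = ⟨k, hk⟩ * n * ⟨k, hk⟩⁻¹ :=
      Subtype.ext rfl
    rw [e]; exact h1

/-- (HTFR) the Fong–Reynolds step for heights. -/
theorem stmtHtFR (p : ℕ) (M : Ideal AlgInt) : StmtHtFR.{u} p M := by
  intro G _ _ K T hK _ hM hcop θ hT hHT B hB P hP χ hχB hχθ
  classical
  have hp : p.Prime := hM.1
  haveI : Fact p.Prime := ⟨hp⟩
  have hMp : M.IsPrime := Cfsg.Agent.H20.isPrime_of_isPModular hM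
  letI : Fintype G := Fintype.ofFinite G
  letI : Fintype T := Fintype.ofFinite T
  obtain ⟨hbB, hT', hKT⟩ := fr_data K T hM hcop θ hT
  obtain ⟨h_i, -, h_iii⟩ := Cfsg.Agent.S4435.result p M hM K ({θ} : Set (IrrCharacter K)) hbB T
    hT' hKT
  obtain ⟨B', hB', hcov', hind⟩ := h_iii B hB ⟨χ, hχB, θ, rfl, hχθ⟩
  obtain ⟨B₂, hind₂, -, hirr, hB₂⟩ := h_i B' hB' hcov'
  have hBeq : B₂ = B := Cfsg.Agent.H20.isInducedBlock_unique hMp hind₂ hind
  rw [hBeq] at hB₂
  obtain ⟨hdef, hht⟩ := Cfsg.Agent.S4436.result p M hM K ({θ} : Set (IrrCharacter K)) hbB T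
    hT' hKT B' hB' hcov' B hind
  obtain ⟨ψ₀, hψ₀B, hχeq⟩ := (hB₂ χ).mp hχB
  obtain ⟨χ', hχ'B, hχ'eq, hheight⟩ := hht ψ₀ hψ₀B
  have e : χ' = χ := Subtype.ext (hχ'eq.trans hχeq.symm)
  rw [e] at hheight
  obtain ⟨ξ, hξ⟩ := id hB'
  obtain ⟨D', hD'⟩ := Cfsg.Agent.H5.BlockKer.exists_isDefectGroup (p := p) hM ξ
  rw [← hξ] at hD'
  have hD'G := hdef D' hD'
  obtain ⟨x, hx⟩ := Cfsg.Agent.H80.isDefectGroup_conj_eq p hM hB hD'G hP
  subst hx
  have hidx : (Subgroup.center ↥((D'.map T.subtype).map (MulAut.conj x).toMonoidHom)).index =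
      (Subgroup.center ↥D').index := by
    have e1 : D' ≃* (D'.map T.subtype) := D'.equivMapOfInjective T.subtype T.subtype_injective
    have e2 : (D'.map T.subtype) ≃* ((D'.map T.subtype).map (MulAut.conj x).toMonoidHom) :=
      (D'.map T.subtype).equivMapOfInjective _ (MulAut.conj x).injective
    exact (Cfsg.Agent.H77.Hc.index_center_congr (e1.trans e2)).symm
  rw [hheight, hidx]
  exact hHT B' hB' D' hD' ψ₀ hψ₀B

end Cfsg.Agent.H82.Hc
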