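import Cfsg.Agent.H79.HtDefs
import Cfsg.Agent.H79.HcInvCore
import Cfsg.Agent.H82.HcTransA
import Cfsg.Agent.H81.Reg
import Cfsg.Agent.H80.GroupBasic

/-!
# S4439 piece H3 (for helper79): `StmtHtInv`

Characters over an invariant character of `O_{p'}(G)`: the `p`-part of the degree is at most
`|P : Z(P)|`, from the central-extension pieces.
-/

set_option autoImplicit false
set_option linter.unusedSectionVars false
set_option linter.style.haveILetI false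

namespace Cfsg.Agent.H82.Hc

open Cfsg Cfsg.Agent.H79.Hc Cfsg.Agent.H4
open scoped ComplexConjugate

universe u

/-- Subgroups of `π⁻¹(K)` have order prime to `p` when `K` has (argument of helper28's
`stmtGroupGamma`). -/
theorem ce_coprime {G : Type u} [Group G] [Finite G] {K : Subgroup G} [Fintype K] {θ : K → ℂ}
    {Ĝ : Type u} [Group Ĝ] [Finite Ĝ] {π : Ĝ →* G} {θt ν : Ĝ → ℂ} (D : CEData K θ Ĝ π θt ν)
    (p : ℕ) [Fact p.Prime] (hKc : (Nat.card K).Coprime p) (H : Subgroup Ĝ)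
    (hH : H ≤ K.comap π) : (Nat.card H).Coprime p := by
  have hp : p.Prime := Fact.out
  rw [Nat.coprime_comm, Nat.Prime.coprime_iff_not_dvd hp]
  intro hdvd
  obtain ⟨x, hx⟩ := exists_prime_orderOf_dvd_card' p hdvd
  have hy : orderOf (x : Ĝ) = p := by rw [Subgroup.orderOf_coe, hx]
  have hπ : π (x : Ĝ) ∈ K := hH x.2
  have h1 : (π (x : Ĝ)) ^ Nat.card K = 1 := by
    have h0 : (⟨π (x : Ĝ), hπ⟩ : K) ^ Nat.card K = 1 := pow_card_eq_one'
    exact congrArg Subtype.val h0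
  have h2 : (x : Ĝ) ^ Nat.card K ∈ π.ker := by
    rw [MonoidHom.mem_ker, map_pow, h1]
  have h3 := D.ker_exp _ h2
  rw [← pow_mul] at h3
  have h4 : p ∣ Nat.card K * Nat.card K := by
    rw [← hy]
    exact orderOf_dvd_of_pow_eq_one h3
  have h5 : p ∣ Nat.card K := ((Nat.Prime.dvd_mul hp).1 h4).elim id id
  exact (Nat.Prime.coprime_iff_not_dvd hp).1 hKc.symm h5

/-- (HTINV) from (CE), (TRANSA), (GROUPGAMMA), (HTCENTRAL), (SYLOWCENTER). -/
theorem stmtHtInv (p : ℕ) [Fact p.Prime] (hCE : StmtCE.{u}) (hTA : StmtTransA.{u})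
    (hGG : StmtGroupGamma.{u} p) (hHt : StmtHtCentral.{u} p) (hSC : StmtSylowCenter.{u} p) :
    StmtHtInv.{u} p := by
  intro G _ _ K hK _ hsolv hKdef θ hinv χ hχθ P
  classical
  have hp : p.Prime := Fact.out
  obtain ⟨Ĝ, _, _, π, θt, ν, hce⟩ := hCE G K θ hinv
  have hKc : (Nat.card K).Coprime p := hKdef ▸ Cfsg.Agent.H80.pPrimeCore_coprime p G
  have hν1 : ν 1 = 1 := ce_nu_one hce
  let L : Subgroup Ĝ :=
    { carrier := {x | π x ∈ K ∧ ν x = 1}
      one_mem' := ⟨by rw [map_one]; exact K.one_mem, hν1⟩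
      mul_mem' := by
        rintro x y ⟨hx, hx1⟩ ⟨hy, hy1⟩
        refine ⟨by rw [map_mul]; exact K.mul_mem hx hy, ?_⟩
        rw [hce.nu_mul x y hx hy, hx1, hy1, mul_one]
      inv_mem' := by
        rintro x ⟨hx, hx1⟩
        have hxi : π x⁻¹ ∈ K := by rw [map_inv]; exact K.inv_mem hx
        refine ⟨hxi, ?_⟩
        rw [ce_nu_inv hce x hx, hx1, inv_one] }
  have hL : ∀ x : Ĝ, x ∈ L ↔ π x ∈ K ∧ ν x = 1 := fun x => Iff.rfl
  haveI hLn : L.Normal := by
    constructor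
    rintro x ⟨hx, hx1⟩ y
    refine ⟨?_, ?_⟩
    · rw [map_mul, map_mul, map_inv]
      exact hK.conj_mem _ hx _
    · rw [hce.nu_conj x y hx]
      exact hx1
  obtain ⟨hΓs, hΓc, -⟩ := hGG G K (θ : K → ℂ) Ĝ π θt ν L hce hsolv hKdef hL
  obtain ⟨β, hβ1, hβ2⟩ := hTA G K θ Ĝ π θt ν hce χ hχθ
  obtain ⟨ξ, hξ⟩ := exists_descent L β (by
    rintro l ⟨hl, hl1⟩
    have h := hβ2 1 l hl
    rw [one_mul, hl1, inv_one, one_mul] at h
    exact h)
  -- degrees
  have h1K : π (1 : Ĝ) ∈ K := by rw [map_one]; exact K.one_mem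
  have hθt1 : θt 1 = (θ : K → ℂ) 1 := by
    have h := hce.res 1 h1K
    have e : (⟨π (1 : Ĝ), h1K⟩ : K) = 1 := Subtype.ext (map_one π)
    rw [e, hν1, one_mul] at h
    exact h
  have hdegC : ((charDegree (χ : G → ℂ) : ℕ) : ℂ) =
      ((charDegree (ξ : Ĝ ⧸ L → ℂ) * charDegree (θ : K → ℂ) : ℕ) : ℂ) := by
    have h1 := hβ1 1
    have h2 := hξ 1
    rw [map_one] at h1 h2
    rw [h2, hθt1, (Cfsg.Agent.H81.irr_charDegree χ).1, (Cfsg.Agent.H81.irr_charDegree ξ).1,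
      (Cfsg.Agent.H81.irr_charDegree θ).1] at h1
    rw [h1]
    push_cast
    ring
  have hdeg : charDegree (χ : G → ℂ) = charDegree (ξ : Ĝ ⧸ L → ℂ) * charDegree (θ : K → ℂ) :=
    Nat.cast_injective hdegC
  have hθdvd : ¬ p ∣ charDegree (θ : K → ℂ) := by
    intro h
    exact (Nat.Prime.coprime_iff_not_dvd hp).mp hKc.symm
      (h.trans (Cfsg.Agent.H81.irr_charDegree_dvd θ))
  have hfac : (charDegree (χ : G → ℂ)).factorization p =
      (charDegree (ξ : Ĝ ⧸ L → ℂ)).factorization p := by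
    rw [hdeg, Nat.factorization_mul (Cfsg.Agent.H81.irr_charDegree ξ).2.ne'
      (Cfsg.Agent.H81.irr_charDegree θ).2.ne', Finsupp.add_apply,
      Nat.factorization_eq_zero_of_not_dvd hθdvd, add_zero]
  -- Sylow subgroups
  obtain ⟨Ph⟩ : Nonempty (Sylow p Ĝ) := inferInstance
  obtain ⟨PΓ⟩ : Nonempty (Sylow p (Ĝ ⧸ L)) := inferInstance
  have hker : π.ker ≤ K.comap π := by
    intro z hz
    rw [Subgroup.mem_comap, MonoidHom.mem_ker.1 hz]
    exact K.one_mem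
  have hLK : L ≤ K.comap π := fun x hx => ((hL x).1 hx).1
  have e1 := hSC Ĝ G π hce.surj (ce_coprime hce p hKc _ hker) Ph P
  have e2 := hSC Ĝ (Ĝ ⧸ L) (QuotientGroup.mk' L) (QuotientGroup.mk'_surjective L)
    (by rw [QuotientGroup.ker_mk']; exact ce_coprime hce p hKc L hLK) Ph PΓ
  rw [hfac, ← e1, e2]
  exact hHt (Ĝ ⧸ L) hΓs hΓc ξ PΓ

end Cfsg.Agent.H82.Hc
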