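import Cfsg.Agent.Lib.Helper30.BG12TDefs
import Cfsg.Agent.H92.BG123
import Cfsg.Agent.H57.BG126

set_option autoImplicit false

/-!
Piece BG12T-WIT of the team project BG12T (helper30): the witness subgroup `A₀` of order `p`
with `N_G(A₀)` in a unique maximal subgroup.
-/

namespace Cfsg.Agent.H82.BG12T

open Cfsg Subgroup Cfsg.Agent.H58.BG10 Cfsg.Agent.H57.BG12 Cfsg.Agent.Lib.Helper30.BG12T

universe u

variable {G : Type u} [Group G] [Finite G]

theorem wit (_hG : IsMinSimpleOddOrder G) (h16 : St1416 G) (h50 : St1350 G) (hN : StSigN G) :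
    StWit G := by
  intro p _ S M L hM hL hML hSM hSL hpM hpL A hAS hAel hAcard
  by_contra hno
  have h := (h16 M hM p A ⟨hAS.trans hSM, hAel, hAcard⟩).2
    (fun A₀ hA₀ hc hU => hno ⟨A₀, hA₀, hc, hU⟩)
  obtain ⟨-, -, hnil⟩ := h
  have hSK : (S : Subgroup G) ≤ sigmaCore M :=
    Cfsg.Agent.H92.BG12.le_sigmaCore_of_mem h50 hM hpM S.isPGroup' hSM
  have hMS : M ≤ normalizer ((S : Subgroup G) : Set G) := by
    intro m hm
    haveI : Group.IsNilpotent ↥(sigmaCore M) := hnil
    have hnorm : ((S.subtype hSK : Sylow p (sigmaCore M)) : Subgroup (sigmaCore M)).Normal :=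
      Sylow.normal_of_normalizerCondition normalizerCondition_of_isNilpotent _
    haveI : Subsingleton (Sylow p ↥(sigmaCore M)) :=
      (Sylow.unique_of_normal _ hnorm).instSubsingleton
    have hmK : ((m • S : Sylow p G) : Subgroup G) ≤ sigmaCore M := by
      intro x hx
      rw [Sylow.coe_subgroup_smul, Subgroup.mem_smul_pointwise_iff_exists] at hx
      obtain ⟨s, hs, rfl⟩ := hx
      rw [MulAut.smul_def, MulAut.conj_apply]
      exact (Subgroup.mem_normalizer_iff.mp
        (Cfsg.Agent.H57.BG12.le_normalizer_sigmaCore M hm) s).mp (hSK hs)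
    have heq : (m • S).subtype hmK = S.subtype hSK := Subsingleton.elim _ _
    have h1 := Sylow.subtype_injective heq
    exact Sylow.smul_eq_iff_mem_normalizer.mp h1
  have hML' : M ≤ L := hMS.trans (hN L hL p hpL S hSL)
  exact hML ((hM.le_iff_eq hL.1).mp hML').symm

end Cfsg.Agent.H82.BG12T
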