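import Cfsg.Agent.H38.BG161Defs
import Cfsg.Agent.H82.U4Absq

set_option autoImplicit false

namespace Cfsg.Agent.H82.BG161

open Cfsg Subgroup Cfsg.Agent.H38.BG161

universe u

/-- Fitting decomposition for an endomorphism of order prime to the group order, abstractly:
the averaged norm `θ`. -/
theorem dec_abs {A : Type*} [CommGroup A] [Finite A] (ψ : A →* A) (n : ℕ)
    (hn : n.Coprime (Nat.card A)) (hψ : ∀ a, ψ^[n] a = a) :
    ∃ θ : A →* A, (∀ a, ψ (θ a) = θ a) ∧ (∀ a, ψ a = a → θ a = a) ∧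
      ∀ κ : A →* A, (∀ a, κ (ψ a) = ψ (κ a)) → ∀ a, κ (θ a) = θ (κ a) := by
  obtain ⟨m, hm⟩ : ∃ m : ℤ, ∀ a : A, a ^ ((n : ℤ) * m) = a := by
    refine ⟨Int.gcdA n (Nat.card A), fun a => ?_⟩
    have h1 : ((Nat.gcd n (Nat.card A) : ℕ) : ℤ)
        = n * Int.gcdA n (Nat.card A) + (Nat.card A) * Int.gcdB n (Nat.card A) :=
      Nat.gcd_eq_gcd_ab n (Nat.card A)
    have hn' : Nat.gcd n (Nat.card A) = 1 := hn
    rw [hn'] at h1
    have h2 : (n : ℤ) * Int.gcdA n (Nat.card A)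
        = 1 - (Nat.card A : ℤ) * Int.gcdB n (Nat.card A) := by
      push_cast at h1; linarith
    rw [h2, zpow_sub, zpow_one, zpow_mul, zpow_natCast, pow_card_eq_one', one_zpow, inv_one,
      mul_one]
  let θ : A →* A :=
    { toFun := fun a => (∏ j ∈ Finset.range n, ψ^[j] a) ^ m
      map_one' := by simp [iterate_map_one]
      map_mul' := fun a b => by
        simp only [iterate_map_mul, Finset.prod_mul_distrib, mul_zpow] }
  refine ⟨θ, ?_, ?_, ?_⟩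
  · intro a
    show ψ ((∏ j ∈ Finset.range n, ψ^[j] a) ^ m) = (∏ j ∈ Finset.range n, ψ^[j] a) ^ m
    rw [map_zpow, map_prod]
    congr 1
    have h1 : ∀ j, ψ (ψ^[j] a) = ψ^[j + 1] a :=
      fun j => (Function.iterate_succ_apply' ψ j a).symm
    simp only [h1]
    have h2 := Finset.prod_range_succ' (fun j => ψ^[j] a) n
    have h3 := Finset.prod_range_succ (fun j => ψ^[j] a) n
    rw [h3] at h2
    simp only [hψ a, Function.iterate_zero, id_eq] at h2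
    exact (mul_right_cancel h2).symm
  · intro a ha
    show (∏ j ∈ Finset.range n, ψ^[j] a) ^ m = a
    have h1 : ∀ j, ψ^[j] a = a := fun j => Function.iterate_fixed ha j
    simp only [h1, Finset.prod_const, Finset.card_range]
    rw [← zpow_natCast, ← zpow_mul]
    exact hm a
  · intro κ hκ a
    show κ ((∏ j ∈ Finset.range n, ψ^[j] a) ^ m) = (∏ j ∈ Finset.range n, ψ^[j] (κ a)) ^ m
    rw [map_zpow, map_prod]
    congr 1
    have hit : ∀ j : ℕ, κ (ψ^[j] a) = ψ^[j] (κ a) := by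
      intro j
      induction j with
      | zero => rfl
      | succ j ih => rw [Function.iterate_succ_apply', Function.iterate_succ_apply', hκ, ih]
    exact Finset.prod_congr rfl (fun j _ => hit j)

variable {G : Type u} [Group G]

/-- subgroup of `G` cut out inside `S` by a multiplicative condition -/
def kerSub (S : Subgroup G) (φ : S → S) (h1 : φ 1 = 1)
    (hmul : ∀ a b, φ (a * b) = φ a * φ b) : Subgroup G where
  carrier := {s | ∃ hs : s ∈ S, φ ⟨s, hs⟩ = 1}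
  mul_mem' := by
    rintro a b ⟨ha, ha'⟩ ⟨hb, hb'⟩
    refine ⟨S.mul_mem ha hb, ?_⟩
    have h : (⟨a * b, S.mul_mem ha hb⟩ : S) = ⟨a, ha⟩ * ⟨b, hb⟩ := rfl
    rw [h, hmul, ha', hb', one_mul]
  one_mem' := ⟨S.one_mem, h1⟩
  inv_mem' := by
    rintro a ⟨ha, ha'⟩
    refine ⟨S.inv_mem ha, ?_⟩
    have h : (⟨a⁻¹, S.inv_mem ha⟩ : S) = (⟨a, ha⟩ : S)⁻¹ := rfl
    have h2 : φ ((⟨a, ha⟩ : S)⁻¹) * φ ⟨a, ha⟩ = 1 := by rw [← hmul, inv_mul_cancel, h1]
    rw [ha', mul_one] at h2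
    rw [h, h2]

theorem dec [Finite G] : StDec G := by
  intro p _ S hS hcomm w n u hw hn hnp hwn hu
  classical
  have hp : p.Prime := Fact.out
  letI cg : CommGroup S := { (inferInstance : Group S) with
    mul_comm := fun a b => Subtype.ext (hcomm a.1 a.2 b.1 b.2) }
  have hconjS : ∀ g ∈ normalizer (S : Set G), ∀ s ∈ S, g * s * g⁻¹ ∈ S :=
    fun g hg s hs => (Subgroup.mem_normalizer_iff.mp hg s).mp hs
  let conjHom : ∀ g ∈ normalizer (S : Set G), S →* S := fun g hg =>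
    { toFun := fun s => ⟨g * s.1 * g⁻¹, hconjS g hg s.1 s.2⟩
      map_one' := Subtype.ext (by simp)
      map_mul' := fun a b => Subtype.ext (by
        show g * (a.1 * b.1) * g⁻¹ = (g * a.1 * g⁻¹) * (g * b.1 * g⁻¹)
        group) }
  let powHom : S →* S :=
    { toFun := fun s => ⟨s.1 ^ u, S.pow_mem s.2 u⟩
      map_one' := Subtype.ext (by simp)
      map_mul' := fun a b => Subtype.ext (by
        show (a.1 * b.1) ^ u = a.1 ^ u * b.1 ^ u
        exact (show Commute a.1 b.1 from hcomm a.1 a.2 b.1 b.2).mul_pow u) }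
  let ψ : S →* S := (conjHom w hw).comp powHom
  have hψval : ∀ s : S, (ψ s).1 = w * s.1 ^ u * w⁻¹ := fun s => rfl
  have hiter : ∀ j : ℕ, ∀ s : S, (ψ^[j] s).1 = w ^ j * s.1 ^ (u ^ j) * (w ^ j)⁻¹ := by
    intro j
    induction j with
    | zero => intro s; simp
    | succ j ih =>
      intro s
      rw [Function.iterate_succ_apply', hψval, ih s, conj_pow, ← pow_mul, pow_succ' w,
        pow_succ u, mul_inv_rev]
      simp only [mul_assoc]
  have hψn : ∀ s : S, ψ^[n] s = s := by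
    intro s
    apply Subtype.ext
    rw [hiter n s, hu s.1 s.2]
    have h1 := Subgroup.mem_centralizer_iff.mp hwn s.1 s.2
    rw [← h1, mul_inv_cancel_right]
  have hcop : n.Coprime (Nat.card S) := by
    obtain ⟨k, hk⟩ := (IsPGroup.iff_card.mp hS)
    rw [hk]
    exact Nat.Coprime.pow_right k hnp
  obtain ⟨θ, hθ1, hθ2, hθ3⟩ := dec_abs ψ n hcop hψn
  have hθθ : ∀ s : S, θ (θ s) = θ s := fun s => hθ2 (θ s) (hθ1 s)
  let φC : S → S := fun s => ψ s * s⁻¹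
  let C : Subgroup G := kerSub S φC
    (by show ψ 1 * (1 : S)⁻¹ = 1; rw [map_one, inv_one, mul_one])
    (fun a b => by
      show ψ (a * b) * (a * b)⁻¹ = (ψ a * a⁻¹) * (ψ b * b⁻¹)
      rw [map_mul, mul_inv, mul_mul_mul_comm])
  let D : Subgroup G := kerSub S θ (map_one θ) (map_mul θ)
  have hCmem : ∀ s : G, s ∈ C ↔ ∃ hs : s ∈ S, ψ ⟨s, hs⟩ = ⟨s, hs⟩ := by
    intro s
    constructor
    · rintro ⟨hs, h⟩
      exact ⟨hs, mul_inv_eq_one.mp h⟩
    · rintro ⟨hs, h⟩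
      exact ⟨hs, mul_inv_eq_one.mpr h⟩
  have hDmem : ∀ s : G, s ∈ D ↔ ∃ hs : s ∈ S, θ ⟨s, hs⟩ = 1 := fun s => Iff.rfl
  refine ⟨C, D, ?_, ?_, ?_, ?_, ?_, ?_⟩
  · intro s hs; exact ((hCmem s).mp hs).1
  · intro s hs; exact ((hDmem s).mp hs).1
  · rw [eq_bot_iff]
    intro s hs
    obtain ⟨hsC, hsD⟩ := Subgroup.mem_inf.mp hs
    obtain ⟨hs1, h1⟩ := (hCmem s).mp hsC
    obtain ⟨hs2, h2⟩ := (hDmem s).mp hsD
    have h3 : θ ⟨s, hs1⟩ = ⟨s, hs1⟩ := hθ2 _ h1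
    rw [h2] at h3
    rw [Subgroup.mem_bot]
    exact (congrArg Subtype.val h3).symm
  · apply le_antisymm
    · exact sup_le (fun s hs => ((hCmem s).mp hs).1) (fun s hs => ((hDmem s).mp hs).1)
    · intro s hs
      have h1 : (θ ⟨s, hs⟩).1 ∈ C := (hCmem _).mpr ⟨(θ ⟨s, hs⟩).2, hθ1 _⟩
      have h2 : ((θ ⟨s, hs⟩)⁻¹ * ⟨s, hs⟩ : S).1 ∈ D := by
        refine (hDmem _).mpr ⟨((θ ⟨s, hs⟩)⁻¹ * ⟨s, hs⟩ : S).2, ?_⟩
        show θ ((θ ⟨s, hs⟩)⁻¹ * ⟨s, hs⟩) = 1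
        rw [map_mul, map_inv, hθθ, inv_mul_cancel]
      have h3 : s = (θ ⟨s, hs⟩).1 * ((θ ⟨s, hs⟩)⁻¹ * ⟨s, hs⟩ : S).1 := by
        show s = (θ ⟨s, hs⟩).1 * ((θ ⟨s, hs⟩).1⁻¹ * s)
        rw [mul_inv_cancel_left]
      rw [h3]
      exact Subgroup.mul_mem_sup h1 h2
  · intro s hs
    rw [hCmem]
    constructor
    · rintro ⟨hs', h⟩
      exact congrArg Subtype.val h
    · intro h
      exact ⟨hs, Subtype.ext h⟩
  · intro g hg hgw
    have hκψ : ∀ a : S, (conjHom g hg) (ψ a) = ψ ((conjHom g hg) a) := by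
      intro a
      apply Subtype.ext
      show g * (w * a.1 ^ u * w⁻¹) * g⁻¹ = w * (g * a.1 * g⁻¹) ^ u * w⁻¹
      rw [conj_pow]
      have hy : w * (g * a.1 ^ u * g⁻¹) * w⁻¹ ∈ S :=
        hconjS w hw _ (hconjS g hg _ (S.pow_mem a.2 u))
      have hc := Subgroup.mem_centralizer_iff.mp hgw _ hy
      have h2 : g * (w * a.1 ^ u * w⁻¹) * g⁻¹ = (g * w * g⁻¹ * w⁻¹) *
          (w * (g * a.1 ^ u * g⁻¹) * w⁻¹) * (g * w * g⁻¹ * w⁻¹)⁻¹ := by
        simp only [mul_inv_rev, inv_inv, mul_assoc, inv_mul_cancel_left, mul_inv_cancel_left]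
      rw [h2, ← hc, mul_inv_cancel_right]
    have hκθ := hθ3 (conjHom g hg) hκψ
    constructor
    · apply Cfsg.Agent.H82.U4.mem_normalizer_of_conj_mem
      intro x hx
      obtain ⟨hxS, hx'⟩ := (hCmem x).mp hx
      refine (hCmem _).mpr ⟨hconjS g hg x hxS, ?_⟩
      have h3 : (⟨g * x * g⁻¹, hconjS g hg x hxS⟩ : S) = (conjHom g hg) ⟨x, hxS⟩ := rfl
      rw [h3, ← hκψ, hx']
    · apply Cfsg.Agent.H82.U4.mem_normalizer_of_conj_mem
      intro x hx
      obtain ⟨hxS, hx'⟩ := (hDmem x).mp hx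
      refine (hDmem _).mpr ⟨hconjS g hg x hxS, ?_⟩
      have h3 : (⟨g * x * g⁻¹, hconjS g hg x hxS⟩ : S) = (conjHom g hg) ⟨x, hxS⟩ := rfl
      rw [h3, ← hκθ, hx', map_one]

example [Finite G] : StDec G := dec

end Cfsg.Agent.H82.BG161
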