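import Cfsg.Agent.H38.BG161Defs
import Cfsg.Agent.H82.U4Absq

set_option autoImplicit false

namespace Cfsg.Agent.H82.BG161

open Cfsg Subgroup Cfsg.Agent.H38.BG161

universe u

/-- a subgroup of order `p` meeting the `p`-th powers trivially is a retract -/
theorem exists_proj {A : Type*} [CommGroup A] [Finite A] (p : ℕ) [Fact p.Prime]
    (A₀ : Subgroup A) (hA₀ : Nat.card A₀ = p) (hpow : ∀ y : A, y ^ p ∈ A₀ → y ^ p = 1) :
    ∃ π : A →* A, (∀ s, π s ∈ A₀) ∧ ∀ a ∈ A₀, π a = a := by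
  classical
  have hp : p.Prime := Fact.out
  haveI : Finite (Subgroup A) :=
    Finite.of_injective (fun H : Subgroup A => (H : Set A)) SetLike.coe_injective
  haveI : Fintype (Subgroup A) := Fintype.ofFinite _
  let 𝓗 : Finset (Subgroup A) :=
    Finset.univ.filter (fun H => H ⊓ A₀ = ⊥ ∧ ∀ y : A, y ^ p ∈ H)
  have hne : 𝓗.Nonempty := by
    refine ⟨(powMonoidHom p : A →* A).range, ?_⟩
    rw [Finset.mem_filter]
    refine ⟨Finset.mem_univ _, ?_, fun y => ⟨y, rfl⟩⟩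
    rw [eq_bot_iff]
    rintro x ⟨⟨y, rfl⟩, hx⟩
    rw [Subgroup.mem_bot]
    exact hpow y hx
  obtain ⟨H, hH, hmax⟩ := Finset.exists_max_image 𝓗 (fun H => Nat.card H) hne
  rw [Finset.mem_filter] at hH
  obtain ⟨-, hHA, hHp⟩ := hH
  have htop : H ⊔ A₀ = ⊤ := by
    rw [eq_top_iff]
    intro x _
    by_contra hx
    have hxH : x ∉ H := fun h => hx (Subgroup.mem_sup_left h)
    have hlt : Nat.card H < Nat.card (H ⊔ Subgroup.zpowers x : Subgroup A) := by
      by_contra hle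
      push Not at hle
      have h1 := Subgroup.eq_of_le_of_card_ge (le_sup_left : H ≤ H ⊔ Subgroup.zpowers x) hle
      apply hxH
      rw [h1]
      exact Subgroup.mem_sup_right (Subgroup.mem_zpowers x)
    have hnot : ¬ ((H ⊔ Subgroup.zpowers x) ⊓ A₀ = ⊥) := by
      intro h
      have hmem : (H ⊔ Subgroup.zpowers x) ∈ 𝓗 := by
        rw [Finset.mem_filter]
        exact ⟨Finset.mem_univ _, h, fun y => Subgroup.mem_sup_left (hHp y)⟩
      have := hmax _ hmem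
      omega
    obtain ⟨⟨a, ha⟩, ha1⟩ := (Subgroup.ne_bot_iff_exists_ne_one).mp hnot
    have ha1' : a ≠ 1 := fun h => ha1 (Subtype.ext h)
    obtain ⟨haH', haA⟩ := Subgroup.mem_inf.mp ha
    obtain ⟨y, hy, z, hz, hyz⟩ := Subgroup.mem_sup.mp haH'
    obtain ⟨i, rfl⟩ := Subgroup.mem_zpowers_iff.mp hz
    by_cases hdvd : (p : ℤ) ∣ i
    · obtain ⟨j, rfl⟩ := hdvd
      have h1 : x ^ ((p : ℤ) * j) ∈ H := by
        rw [zpow_mul, zpow_natCast]
        exact H.zpow_mem (hHp x) j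
      have h2 : a ∈ H ⊓ A₀ := Subgroup.mem_inf.mpr ⟨by rw [← hyz]; exact H.mul_mem hy h1, haA⟩
      rw [hHA, Subgroup.mem_bot] at h2
      exact ha1' h2
    · have hcop : IsCoprime (p : ℤ) i :=
        (Irreducible.coprime_iff_not_dvd (Nat.prime_iff_prime_int.mp hp).irreducible).mpr hdvd
      obtain ⟨r, s, hrs⟩ := hcop
      apply hx
      have h1 : x = (x ^ p) ^ r * (x ^ i) ^ s := by
        rw [← zpow_natCast x p, ← zpow_mul, ← zpow_mul, ← zpow_add]
        have h2 : (p : ℤ) * r + i * s = 1 := by linarith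
        rw [h2, zpow_one]
      have h3 : x ^ i ∈ H ⊔ A₀ := by
        have h4 : x ^ i = y⁻¹ * a := by rw [← hyz, inv_mul_cancel_left]
        rw [h4]
        exact Subgroup.mul_mem_sup (H.inv_mem hy) haA
      rw [h1]
      exact Subgroup.mul_mem _ (Subgroup.mem_sup_left (H.zpow_mem (hHp x) r))
        (Subgroup.zpow_mem _ h3 s)
  let f : H × A₀ →* A := (H.subtype).coprod (A₀.subtype)
  have hf : Function.Bijective f := by
    constructor
    · rw [injective_iff_map_eq_one]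
      rintro ⟨h, a⟩ hha
      have h1 : (h : A) * (a : A) = 1 := hha
      have h2 : (a : A) ∈ H ⊓ A₀ := by
        refine Subgroup.mem_inf.mpr ⟨?_, a.2⟩
        have h3 : (a : A) = (h : A)⁻¹ := eq_inv_of_mul_eq_one_right h1
        rw [h3]; exact H.inv_mem h.2
      rw [hHA, Subgroup.mem_bot] at h2
      have h3 : (h : A) = 1 := by rw [h2, mul_one] at h1; exact h1
      exact Prod.ext (Subtype.ext h3) (Subtype.ext h2)
    · intro s
      have hs : s ∈ H ⊔ A₀ := by rw [htop]; exact Subgroup.mem_top s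
      obtain ⟨h, hh, a, ha, rfl⟩ := Subgroup.mem_sup.mp hs
      exact ⟨(⟨h, hh⟩, ⟨a, ha⟩), rfl⟩
  let e := MulEquiv.ofBijective f hf
  refine ⟨A₀.subtype.comp ((MonoidHom.snd H A₀).comp e.symm.toMonoidHom), ?_, ?_⟩
  · intro s; exact (e.symm s).2.2
  · intro a ha
    have h1 : e ((1 : H), (⟨a, ha⟩ : A₀)) = a := by
      show ((1 : H) : A) * a = a
      rw [Subgroup.coe_one, one_mul]
    have h2 : e.symm a = ((1 : H), (⟨a, ha⟩ : A₀)) := (MulEquiv.symm_apply_eq e).mpr h1.symm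
    show ((e.symm a).2 : A) = a
    rw [h2]

/-- Maschke-type invariant complement, abstractly -/
theorem invCompl_abs {A : Type*} [CommGroup A] [Finite A] {V : Type*} [Group V] [Finite V]
    (p : ℕ) [Fact p.Prime] (A₀ : Subgroup A) (hA₀ : Nat.card A₀ = p)
    (hpow : ∀ y : A, y ^ p ∈ A₀ → y ^ p = 1) (hV : ¬ p ∣ Nat.card V)
    (c : V → A →* A) (hc1 : ∀ s, c 1 s = s) (hcmul : ∀ v u s, c (v * u) s = c v (c u s))
    (hcA : ∀ v, ∀ a ∈ A₀, c v a ∈ A₀) :
    ∃ D : Subgroup A, (∀ v, ∀ d ∈ D, c v d ∈ D) ∧ D ⊓ A₀ = ⊥ ∧ D ⊔ A₀ = ⊤ := by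
  classical
  have hp : p.Prime := Fact.out
  haveI : Fintype V := Fintype.ofFinite V
  obtain ⟨π, hπ1, hπ2⟩ := exists_proj p A₀ hA₀ hpow
  have hAp : ∀ a ∈ A₀, a ^ p = 1 := by
    intro a ha
    have h := pow_card_eq_one' (G := A₀) (x := ⟨a, ha⟩)
    rw [hA₀] at h
    exact congrArg Subtype.val h
  obtain ⟨m, hm⟩ : ∃ m : ℤ, ∀ a ∈ A₀, a ^ ((Nat.card V : ℤ) * m) = a := by
    have hcop : Nat.Coprime p (Nat.card V) := (Nat.Prime.coprime_iff_not_dvd hp).mpr hV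
    refine ⟨Int.gcdA (Nat.card V) p, fun a ha => ?_⟩
    have h1 : ((Nat.gcd (Nat.card V) p : ℕ) : ℤ)
        = (Nat.card V) * Int.gcdA (Nat.card V) p + p * Int.gcdB (Nat.card V) p :=
      Nat.gcd_eq_gcd_ab _ _
    have hcop' : Nat.gcd (Nat.card V) p = 1 := hcop.symm
    rw [hcop'] at h1
    have h2 : (Nat.card V : ℤ) * Int.gcdA (Nat.card V) p
        = 1 - (p : ℤ) * Int.gcdB (Nat.card V) p := by
      push_cast at h1; linarith
    rw [h2, zpow_sub, zpow_one, zpow_mul, zpow_natCast, hAp a ha, one_zpow, inv_one, mul_one]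
  have hcinv : ∀ v s, c v⁻¹ (c v s) = s := fun v s => by rw [← hcmul, inv_mul_cancel, hc1]
  let π' : A →* A :=
    { toFun := fun s => (∏ v : V, c v⁻¹ (π (c v s))) ^ m
      map_one' := by simp
      map_mul' := fun a b => by simp only [map_mul, Finset.prod_mul_distrib, mul_zpow] }
  have hπ'val : ∀ s, π' s = (∏ v : V, c v⁻¹ (π (c v s))) ^ m := fun s => rfl
  have hπ'A : ∀ s, π' s ∈ A₀ := by
    intro s
    rw [hπ'val]
    apply Subgroup.zpow_mem
    apply Subgroup.prod_mem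
    intro v _
    exact hcA _ _ (hπ1 _)
  have hπ'id : ∀ a ∈ A₀, π' a = a := by
    intro a ha
    rw [hπ'val]
    have h1 : ∀ v : V, c v⁻¹ (π (c v a)) = a := by
      intro v
      rw [hπ2 _ (hcA v a ha), hcinv]
    simp only [h1, Finset.prod_const, Finset.card_univ]
    rw [← zpow_natCast, ← zpow_mul, ← Nat.card_eq_fintype_card]
    exact hm a ha
  have hπ'c : ∀ u s, π' (c u s) = c u (π' s) := by
    intro u s
    rw [hπ'val, hπ'val, map_zpow, map_prod]
    congr 1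
    calc ∏ v : V, c v⁻¹ (π (c v (c u s)))
        = ∏ v : V, c (v * u⁻¹)⁻¹ (π (c (v * u⁻¹) (c u s))) :=
          (Equiv.prod_comp (Equiv.mulRight u⁻¹)
            (fun v : V => c v⁻¹ (π (c v (c u s))))).symm
      _ = ∏ v : V, c u (c v⁻¹ (π (c v s))) := by
          apply Finset.prod_congr rfl
          intro v _
          rw [← hcmul (v * u⁻¹) u s, inv_mul_cancel_right, mul_inv_rev, inv_inv, hcmul]
  refine ⟨π'.ker, ?_, ?_, ?_⟩
  · intro v d hd
    rw [MonoidHom.mem_ker] at hd ⊢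
    rw [hπ'c, hd, map_one]
  · rw [eq_bot_iff]
    intro x hx
    obtain ⟨h1, h2⟩ := Subgroup.mem_inf.mp hx
    rw [MonoidHom.mem_ker, hπ'id x h2] at h1
    rw [Subgroup.mem_bot]; exact h1
  · rw [eq_top_iff]
    intro s _
    have h1 : s * (π' s)⁻¹ ∈ π'.ker := by
      rw [MonoidHom.mem_ker, map_mul, map_inv, hπ'id _ (hπ'A s), mul_inv_cancel]
    have h2 : s = (s * (π' s)⁻¹) * π' s := by rw [inv_mul_cancel_right]
    rw [h2]
    exact Subgroup.mul_mem_sup h1 (hπ'A s)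

variable {G : Type u} [Group G]

theorem invCompl [Finite G] : StInvCompl G := by
  intro p _ P V A₀ hP hcomm hVP hpV hA₀P hA₀ hVA hpow
  classical
  letI cg : CommGroup P := { (inferInstance : Group P) with
    mul_comm := fun a b => Subtype.ext (hcomm a.1 a.2 b.1 b.2) }
  have hconjP : ∀ v ∈ V, ∀ s ∈ P, v * s * v⁻¹ ∈ P :=
    fun v hv s hs => (Subgroup.mem_normalizer_iff.mp (hVP hv) s).mp hs
  have hconjA : ∀ v ∈ V, ∀ s ∈ A₀, v * s * v⁻¹ ∈ A₀ :=
    fun v hv s hs => (Subgroup.mem_normalizer_iff.mp (hVA hv) s).mp hs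
  let c : V → P →* P := fun v =>
    { toFun := fun s => ⟨v.1 * s.1 * v.1⁻¹, hconjP v.1 v.2 s.1 s.2⟩
      map_one' := Subtype.ext (by simp)
      map_mul' := fun a b => Subtype.ext (by
        show v.1 * (a.1 * b.1) * v.1⁻¹ = (v.1 * a.1 * v.1⁻¹) * (v.1 * b.1 * v.1⁻¹)
        group) }
  let A₀' : Subgroup P := A₀.subgroupOf P
  have hA₀' : Nat.card A₀' = p := by
    rw [← hA₀]
    exact Nat.card_congr (Subgroup.subgroupOfEquivOfLe hA₀P).toEquiv
  have hpow' : ∀ y : P, y ^ p ∈ A₀' → y ^ p = 1 := by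
    intro y hy
    have h1 : ((y ^ p : P) : G) = (y : G) ^ p := Subgroup.coe_pow P y p
    have h2 : (y : G) ^ p ∈ A₀ := by rw [← h1]; exact Subgroup.mem_subgroupOf.mp hy
    apply Subtype.ext
    rw [h1]
    exact hpow y.1 y.2 h2
  have hc1 : ∀ s : P, c 1 s = s := by
    intro s
    apply Subtype.ext
    show (1 : G) * s.1 * (1 : G)⁻¹ = s.1
    simp
  have hcmul : ∀ (v u : V) (s : P), c (v * u) s = c v (c u s) := by
    intro v u s
    apply Subtype.ext
    show (v.1 * u.1) * s.1 * (v.1 * u.1)⁻¹ = v.1 * (u.1 * s.1 * u.1⁻¹) * v.1⁻¹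
    group
  have hcA : ∀ v : V, ∀ a ∈ A₀', c v a ∈ A₀' := by
    intro v a ha
    exact Subgroup.mem_subgroupOf.mpr (hconjA v.1 v.2 a.1 (Subgroup.mem_subgroupOf.mp ha))
  obtain ⟨D', hD'c, hD'A, hD'top⟩ := invCompl_abs p A₀' hA₀' hpow' hpV c hc1 hcmul hcA
  have hDle : D'.map P.subtype ≤ P := by
    rintro x ⟨d, hd, rfl⟩
    exact d.2
  refine ⟨D'.map P.subtype, hDle, ?_, ?_, ?_⟩
  · intro v hv
    apply Cfsg.Agent.H82.U4.mem_normalizer_of_conj_mem
    rintro x ⟨d, hd, rfl⟩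
    exact ⟨c ⟨v, hv⟩ d, hD'c ⟨v, hv⟩ d hd, rfl⟩
  · rw [eq_bot_iff]
    intro x hx
    obtain ⟨hxD, hxA⟩ := Subgroup.mem_inf.mp hx
    obtain ⟨d, hd, rfl⟩ := hxD
    have h1 : d ∈ D' ⊓ A₀' := Subgroup.mem_inf.mpr ⟨hd, Subgroup.mem_subgroupOf.mpr hxA⟩
    rw [hD'A, Subgroup.mem_bot] at h1
    rw [h1]
    exact Subgroup.mem_bot.mpr rfl
  · apply le_antisymm (sup_le hDle hA₀P)
    intro s hs
    have h1 : (⟨s, hs⟩ : P) ∈ D' ⊔ A₀' := by rw [hD'top]; exact Subgroup.mem_top _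
    obtain ⟨d, hd, a, ha, hda⟩ := Subgroup.mem_sup.mp h1
    have h2 : s = d.1 * a.1 := (congrArg Subtype.val hda).symm
    rw [h2]
    exact Subgroup.mul_mem_sup ⟨d, hd, rfl⟩ (Subgroup.mem_subgroupOf.mp ha)

example [Finite G] : StInvCompl G := invCompl

end Cfsg.Agent.H82.BG161
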