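import Cfsg.Agent.H38.BG161Defs

set_option autoImplicit false

namespace Cfsg.Agent.H82.BG161

open Cfsg Subgroup Cfsg.Agent.H38.BG161
open scoped Pointwise

universe u

variable {G : Type u} [Group G]

theorem powOrder [Finite G] : StPowOrder G := by
  intro p _ A hA hcard e q l hq heq hact hne
  have hp : p.Prime := Fact.out
  have hex : ∃ a ∈ A, a ^ l ≠ a := by
    by_contra hcon
    push Not at hcon
    apply hne
    rw [Subgroup.mem_centralizer_iff]
    intro a ha
    have h1 := hact a ha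
    rw [hcon a ha] at h1
    calc a * e = e * a * e⁻¹ * e := by rw [h1]
      _ = e * a := by group
  obtain ⟨a, ha, hal⟩ := hex
  have ha1 : a ≠ 1 := by
    rintro rfl
    exact hal (by simp)
  have hap : a ^ p = 1 := hA.2 a ha
  have hord : orderOf a = p := orderOf_eq_prime hap ha1
  have hiter : ∀ k : ℕ, e ^ k * a * (e ^ k)⁻¹ = a ^ (l ^ k) := by
    intro k
    induction k with
    | zero => simp
    | succ k ih =>
      calc e ^ (k + 1) * a * (e ^ (k + 1))⁻¹ = e * (e ^ k * a * (e ^ k)⁻¹) * e⁻¹ := by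
            rw [pow_succ', mul_inv_rev]; simp only [mul_assoc]
        _ = e * a ^ (l ^ k) * e⁻¹ := by rw [ih]
        _ = (e * a * e⁻¹) ^ (l ^ k) := conj_pow.symm
        _ = (a ^ l) ^ (l ^ k) := by rw [hact a ha]
        _ = a ^ (l ^ (k + 1)) := by rw [← pow_mul, pow_succ']
  have hq1 := hiter q
  rw [heq] at hq1
  simp only [one_mul, inv_one, mul_one] at hq1
  have hmod : l ^ q ≡ 1 [MOD p] := by
    have h2 : a ^ (l ^ q) = a ^ 1 := by rw [pow_one]; exact hq1.symm
    rw [pow_eq_pow_iff_modEq, hord] at h2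
    exact h2
  have hmod1 : ¬ l ≡ 1 [MOD p] := by
    intro h
    apply hal
    have h2 : a ^ l = a ^ 1 := by rw [pow_eq_pow_iff_modEq, hord]; exact h
    rw [h2, pow_one]
  have hz : ((l : ZMod p)) ^ q = 1 := by
    have h2 := (ZMod.natCast_eq_natCast_iff (l ^ q) 1 p).mpr hmod
    simpa using h2
  have hz1 : (l : ZMod p) ≠ 1 := by
    intro h
    apply hmod1
    have h2 : ((l : ℕ) : ZMod p) = ((1 : ℕ) : ZMod p) := by simpa using h
    exact (ZMod.natCast_eq_natCast_iff l 1 p).mp h2
  haveI : Fact q.Prime := ⟨hq⟩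
  have hoq : orderOf (l : ZMod p) = q := orderOf_eq_prime hz hz1
  have hl0 : (l : ZMod p) ≠ 0 := by
    intro h
    rw [h, zero_pow hq.ne_zero] at hz
    exact zero_ne_one hz
  have h3 := orderOf_dvd_of_pow_eq_one (ZMod.pow_card_sub_one_eq_one hl0)
  rwa [hoq] at h3

theorem finite_subgroup_type [Finite G] : Finite (Subgroup G) :=
  Finite.of_injective (fun H : Subgroup G => (H : Set G)) SetLike.coe_injective

/-- double counting over fibres of constant size -/
theorem card_eq_card_mul_of_fiber {α β : Type*} [Finite α] [Finite β] (S : Set α) (f : α → β)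
    (T : Set β) (hf : ∀ x ∈ S, f x ∈ T) (c : ℕ)
    (hc : ∀ b ∈ T, Nat.card {x | x ∈ S ∧ f x = b} = c) :
    Nat.card S = Nat.card T * c := by
  classical
  let E : S ≃ Σ b : T, {x : α // x ∈ S ∧ f x = b.1} :=
    { toFun := fun x => ⟨⟨f x.1, hf x.1 x.2⟩, ⟨x.1, x.2, rfl⟩⟩
      invFun := fun y => ⟨y.2.1, y.2.2.1⟩
      left_inv := fun x => rfl
      right_inv := by
        rintro ⟨⟨b, hb⟩, ⟨x, hx, hfx⟩⟩
        dsimp only at hfx
        subst hfx
        rfl }
  haveI : Fintype T := Fintype.ofFinite T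
  rw [Nat.card_congr E, Nat.card_sigma]
  rw [Finset.sum_congr rfl (fun b _ => hc b.1 b.2)]
  simp [Nat.card_eq_fintype_card]

theorem lineCount [Finite G] : StLineCount G := by
  intro p _ A hA hcard e q hq heN hk hno
  obtain ⟨k, hk⟩ := hk
  classical
  have hp : p.Prime := Fact.out
  haveI : Fact q.Prime := ⟨hq⟩
  haveI := finite_subgroup_type (G := G)
  let Ω : Set (Subgroup G) := {X | X ≤ A ∧ Nat.card X = p}
  have hcount : Nat.card {a : G | a ∈ A ∧ a ≠ 1} = Nat.card Ω * (p - 1) := by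
    apply card_eq_card_mul_of_fiber {a : G | a ∈ A ∧ a ≠ 1} (fun a => Subgroup.zpowers a) Ω
    · rintro a ⟨ha, ha1⟩
      refine ⟨by rw [Subgroup.zpowers_le]; exact ha, ?_⟩
      rw [Nat.card_zpowers, orderOf_eq_prime (hA.2 a ha) ha1]
    · rintro X ⟨hXA, hXp⟩
      have hset : {a : G | a ∈ {a : G | a ∈ A ∧ a ≠ 1} ∧ Subgroup.zpowers a = X}
          = (X : Set G) \ {1} := by
        ext a
        constructor
        · rintro ⟨⟨ha, ha1⟩, hz⟩
          refine ⟨?_, ha1⟩
          rw [← hz]; exact Subgroup.mem_zpowers a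
        · rintro ⟨haX, ha1⟩
          have ha1' : a ≠ 1 := ha1
          refine ⟨⟨hXA haX, ha1'⟩, ?_⟩
          apply Subgroup.eq_of_le_of_card_ge (by rw [Subgroup.zpowers_le]; exact haX)
          rw [Nat.card_zpowers, orderOf_eq_prime (hA.2 a (hXA haX)) ha1', hXp]
      rw [hset, Nat.card_coe_set_eq, Set.ncard_diff_singleton_of_mem (X.one_mem),
        ← Nat.card_coe_set_eq]
      show Nat.card X - 1 = p - 1
      rw [hXp]
  have hA1 : Nat.card {a : G | a ∈ A ∧ a ≠ 1} = p ^ 2 - 1 := by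
    have hset : {a : G | a ∈ A ∧ a ≠ 1} = (A : Set G) \ {1} := by
      ext a; simp
    rw [hset, Nat.card_coe_set_eq, Set.ncard_diff_singleton_of_mem (A.one_mem),
      ← Nat.card_coe_set_eq]
    show Nat.card A - 1 = p ^ 2 - 1
    rw [hcard]
  have hΩ : Nat.card Ω = p + 1 := by
    rw [hA1] at hcount
    have h1 : 1 ≤ p := hp.one_lt.le
    obtain ⟨r, rfl⟩ := Nat.exists_eq_add_of_le h1
    have h2 : (1 + r) ^ 2 - 1 = (1 + r + 1) * (1 + r - 1) := by
      have h3 : (1 + r) ^ 2 = (1 + r + 1) * r + 1 := by ring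
      rw [h3]; simp
    rw [h2] at hcount
    have hr : 0 < 1 + r - 1 := by have := hp.one_lt; omega
    exact (Nat.eq_of_mul_eq_mul_right hr hcount).symm
  have hconj : ∀ X : Subgroup G, X ∈ Ω → (MulAut.conj e • X) ∈ Ω := by
    rintro X ⟨hXA, hXp⟩
    refine ⟨?_, ?_⟩
    · intro y hy
      rw [Subgroup.mem_pointwise_smul_iff_inv_smul_mem] at hy
      have h2 := hXA hy
      have h3 := (Subgroup.mem_normalizer_iff.mp heN _).mp h2
      simpa [MulAut.smul_def, MulAut.conj_apply, mul_assoc] using h3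
    · rw [← hXp]
      exact Nat.card_congr (Subgroup.equivSMul (MulAut.conj e) X).toEquiv.symm
  haveI : Fintype Ω := Fintype.ofFinite Ω
  let f : Function.End Ω := fun X => ⟨MulAut.conj e • X.1, hconj X.1 X.2⟩
  have hfpow : ∀ j : ℕ, ∀ X : Ω, ((f ^ j) X).1 = (MulAut.conj e) ^ j • X.1 := by
    intro j
    induction j with
    | zero => intro X; rw [pow_zero, pow_zero, one_smul]; rfl
    | succ j ih =>
      intro X
      rw [pow_succ', pow_succ', mul_smul, ← ih X]
      rfl
  have hfq : f ^ q ^ k = 1 := by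
    funext X
    apply Subtype.ext
    rw [hfpow, ← map_pow, ← hk, pow_orderOf_eq_one, map_one, one_smul]
    rfl
  have hmod := Equiv.Perm.card_fixedPoints_modEq (p := q) (n := k) hfq
  have hfix : IsEmpty (Function.fixedPoints f) := by
    constructor
    rintro ⟨X, hX⟩
    have hX' : MulAut.conj e • X.1 = X.1 := congrArg Subtype.val hX
    apply hno X.1 X.2.1 X.2.2
    rw [Subgroup.mem_normalizer_iff]
    intro h
    have key : e * h * e⁻¹ ∈ X.1 ↔ e * h * e⁻¹ ∈ MulAut.conj e • X.1 := by rw [hX']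
    rw [key]
    have h2 : e * h * e⁻¹ = MulAut.conj e • h := by
      rw [MulAut.smul_def, MulAut.conj_apply]
    rw [h2, Subgroup.smul_mem_pointwise_smul_iff]
  rw [Fintype.card_eq_nat_card, Fintype.card_eq_nat_card] at hmod
  have h0 : Nat.card ↥(Function.fixedPoints f) = 0 := Nat.card_of_isEmpty
  rw [h0] at hmod
  have hdvd : q ∣ Nat.card Ω := (Nat.modEq_zero_iff_dvd).mp hmod
  rw [hΩ] at hdvd
  exact hdvd

example [Finite G] : StLineCount G := lineCount
example [Finite G] : StPowOrder G := powOrder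

end Cfsg.Agent.H82.BG161
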