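import Mathlib
import Cfsg.Prelude.Def_Characters
import Cfsg.Prelude.Def_Blocks

/-!
# S4504-LIB: exact statements of two group-theoretic sub-pieces (helper82)

* `StNC`: a Sylow `p`-subgroup `P` of order `p` with `N(P) = C(P)` is central as soon as the
  group has a faithful character of degree at most `(p - 1) / 2`.
* `StKer`: if moreover the group is the normal closure of `P`, every normal subgroup not
  containing `P` is central.
-/

set_option autoImplicit false

namespace Cfsg.Agent.H82.BrLib

open Cfsg

universe u

/-- `N(P) = C(P)` and a faithful character of degree `≤ (p-1)/2` force `P` central. -/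
def StNC : Prop :=
  ∀ {H : Type u} [Group H] [Finite H] (p : ℕ) [Fact p.Prime] (P : Sylow p H),
    Nat.card (P : Subgroup H) = p →
    (∀ h ∈ Subgroup.normalizer ((P : Subgroup H) : Set H),
      h ∈ Subgroup.centralizer ((P : Subgroup H) : Set H)) →
    ∀ χ : H → ℂ, IsCharacter H χ → (∀ g : H, χ g = χ 1 → g = 1) →
      2 * charDegree χ + 1 ≤ p → ∀ x ∈ (P : Subgroup H), ∀ h : H, x * h = h * x

/-- If `G` is the normal closure of `P`, a normal subgroup not containing `P` is central. -/
def StKer : Prop :=
  ∀ {G : Type u} [Group G] [Finite G] (p : ℕ) [Fact p.Prime] (P : Sylow p G),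
    Nat.card (P : Subgroup G) = p →
    (∀ K : Subgroup G, K.Normal → (P : Subgroup G) ≤ K → K = ⊤) →
    ∀ χ : G → ℂ, IsCharacter G χ → (∀ g : G, χ g = χ 1 → g = 1) →
      2 * charDegree χ + 1 ≤ p →
      ∀ M : Subgroup G, M.Normal → ¬ (P : Subgroup G) ≤ M → M ≤ Subgroup.center G

end Cfsg.Agent.H82.BrLib
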