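import Cfsg.Agent.H82.BrLibB
import Cfsg.Agent.H79.BrDefs

/-!
# S4504-LIB2 and S4504-LIB-KER (helper82)

* `cent_core`: a normal subgroup `M` not containing the Sylow `p`-subgroup `P` of order `p`
  centralizes `P`, when `G` has a faithful character of degree `≤ (p - 1) / 2`.
* `centP : Cfsg.Agent.H79.Br.StCentP` (normal `p'`-subgroups centralize `P`).
* `stKer : StKer` (if `G` is the normal closure of `P`, such an `M` is central).
-/

set_option autoImplicit false
set_option linter.style.haveILetI false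
set_option linter.unusedSectionVars false

namespace Cfsg.Agent.H82.BrLib

open Cfsg Cfsg.Agent.H4 Cfsg.Agent.H82

universe u

theorem cent_core {G : Type u} [Group G] [Finite G] (p : ℕ) [Fact p.Prime] (P : Sylow p G)
    (hP : Nat.card (P : Subgroup G) = p) (χ : G → ℂ) (hχ : IsCharacter G χ)
    (hfaith : ∀ g : G, χ g = χ 1 → g = 1) (hdeg : 2 * charDegree χ + 1 ≤ p)
    (M : Subgroup G) (hM : M.Normal) (hPM : ¬ (P : Subgroup G) ≤ M) :
    ∀ m ∈ M, ∀ x ∈ (P : Subgroup G), m * x = x * m := by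
  classical
  have hp : p.Prime := Fact.out
  have hinf : ∀ y ∈ (P : Subgroup G), y ∈ M → y = 1 := by
    intro y hy hyM
    by_contra hy1
    apply hPM
    intro v hv
    obtain ⟨i, rfl⟩ := Cfsg.Agent.H82.Md.sylp_gen_of_ne_one P hP hy hy1 v hv
    exact M.pow_mem hyM i
  have hcommP : ∀ x ∈ (P : Subgroup G), ∀ y ∈ (P : Subgroup G), x * y = y * x := by
    intro x hx y hy
    by_cases hx1 : x = 1
    · rw [hx1, one_mul, mul_one]
    · obtain ⟨i, rfl⟩ := Cfsg.Agent.H82.Md.sylp_gen_of_ne_one P hP hx hx1 y hy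
      exact ((Commute.refl x).pow_right i).eq
  obtain ⟨H, hH⟩ : ∃ H : Subgroup G, H = M ⊔ (P : Subgroup G) := ⟨_, rfl⟩
  have hle : (P : Subgroup G) ≤ H := by rw [hH]; exact le_sup_right
  have hMle : M ≤ H := by rw [hH]; exact le_sup_left
  let P₁ : Sylow p H := P.subtype hle
  have hcard₁ : Nat.card P₁ = Nat.card P :=
    Nat.card_congr (Subgroup.subgroupOfEquivOfLe hle).toEquiv
  have hP₁ : Nat.card (P₁ : Subgroup H) = p := by
    have h1 : Nat.card (P₁ : Subgroup H) = Nat.card P₁ := rfl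
    rw [h1, hcard₁]
    exact hP
  have hχ₁ : IsCharacter H (fun g : H => χ g) := isCharacter_restrict H hχ
  have hfaith₁ : ∀ g : H, (fun g : H => χ g) g = (fun g : H => χ g) 1 → g = 1 := by
    intro g hg
    apply Subtype.ext
    exact hfaith g hg
  have hdeg₁ : 2 * charDegree (fun g : H => χ g) + 1 ≤ p := hdeg
  have hmemP₁ : ∀ y : H, y ∈ (P₁ : Subgroup H) ↔ (y : G) ∈ (P : Subgroup G) := fun y => Iff.rfl
  have hNC : ∀ g ∈ Subgroup.normalizer ((P₁ : Subgroup H) : Set H),
      g ∈ Subgroup.centralizer ((P₁ : Subgroup H) : Set H) := by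
    intro g hg
    rw [Subgroup.mem_centralizer_iff]
    intro y hy
    have hyP : (y : G) ∈ (P : Subgroup G) := (hmemP₁ y).mp hy
    have hgmem : (g : G) ∈ ((M ⊔ (P : Subgroup G) : Subgroup G) : Set G) := by
      rw [← hH]
      exact g.2
    rw [Subgroup.normal_mul] at hgmem
    obtain ⟨m, hm, x, hx, hmx⟩ := Set.mem_mul.mp hgmem
    have hnorm : g * y * g⁻¹ ∈ (P₁ : Subgroup H) := (Subgroup.mem_normalizer_iff.mp hg y).mp hy
    have hnormG : (g : G) * (y : G) * (g : G)⁻¹ ∈ (P : Subgroup G) := (hmemP₁ _).mp hnorm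
    have hxy : x * (y : G) = (y : G) * x := hcommP x hx y hyP
    have hxyx : x * (y : G) * x⁻¹ = (y : G) := by rw [hxy, mul_inv_cancel_right]
    have hgy : (g : G) * (y : G) * (g : G)⁻¹ = m * (y : G) * m⁻¹ := by
      rw [← hmx]
      have e : m * x * (y : G) * (m * x)⁻¹ = m * (x * (y : G) * x⁻¹) * m⁻¹ := by group
      rw [e, hxyx]
    have hcP : m * (y : G) * m⁻¹ * (y : G)⁻¹ ∈ (P : Subgroup G) := by
      apply (P : Subgroup G).mul_mem _ ((P : Subgroup G).inv_mem hyP)
      rw [← hgy]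
      exact hnormG
    have hcM : m * (y : G) * m⁻¹ * (y : G)⁻¹ ∈ M := by
      have e : m * (y : G) * m⁻¹ * (y : G)⁻¹ = m * ((y : G) * m⁻¹ * (y : G)⁻¹) := by group
      rw [e]
      exact M.mul_mem hm (hM.conj_mem m⁻¹ (M.inv_mem hm) (y : G))
    have hc1 := hinf _ hcP hcM
    have hmy : m * (y : G) = (y : G) * m := by
      have h1 : m * (y : G) * m⁻¹ = (y : G) := mul_inv_eq_one.mp hc1
      exact mul_inv_eq_iff_eq_mul.mp h1
    apply Subtype.ext
    rw [Subgroup.coe_mul, Subgroup.coe_mul, ← hmx, ← mul_assoc, ← hmy, mul_assoc, mul_assoc, hxy]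
  have hcen := Cfsg.Agent.H82.BrLib.stNC p P₁ hP₁ hNC _ hχ₁ hfaith₁ hdeg₁
  intro m hm x hx
  have h1 := hcen ⟨x, hle hx⟩ ((hmemP₁ _).mpr hx) ⟨m, hMle hm⟩
  have h2 := congrArg Subtype.val h1
  exact h2.symm

/-- **S4504-LIB2**. -/
theorem centP : Cfsg.Agent.H79.Br.StCentP.{u} := by
  intro G _ _ p _ P hP χ hχ hfaith hdeg M hM hpM m hm x hx
  refine cent_core p P hP χ hχ hfaith hdeg M hM ?_ m hm x hx
  intro hle
  apply hpM
  have h1 := Subgroup.card_dvd_of_le hle
  rw [hP] at h1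
  exact h1

/-- **S4504-LIB-KER**. -/
theorem stKer : StKer.{u} := by
  intro G _ _ p _ P hP hcl χ hχ hfaith hdeg M hM hPM
  have hc := cent_core p P hP χ hχ hfaith hdeg M hM hPM
  have hK : (Subgroup.centralizer (M : Set G)).Normal := by
    constructor
    intro c hc' g
    rw [Subgroup.mem_centralizer_iff] at hc' ⊢
    intro m hm
    have hm' : g⁻¹ * m * g ∈ M := by
      have := hM.conj_mem m hm g⁻¹
      simpa using this
    have h1 := hc' (g⁻¹ * m * g) hm'
    calc m * (g * c * g⁻¹) = g * (g⁻¹ * m * g * c) * g⁻¹ := by group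
      _ = g * (c * (g⁻¹ * m * g)) * g⁻¹ := by rw [h1]
      _ = g * c * g⁻¹ * m := by group
  have hPK : (P : Subgroup G) ≤ Subgroup.centralizer (M : Set G) := by
    intro x hx
    rw [Subgroup.mem_centralizer_iff]
    intro m hm
    exact hc m hm x hx
  have htop := hcl _ hK hPK
  intro m hm
  rw [Subgroup.mem_center_iff]
  intro g
  have hg : g ∈ Subgroup.centralizer (M : Set G) := by
    rw [htop]
    exact Subgroup.mem_top g
  exact (Subgroup.mem_centralizer_iff.mp hg m hm).symm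

end Cfsg.Agent.H82.BrLib
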