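import Mathlib
import Cfsg.Agent.H1.Coprime

/-!
# Centralizers of the elements of a coset `Kx` (helper82)

`K ⊴ L`, `x ∈ L` of order prime to `|K|`, `C_K(x)` abelian.  Then for every `c ∈ K` the
centralizer in `K` of `c * x` is a `K`-conjugate of `C_K(x)`; in particular it has the same order.
-/

set_option autoImplicit false
set_option linter.style.haveILetI false
set_option linter.unusedSectionVars false

namespace Cfsg.Agent.H82

open Pointwise

theorem exists_conj_centralizer_coset {L : Type*} [Group L] [Finite L] (K : Subgroup L)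
    [hK : K.Normal] (x : L) (hcop : Nat.Coprime (orderOf x) (Nat.card K))
    (hab : ∀ a ∈ K ⊓ Subgroup.centralizer ({x} : Set L),
      ∀ b ∈ K ⊓ Subgroup.centralizer ({x} : Set L), a * b = b * a)
    (c : L) (hc : c ∈ K) :
    ∃ d ∈ K, ∀ h ∈ K, ((c * x) * h = h * (c * x) ↔
      d⁻¹ * h * d ∈ Subgroup.centralizer ({x} : Set L)) := by
  classical
  set m := orderOf x with hm
  set n := Nat.card K with hn
  have hdisj : ∀ j : ℤ, x ^ j ∈ K → x ^ j = 1 := by
    intro j hj
    have h1 : orderOf (x ^ j) ∣ m := by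
      apply orderOf_dvd_of_pow_eq_one
      rw [← zpow_natCast, ← zpow_mul, mul_comm, zpow_mul, zpow_natCast, pow_orderOf_eq_one,
        one_zpow]
    have h2 : orderOf (x ^ j) ∣ n := by
      have : orderOf (⟨x ^ j, hj⟩ : K) ∣ Nat.card K := orderOf_dvd_natCard _
      rwa [← Subgroup.orderOf_coe] at this
    have := Nat.dvd_gcd h1 h2
    rw [hcop.gcd_eq_one, Nat.dvd_one, orderOf_eq_one_iff] at this
    exact this
  obtain ⟨a, ha1, ha0⟩ : ∃ a : ℕ, a ≡ 1 [MOD m] ∧ a ≡ 0 [MOD n] :=
    ⟨(Nat.chineseRemainder hcop 1 0).1, (Nat.chineseRemainder hcop 1 0).2.1,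
      (Nat.chineseRemainder hcop 1 0).2.2⟩
  set y := c * x with hy
  set z := y ^ a with hz
  let π := QuotientGroup.mk' K
  have hπK : ∀ k ∈ K, π k = 1 := fun k hk => (QuotientGroup.eq_one_iff k).mpr hk
  have hπ1 : ∀ g : L, π g = 1 → g ∈ K := fun g hg => (QuotientGroup.eq_one_iff g).mp hg
  have hπy : π y = π x := by rw [hy, map_mul, hπK c hc, one_mul]
  have hxa : x ^ a = x := by
    have := (pow_eq_pow_iff_modEq (x := x) (n := a) (m := 1)).mpr ha1
    simpa using this
  have hπz : π z = π x := by rw [hz, map_pow, hπy, ← map_pow, hxa]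
  have hym : y ^ m ∈ K := by
    apply hπ1
    rw [map_pow, hπy, ← map_pow, hm, pow_orderOf_eq_one, map_one]
  have hzm : z ^ m = 1 := by
    obtain ⟨a', ha'⟩ : n ∣ a := (Nat.modEq_zero_iff_dvd).mp ha0
    have h1 : (⟨y ^ m, hym⟩ : K) ^ n = 1 := pow_card_eq_one'
    have h2 : (y ^ m) ^ n = 1 := by
      have := congrArg Subtype.val h1
      simpa using this
    calc z ^ m = (y ^ m) ^ a := by rw [hz, ← pow_mul, ← pow_mul, mul_comm]
      _ = ((y ^ m) ^ n) ^ a' := by rw [ha', pow_mul]
      _ = 1 := by rw [h2, one_pow]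
  have hordz : orderOf z = m := by
    apply Nat.dvd_antisymm (orderOf_dvd_of_pow_eq_one hzm)
    have h1 : π (x ^ orderOf z) = 1 := by
      rw [map_pow, ← hπz, ← map_pow, pow_orderOf_eq_one, map_one]
    have hxK : x ^ ((orderOf z : ℕ) : ℤ) ∈ K := by
      rw [zpow_natCast]
      exact hπ1 _ h1
    have h2 := hdisj _ hxK
    rw [zpow_natCast] at h2
    exact orderOf_dvd_of_pow_eq_one h2
  have hzK : z * x⁻¹ ∈ K := by
    apply hπ1
    rw [map_mul, map_inv, hπz, mul_inv_cancel]
  have hnorm : Subgroup.zpowers x ≤ Subgroup.normalizer (K : Set L) := by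
    rw [Subgroup.normalizer_eq_top]
    exact le_top
  obtain ⟨d, hd, hconj⟩ := Cfsg.Agent.H1.sz_conj_internal (Subgroup.zpowers x) K
    (Subgroup.zpowers z) hnorm (by rw [Nat.card_zpowers]; exact hcop)
    (Or.inl inferInstance)
    (by
      rw [Subgroup.zpowers_le]
      have : z = (z * x⁻¹) * x := by group
      rw [this]
      exact Subgroup.mul_mem _ (le_sup_right (a := Subgroup.zpowers x) hzK)
        (le_sup_left (b := K) (Subgroup.mem_zpowers x)))
    (by rw [Nat.card_zpowers, Nat.card_zpowers, hordz])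
  have hz_mem : z ∈ MulAut.conj d • Subgroup.zpowers x := by
    rw [hconj]
    exact Subgroup.mem_zpowers z
  rw [Subgroup.mem_smul_pointwise_iff_exists] at hz_mem
  obtain ⟨s, ⟨j, rfl⟩, hj⟩ := hz_mem
  have hj' : d * x ^ j * d⁻¹ = z := hj
  have hxj : x ^ j = x := by
    have h1 : π (x ^ j) = π x := by
      rw [← hπz, ← hj', map_mul, map_mul, map_inv, hπK d hd, one_mul, inv_one, mul_one]
    have h2 : x ^ (j - 1) ∈ K := by
      apply hπ1
      rw [zpow_sub_one, map_mul, map_inv, h1, mul_inv_cancel]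
    have h3 := hdisj (j - 1) h2
    rw [zpow_sub_one, mul_inv_eq_one] at h3
    exact h3
  have hzd : z = d * x * d⁻¹ := by rw [← hj', hxj]
  -- t = z⁻¹ y ∈ K commutes with z
  set t := z⁻¹ * y with ht
  have htK : t ∈ K := by
    apply hπ1
    rw [ht, map_mul, map_inv, hπz, hπy, inv_mul_cancel]
  have hyz : y * z = z * y := by
    rw [hz]
    exact ((Commute.refl y).pow_right a).eq
  have htz : t * z = z * t := by
    rw [ht, mul_assoc, hyz, ← mul_assoc, inv_mul_cancel, one_mul, ← mul_assoc, mul_inv_cancel,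
      one_mul]
  have hyt : y = z * t := by rw [ht, ← mul_assoc, mul_inv_cancel, one_mul]
  refine ⟨d, hd, ?_⟩
  intro h hh
  have hcent : ∀ g : L, (z * g = g * z ↔ d⁻¹ * g * d ∈ Subgroup.centralizer ({x} : Set L)) := by
    intro g
    rw [Subgroup.mem_centralizer_iff, hzd]
    constructor
    · intro hg u hu
      rw [Set.mem_singleton_iff] at hu
      subst hu
      have h1 := congrArg (fun v => d⁻¹ * v * d) hg
      calc u * (d⁻¹ * g * d) = d⁻¹ * (d * u * d⁻¹ * g) * d := by group
        _ = d⁻¹ * (g * (d * u * d⁻¹)) * d := h1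
        _ = d⁻¹ * g * d * u := by group
    · intro hg
      have h1 := hg x (Set.mem_singleton x)
      calc d * x * d⁻¹ * g = d * (x * (d⁻¹ * g * d)) * d⁻¹ := by group
        _ = d * ((d⁻¹ * g * d) * x) * d⁻¹ := by rw [h1]
        _ = g * (d * x * d⁻¹) := by group
  constructor
  · intro hyh
    apply (hcent h).mp
    have : Commute y h := hyh
    exact (this.pow_left a).eq
  · intro hh'
    have hzh : z * h = h * z := (hcent h).mpr hh'
    have hh'K : d⁻¹ * h * d ∈ K := by
      have := hK.conj_mem h hh d⁻¹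
      simpa using this
    have ht'K : d⁻¹ * t * d ∈ K := by
      have := hK.conj_mem t htK d⁻¹
      simpa using this
    have ht' : d⁻¹ * t * d ∈ Subgroup.centralizer ({x} : Set L) := (hcent t).mp htz.symm
    have hcomm := hab (d⁻¹ * h * d) ⟨hh'K, hh'⟩ (d⁻¹ * t * d) ⟨ht'K, ht'⟩
    have hht : h * t = t * h := by
      have h1 := congrArg (fun v => d * v * d⁻¹) hcomm
      calc h * t = d * (d⁻¹ * h * d * (d⁻¹ * t * d)) * d⁻¹ := by group
        _ = d * (d⁻¹ * t * d * (d⁻¹ * h * d)) * d⁻¹ := h1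
        _ = t * h := by group
    rw [hyt, mul_assoc, ← hht, ← mul_assoc, hzh, mul_assoc]

/-- The number of elements of `K` commuting with `c * x` is `|C_K(x)|`. -/
theorem card_centralizer_coset {L : Type*} [Group L] [Finite L] (K : Subgroup L)
    [hK : K.Normal] (x : L) (hcop : Nat.Coprime (orderOf x) (Nat.card K))
    (hab : ∀ a ∈ K ⊓ Subgroup.centralizer ({x} : Set L),
      ∀ b ∈ K ⊓ Subgroup.centralizer ({x} : Set L), a * b = b * a)
    (c : K) :
    Nat.card {h : K // c * (⟨x * h * x⁻¹, hK.conj_mem (h : L) h.2 x⟩ : K) * c⁻¹ = h} =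
      Nat.card ↥(K ⊓ Subgroup.centralizer ({x} : Set L)) := by
  obtain ⟨d, hd, hiff⟩ := exists_conj_centralizer_coset K x hcop hab (c : L) c.2
  have hP : ∀ h : K, (c * (⟨x * h * x⁻¹, hK.conj_mem (h : L) h.2 x⟩ : K) * c⁻¹ = h) ↔
      d⁻¹ * (h : L) * d ∈ Subgroup.centralizer ({x} : Set L) := by
    intro h
    rw [← hiff (h : L) h.2]
    constructor
    · intro h1
      have h2 := congrArg Subtype.val h1
      simp only [Subgroup.coe_mul, Subgroup.coe_inv] at h2
      calc (c : L) * x * h = ((c : L) * (x * h * x⁻¹) * (c : L)⁻¹) * ((c : L) * x) := by group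
        _ = h * ((c : L) * x) := by rw [h2]
    · intro h1
      apply Subtype.ext
      simp only [Subgroup.coe_mul, Subgroup.coe_inv]
      calc (c : L) * (x * h * x⁻¹) * (c : L)⁻¹ = ((c : L) * x * h) * ((c : L) * x)⁻¹ := by group
        _ = (h * ((c : L) * x)) * ((c : L) * x)⁻¹ := by rw [h1]
        _ = h := by group
  apply Nat.card_congr
  refine
    { toFun := fun h => ⟨d⁻¹ * (h.1 : L) * d, ?_, (hP h.1).mp h.2⟩
      invFun := fun w => ⟨⟨d * (w : L) * d⁻¹, hK.conj_mem _ w.2.1 d⟩, ?_⟩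
      left_inv := ?_
      right_inv := ?_ }
  · have := hK.conj_mem (h.1 : L) h.1.2 d⁻¹
    simpa using this
  · rw [hP]
    have : d⁻¹ * (d * (w : L) * d⁻¹) * d = w := by group
    show d⁻¹ * (d * (w : L) * d⁻¹) * d ∈ _
    rw [this]
    exact w.2.2
  · intro h
    apply Subtype.ext
    apply Subtype.ext
    show d * (d⁻¹ * (h.1 : L) * d) * d⁻¹ = h.1
    group
  · intro w
    apply Subtype.ext
    show d⁻¹ * (d * (w : L) * d⁻¹) * d = w
    group

end Cfsg.Agent.H82
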