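import Cfsg.Agent.H98.GuDefs
import Cfsg.Agent.H45.IsoSp
import Cfsg.Agent.H45.SpInvol
import Cfsg.Agent.H42.ElusSpA

set_option autoImplicit false

/-!
Piece S5976-INVPOS of the team project S5976 (helper98): a symplectic involution commutes with a
skew root of `δ`.
-/

namespace Cfsg.Agent.H82.Gu

open Matrix Polynomial Cfsg.Agent.H98.Gu

universe u

section

variable {F : Type u} [Field F]

theorem J0_mul_J0 (n : ℕ) (δ : F) :
    J0 n δ * J0 n δ = δ • (1 : Matrix (Fin n ⊕ Fin n) (Fin n ⊕ Fin n) F) := by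
  unfold J0
  rw [Matrix.fromBlocks_multiply, ← Matrix.fromBlocks_one, Matrix.fromBlocks_smul]
  simp

theorem skew_of_transpose (d : ℕ) (M : Matrix (Fin d ⊕ Fin d) (Fin d ⊕ Fin d) F)
    (h : Mᵀ * Matrix.J (Fin d) F = -(Matrix.J (Fin d) F * M)) (u v : Fin d ⊕ Fin d → F) :
    Cfsg.sympForm d F (M *ᵥ u) v = - Cfsg.sympForm d F u (M *ᵥ v) := by
  unfold Cfsg.sympForm
  have h1 : (M *ᵥ u) ⬝ᵥ (Matrix.J (Fin d) F *ᵥ v) = u ⬝ᵥ ((Mᵀ * Matrix.J (Fin d) F) *ᵥ v) := by
    rw [← Matrix.mulVec_mulVec, Matrix.dotProduct_mulVec u Mᵀ, Matrix.vecMul_transpose]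
  rw [h1, h, Matrix.neg_mulVec, dotProduct_neg, Matrix.mulVec_mulVec]

theorem J0_skew (d : ℕ) (δ : F) (u v : Fin d ⊕ Fin d → F) :
    Cfsg.sympForm d F (J0 d δ *ᵥ u) v = - Cfsg.sympForm d F u (J0 d δ *ᵥ v) := by
  apply skew_of_transpose
  unfold J0 Matrix.J
  rw [Matrix.fromBlocks_transpose, Matrix.fromBlocks_multiply, Matrix.fromBlocks_multiply,
    Matrix.fromBlocks_neg]
  simp

/-- The signs of the model involution. -/
def eps (d a : ℕ) : Fin d → F := fun i => if (i : ℕ) < a then 1 else -1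

theorem eps_mul_self (d a : ℕ) (i : Fin d) : (eps d a i : F) * eps d a i = 1 := by
  unfold eps
  split_ifs <;> simp

/-- The model involution. -/
def invModel (d a : ℕ) : Matrix (Fin d ⊕ Fin d) (Fin d ⊕ Fin d) F :=
  Matrix.fromBlocks (Matrix.diagonal (eps d a)) 0 0 (Matrix.diagonal (eps d a))

theorem diag_eps_sq (d a : ℕ) :
    Matrix.diagonal (eps d a : Fin d → F) * Matrix.diagonal (eps d a) = 1 := by
  rw [Matrix.diagonal_mul_diagonal, ← Matrix.diagonal_one]
  congr 1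
  funext i
  exact eps_mul_self d a i

theorem invModel_mul_self (d a : ℕ) : (invModel d a : Matrix _ _ F) * invModel d a = 1 := by
  unfold invModel
  rw [Matrix.fromBlocks_multiply, ← Matrix.fromBlocks_one]
  simp only [Matrix.zero_mul, Matrix.mul_zero, add_zero, zero_add, diag_eps_sq]

theorem invModel_mem (d a : ℕ) :
    (invModel d a : Matrix _ _ F) ∈ Matrix.symplecticGroup (Fin d) F := by
  rw [SymplecticGroup.mem_iff]
  unfold invModel Matrix.J
  rw [Matrix.fromBlocks_transpose, Matrix.fromBlocks_multiply, Matrix.fromBlocks_multiply]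
  simp only [Matrix.diagonal_transpose, Matrix.transpose_zero, Matrix.zero_mul, Matrix.mul_zero,
    add_zero, zero_add, Matrix.mul_neg, Matrix.mul_one, Matrix.neg_mul, diag_eps_sq, neg_zero]

theorem invModel_comm (d a : ℕ) (δ : F) :
    (invModel d a : Matrix _ _ F) * J0 d δ = J0 d δ * invModel d a := by
  unfold invModel J0
  rw [Matrix.fromBlocks_multiply, Matrix.fromBlocks_multiply]
  simp

theorem prod_eps (d a : ℕ) (ha : a ≤ d) :
    ∏ i : Fin d, ((X : F[X]) - C (eps d a i)) = (X - C 1) ^ a * (X - C (-1)) ^ (d - a) := by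
  have h1 : ∏ i : Fin d, ((X : F[X]) - C (eps d a i)) =
      ∏ i ∈ Finset.range d, (if i < a then ((X : F[X]) - C (1 : F)) else (X - C (-1 : F))) := by
    rw [← Fin.prod_univ_eq_prod_range
      (fun i => if i < a then ((X : F[X]) - C (1 : F)) else (X - C (-1 : F))) d]
    apply Finset.prod_congr rfl
    intro i _
    unfold eps
    split_ifs <;> rfl
  rw [h1, ← Finset.prod_range_mul_prod_Ico _ ha]
  congr 1
  · rw [Finset.prod_congr rfl (fun i hi => if_pos (Finset.mem_range.mp hi)), Finset.prod_const,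
      Finset.card_range]
  · rw [Finset.prod_congr rfl (fun i hi => if_neg (not_lt.mpr (Finset.mem_Ico.mp hi).1)),
      Finset.prod_const, Nat.card_Ico]

theorem invModel_charpoly (d a : ℕ) (ha : a ≤ d) :
    (invModel d a : Matrix _ _ F).charpoly =
      (X - C 1) ^ (a + a) * (X - C (-1)) ^ (2 * d - (a + a)) := by
  unfold invModel
  rw [Matrix.charpoly_fromBlocks_zero₁₂, Matrix.charpoly_diagonal, prod_eps d a ha]
  have h1 : 2 * d - (a + a) = (d - a) + (d - a) := by omega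
  rw [h1, pow_add, pow_add]
  ring

end

theorem invPos : StInvPos.{u} := by
  intro F _ _ d δ hodd hδ x hx hxx
  classical
  obtain ⟨p, hchar⟩ := CharP.exists F
  haveI := hchar
  haveI : Fact p.Prime := ⟨CharP.char_is_prime F p⟩
  have hp2 : p ≠ 2 := by
    intro h
    subst h
    have h1 : ringChar F = 2 := ringChar.eq F 2
    have h2 := FiniteField.even_card_iff_char_two.mp h1
    rcases hodd with ⟨k, hk⟩
    omega
  have hp2' : ¬ p ∣ 2 := fun h =>
    hp2 ((Nat.prime_dvd_prime_iff_eq Fact.out Nat.prime_two).mp h)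
  have h2 : (2 : F) ≠ 0 := by
    intro h
    have h1 : ((2 : ℕ) : F) = 0 := by exact_mod_cast h
    exact hp2' ((CharP.cast_eq_zero_iff F p 2).mp h1)
  have hAs : (x : Matrix (Fin d ⊕ Fin d) (Fin d ⊕ Fin d) F) ∈ Matrix.symplecticGroup (Fin d) F :=
    (Cfsg.Agent.H17.mem_symplecticGroup_iff_form d _).2 ((Cfsg.Agent.H42.mem_spGL_iff' x).1 hx)
  generalize (x : Matrix (Fin d ⊕ Fin d) (Fin d ⊕ Fin d) F) = A at hxx hAs ⊢
  obtain ⟨hcp, hsum, heven⟩ := Cfsg.Agent.H45.sp_invol_charpoly h2 d A hAs hxx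
  obtain ⟨a, ha⟩ := heven
  rw [ha] at hcp hsum
  have had : a ≤ d := by omega
  have hc : A.charpoly = (invModel d a : Matrix _ _ F).charpoly := by
    rw [invModel_charpoly d a had]
    exact hcp
  obtain ⟨P, hP, hPA⟩ := Cfsg.Agent.H45.sp_conj p A (invModel d a) hAs (invModel_mem d a) 2 2 hp2'
    (by rw [sq]; exact hxx) hp2' (by rw [sq]; exact invModel_mul_self d a) hc
  have hdet := SymplecticGroup.symplectic_det hP
  have hPQ : P * P⁻¹ = 1 := Matrix.mul_nonsing_inv P hdet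
  have hQP : P⁻¹ * P = 1 := Matrix.nonsing_inv_mul P hdet
  have hPf := (Cfsg.Agent.H17.mem_symplecticGroup_iff_form d P).1 hP
  have hPJ : ∀ w : Fin d ⊕ Fin d → F, P *ᵥ ((P⁻¹ * J0 d δ * P) *ᵥ w) = J0 d δ *ᵥ (P *ᵥ w) := by
    intro w
    rw [Matrix.mulVec_mulVec, ← Matrix.mul_assoc, ← Matrix.mul_assoc, hPQ, Matrix.one_mul,
      ← Matrix.mulVec_mulVec]
  refine ⟨P⁻¹ * J0 d δ * P, ⟨?_, ?_⟩, ?_⟩
  · calc P⁻¹ * J0 d δ * P * (P⁻¹ * J0 d δ * P)
        = P⁻¹ * J0 d δ * (P * P⁻¹) * J0 d δ * P := by simp only [Matrix.mul_assoc]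
      _ = P⁻¹ * (J0 d δ * J0 d δ) * P := by rw [hPQ, Matrix.mul_one, Matrix.mul_assoc P⁻¹]
      _ = δ • 1 := by rw [J0_mul_J0, Matrix.mul_smul, Matrix.mul_one, Matrix.smul_mul, hQP]
  · intro u v
    rw [← hPf ((P⁻¹ * J0 d δ * P) *ᵥ u) v, hPJ, J0_skew, ← hPJ, hPf]
  · have hAQ : A * P⁻¹ = P⁻¹ * invModel d a := by
      calc A * P⁻¹ = P⁻¹ * (P * A) * P⁻¹ := by rw [← Matrix.mul_assoc, hQP, Matrix.one_mul]
        _ = P⁻¹ * (invModel d a * P) * P⁻¹ := by rw [hPA]
        _ = P⁻¹ * invModel d a := by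
          rw [Matrix.mul_assoc, Matrix.mul_assoc, hPQ, Matrix.mul_one]
    calc A * (P⁻¹ * J0 d δ * P) = (A * P⁻¹) * J0 d δ * P := by simp only [Matrix.mul_assoc]
      _ = P⁻¹ * (invModel d a * J0 d δ) * P := by
        rw [hAQ]
        simp only [Matrix.mul_assoc]
      _ = P⁻¹ * (J0 d δ * invModel d a) * P := by rw [invModel_comm]
      _ = P⁻¹ * J0 d δ * (invModel d a * P) := by simp only [Matrix.mul_assoc]
      _ = P⁻¹ * J0 d δ * P * A := by
        rw [← hPA]
        simp only [Matrix.mul_assoc]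

end Cfsg.Agent.H82.Gu
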