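import Cfsg.Agent.H98.GuDefs
import Cfsg.Agent.H17.Symp

set_option autoImplicit false

/-!
Piece S5976-KSTR of the team project S5976 (helper98): the structure of a quadratic field
subalgebra closed under adjoints but not self-adjoint: `K = F + F J` with `J` a skew root of a
non-square.  (The generation lemmas follow helper99's `ExtField` / `ExtCases`, for a general
index type.)
-/

namespace Cfsg.Agent.H82.Gu

open Matrix Module Cfsg.Agent.H98.Gu

universe u

section

variable {F : Type*} [Field F] {ι : Type} [Fintype ι] [DecidableEq ι]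

theorem fsub_smul_mem (K : Subalgebra F (Matrix ι ι F)) (c : F) :
    c • (1 : Matrix ι ι F) ∈ K := by
  have := K.algebraMap_mem c
  rwa [Algebra.algebraMap_eq_smul_one] at this

/-- A field subalgebra of degree 2 is spanned by `1` and any non-scalar element. -/
theorem fsub_gen (K : Subalgebra F (Matrix ι ι F)) (hK : Cfsg.Geo.IsFieldSubalgebra 2 K) :
    ∃ κ ∈ K, (∀ c : F, κ ≠ c • (1 : Matrix ι ι F)) ∧
      ∀ y ∈ K, ∃ α β : F, y = α • (1 : Matrix ι ι F) + β • κ := by
  have hfr := hK.finrank_eq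
  have hfd : FiniteDimensional F K := Module.finite_of_finrank_pos (by rw [hfr]; norm_num)
  have hnt : Nontrivial K := Module.nontrivial_of_finrank_pos (R := F) (by rw [hfr]; norm_num)
  have h1 : (1 : K) ≠ 0 := one_ne_zero
  obtain ⟨κ', hκ'⟩ : ∃ κ' : K, κ' ∉ Submodule.span F {(1 : K)} := by
    by_contra hcon
    push Not at hcon
    have htop : Submodule.span F {(1 : K)} = ⊤ := eq_top_iff.mpr (fun x _ => hcon x)
    have h2 := finrank_span_singleton (K := F) h1
    rw [htop, finrank_top, hfr] at h2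
    omega
  have hli : LinearIndependent F ![(1 : K), κ'] := by
    rw [LinearIndependent.pair_iff' h1]
    intro a ha
    apply hκ'
    rw [Submodule.mem_span_singleton]
    exact ⟨a, ha⟩
  obtain ⟨b, hb⟩ : ∃ b : Basis (Fin 2) F K, ⇑b = ![(1 : K), κ'] :=
    ⟨basisOfLinearIndependentOfCardEqFinrank hli (by rw [hfr]; rfl),
      coe_basisOfLinearIndependentOfCardEqFinrank _ _⟩
  refine ⟨(κ' : Matrix ι ι F), κ'.2, ?_, ?_⟩
  · intro c hc
    apply hκ'
    rw [Submodule.mem_span_singleton]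
    refine ⟨c, ?_⟩
    apply Subtype.ext
    rw [hc]
    simp
  · intro y hy
    have h3 := b.sum_repr ⟨y, hy⟩
    rw [Fin.sum_univ_two, hb] at h3
    refine ⟨b.repr ⟨y, hy⟩ 0, b.repr ⟨y, hy⟩ 1, ?_⟩
    have h4 := congrArg (Subtype.val) h3
    simp at h4
    exact h4.symm

/-- In odd characteristic, a field subalgebra of degree 2 is generated by an element whose square
is a non-square scalar. -/
theorem fsub_odd_gen (h2 : (2 : F) ≠ 0) (K : Subalgebra F (Matrix ι ι F))
    (hK : Cfsg.Geo.IsFieldSubalgebra 2 K) :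
    ∃ κ₀ ∈ K, ∃ ω : F, κ₀ * κ₀ = ω • (1 : Matrix ι ι F) ∧ (∀ s : F, s * s ≠ ω) ∧
      ∀ y ∈ K, ∃ a b : F, y = a • (1 : Matrix ι ι F) + b • κ₀ := by
  obtain ⟨κ, hκ, hns, hgen⟩ := fsub_gen K hK
  obtain ⟨α, β, hαβ⟩ := hgen (κ * κ) (K.mul_mem hκ hκ)
  obtain ⟨h, hh⟩ : ∃ h : F, h + h = β := ⟨β / 2, by rw [← two_mul, mul_div_cancel₀ _ h2]⟩
  subst hh
  have hκ₀ : κ - h • (1 : Matrix ι ι F) ∈ K := K.sub_mem hκ (fsub_smul_mem K _)
  have hsq : (κ - h • (1 : Matrix ι ι F)) * (κ - h • 1) = (α + h * h) • 1 := by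
    rw [Matrix.sub_mul, Matrix.mul_sub, Matrix.mul_sub, hαβ, Matrix.smul_mul, Matrix.mul_smul,
      Matrix.one_mul, Matrix.mul_one, Matrix.smul_mul, Matrix.one_mul, smul_smul]
    module
  refine ⟨κ - h • 1, hκ₀, α + h * h, hsq, ?_, ?_⟩
  · intro s hs
    have hprod : (κ - h • (1 : Matrix ι ι F) - s • 1) * (κ - h • 1 + s • 1) = 0 := by
      rw [Matrix.sub_mul, Matrix.mul_add, Matrix.mul_add, hsq, Matrix.smul_mul, Matrix.mul_smul,
        Matrix.one_mul, Matrix.mul_one, Matrix.smul_mul, Matrix.one_mul, smul_smul, ← hs]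
      module
    by_cases h0 : κ - h • (1 : Matrix ι ι F) - s • 1 = 0
    · apply hns (h + s)
      rw [add_smul]
      rw [sub_eq_zero] at h0
      rw [← h0]
      abel
    · have hm : κ - h • (1 : Matrix ι ι F) - s • 1 ∈ K :=
        K.sub_mem hκ₀ (fsub_smul_mem K _)
      obtain ⟨y, hyK, hy⟩ := hK.inv _ hm h0
      have hy' : y * (κ - h • (1 : Matrix ι ι F) - s • 1) = 1 := by
        rw [hK.comm y hyK _ hm]; exact hy
      have h3 : κ - h • (1 : Matrix ι ι F) + s • 1 = 0 := by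
        have := congrArg (fun A => y * A) hprod
        simp only [← Matrix.mul_assoc, hy', Matrix.one_mul, Matrix.mul_zero] at this
        exact this
      apply hns (h - s)
      rw [sub_smul]
      have h4 : κ = h • (1 : Matrix ι ι F) - s • 1 := by
        rw [← sub_eq_zero, ← h3]
        abel
      exact h4
  · intro y hy
    obtain ⟨a, b, rfl⟩ := hgen y hy
    exact ⟨a + b * h, b, by module⟩

end

section

variable {F : Type u} [Field F]

theorem symp_ext (d : ℕ) (M M' : Matrix (Fin d ⊕ Fin d) (Fin d ⊕ Fin d) F)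
    (h : ∀ u v, Cfsg.sympForm d F u (M *ᵥ v) = Cfsg.sympForm d F u (M' *ᵥ v)) : M = M' := by
  have h1 : Matrix.J (Fin d) F * M = Matrix.J (Fin d) F * M' := by
    apply Cfsg.Agent.H17.matrix_ext_form
    intro u v
    have h2 := h u v
    unfold Cfsg.sympForm at h2
    rw [Matrix.mulVec_mulVec, Matrix.mulVec_mulVec] at h2
    exact h2
  have h3 : Matrix.J (Fin d) F * (Matrix.J (Fin d) F * M) =
      Matrix.J (Fin d) F * (Matrix.J (Fin d) F * M') := by rw [h1]
  rw [← Matrix.mul_assoc, ← Matrix.mul_assoc, Matrix.J_squared, Matrix.neg_mul, Matrix.neg_mul,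
    Matrix.one_mul, Matrix.one_mul] at h3
  exact neg_injective h3

theorem symp_add_smul_left (d : ℕ) (a b : F) (u w v : Fin d ⊕ Fin d → F) :
    Cfsg.sympForm d F (a • u + b • w) v =
      a * Cfsg.sympForm d F u v + b * Cfsg.sympForm d F w v := by
  unfold Cfsg.sympForm
  rw [add_dotProduct, smul_dotProduct, smul_dotProduct, smul_eq_mul, smul_eq_mul]

theorem symp_add_smul_right (d : ℕ) (a b : F) (u v w : Fin d ⊕ Fin d → F) :
    Cfsg.sympForm d F u (a • v + b • w) =
      a * Cfsg.sympForm d F u v + b * Cfsg.sympForm d F u w := by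
  unfold Cfsg.sympForm
  rw [Matrix.mulVec_add, Matrix.mulVec_smul, Matrix.mulVec_smul, dotProduct_add,
    dotProduct_smul, dotProduct_smul, smul_eq_mul, smul_eq_mul]

theorem comb_mulVec (d : ℕ) (a b : F) (κ : Matrix (Fin d ⊕ Fin d) (Fin d ⊕ Fin d) F)
    (u : Fin d ⊕ Fin d → F) :
    (a • (1 : Matrix (Fin d ⊕ Fin d) (Fin d ⊕ Fin d) F) + b • κ) *ᵥ u = a • u + b • (κ *ᵥ u) := by
  rw [Matrix.add_mulVec, Matrix.smul_mulVec, Matrix.smul_mulVec, Matrix.one_mulVec]

end

theorem kstr : StKstr.{u} := by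
  intro F _ _ d K hodd hK hadj hnsa
  classical
  have h2 : (2 : F) ≠ 0 := by
    intro h
    have h1 : ringChar F = 2 := by
      have h3 : ((2 : ℕ) : F) = 0 := by exact_mod_cast h
      have h4 := (ringChar.spec F 2).mp h3
      have hp := CharP.char_is_prime F (ringChar F)
      exact (Nat.prime_dvd_prime_iff_eq hp Nat.prime_two).mp h4
    have h5 := FiniteField.even_card_iff_char_two.mp h1
    rcases hodd with ⟨k, hk⟩
    omega
  obtain ⟨κ, hκ, ω, hκκ, hω, hgen⟩ := fsub_odd_gen h2 K hK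
  have hnt : Nontrivial K :=
    Module.nontrivial_of_finrank_pos (R := F) (by rw [hK.finrank_eq]; norm_num)
  have h10 : (1 : Matrix (Fin d ⊕ Fin d) (Fin d ⊕ Fin d) F) ≠ 0 := by
    intro h
    obtain ⟨x, y, hxy⟩ := hnt
    apply hxy
    apply Subtype.ext
    rw [← Matrix.mul_one x.1, ← Matrix.mul_one y.1, h, Matrix.mul_zero, Matrix.mul_zero]
  have hsmul0 : ∀ c : F, c • (1 : Matrix (Fin d ⊕ Fin d) (Fin d ⊕ Fin d) F) = 0 → c = 0 := by
    intro c hc
    by_contra hc0
    apply h10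
    have h1 := congrArg (fun A => c⁻¹ • A) hc
    simpa [smul_smul, inv_mul_cancel₀ hc0] using h1
  have hω0 : ω ≠ 0 := by
    intro h
    exact hω 0 (by rw [h, mul_zero])
  have hns : ∀ c : F, κ ≠ c • (1 : Matrix (Fin d ⊕ Fin d) (Fin d ⊕ Fin d) F) := by
    intro c hc
    apply hω c
    have h1 : (c * c - ω) • (1 : Matrix (Fin d ⊕ Fin d) (Fin d ⊕ Fin d) F) = 0 := by
      rw [sub_smul, ← hκκ, hc, Matrix.smul_mul, Matrix.mul_smul, Matrix.one_mul, smul_smul,
        sub_self]
    exact sub_eq_zero.mp (hsmul0 _ h1)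
  have hindep : ∀ c₁ c₂ : F,
      c₁ • (1 : Matrix (Fin d ⊕ Fin d) (Fin d ⊕ Fin d) F) + c₂ • κ = 0 → c₁ = 0 ∧ c₂ = 0 := by
    intro c₁ c₂ h
    have hc2 : c₂ = 0 := by
      by_contra hc
      apply hns (-c₁ / c₂)
      have h1 : c₂ • κ = (-c₁) • (1 : Matrix (Fin d ⊕ Fin d) (Fin d ⊕ Fin d) F) := by
        rw [neg_smul]
        exact eq_neg_of_add_eq_zero_right h
      have h3 := congrArg (fun A => c₂⁻¹ • A) h1
      simp only [smul_smul, inv_mul_cancel₀ hc, one_smul] at h3
      rw [h3]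
      congr 1
      field_simp
    refine ⟨?_, hc2⟩
    rw [hc2, zero_smul, add_zero] at h
    exact hsmul0 _ h
  obtain ⟨κ', hκ', hadj'⟩ := hadj κ hκ
  obtain ⟨a, b, hab⟩ := hgen κ' hκ'
  -- `κ' * κ' = ω`
  have hsq' : κ' * κ' = ω • (1 : Matrix (Fin d ⊕ Fin d) (Fin d ⊕ Fin d) F) := by
    apply symp_ext
    intro u v
    rw [← Matrix.mulVec_mulVec, ← hadj', ← hadj', Matrix.mulVec_mulVec, hκκ, Matrix.smul_mulVec,
      Matrix.smul_mulVec, Matrix.one_mulVec, Matrix.one_mulVec]
    have h1 := symp_add_smul_left d ω 0 u 0 v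
    have h3 := symp_add_smul_right d ω 0 u v 0
    simp only [zero_smul, add_zero, zero_mul] at h1 h3
    rw [h1, h3]
  have hexp : κ' * κ' = (a * a + b * b * ω) • (1 : Matrix (Fin d ⊕ Fin d) (Fin d ⊕ Fin d) F) +
      (2 * a * b) • κ := by
    rw [hab, Matrix.add_mul, Matrix.mul_add, Matrix.mul_add, Matrix.smul_mul, Matrix.smul_mul,
      Matrix.mul_smul, Matrix.mul_smul, Matrix.smul_mul, Matrix.smul_mul, Matrix.mul_smul,
      Matrix.mul_smul, Matrix.one_mul, Matrix.one_mul, Matrix.mul_one, hκκ, smul_smul, smul_smul,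
      smul_smul, smul_smul]
    module
  have hcoef := hindep (a * a + b * b * ω - ω) (2 * a * b) (by
    rw [sub_smul, sub_add_eq_add_sub, hexp.symm.trans hsq', sub_self])
  obtain ⟨hc1, hc2⟩ := hcoef
  have ha0 : a = 0 := by
    rcases mul_eq_zero.mp hc2 with h | h
    · rcases mul_eq_zero.mp h with h' | h'
      · exact absurd h' h2
      · exact h'
    · exfalso
      apply hω a
      rw [h, zero_mul, zero_mul, add_zero] at hc1
      exact sub_eq_zero.mp hc1
  have hb2 : b * b = 1 := by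
    rw [ha0, zero_mul, zero_add] at hc1
    have h1 : (b * b - 1) * ω = 0 := by linear_combination hc1
    rcases mul_eq_zero.mp h1 with h | h
    · exact sub_eq_zero.mp h
    · exact absurd h hω0
  have hb : b = 1 ∨ b = -1 := by
    have h1 : (b - 1) * (b + 1) = 0 := by linear_combination hb2
    rcases mul_eq_zero.mp h1 with h | h
    · left
      exact sub_eq_zero.mp h
    · right
      exact eq_neg_of_add_eq_zero_left h
  have hκ'eq : κ' = b • κ := by
    rw [hab, ha0, zero_smul, zero_add]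
  refine ⟨κ, ω, hκ, ?_, ⟨hκκ, ?_⟩, hgen⟩
  · rintro ⟨s, hs⟩
    exact hω s hs.symm
  · intro u v
    rcases hb with hb1 | hb1
    · exfalso
      apply hnsa
      intro y hy u v
      obtain ⟨α, β, rfl⟩ := hgen y hy
      rw [comb_mulVec, comb_mulVec, symp_add_smul_left, symp_add_smul_right, hadj' u v, hκ'eq, hb1,
        one_smul]
    · rw [hadj' u v, hκ'eq, hb1, neg_one_smul, Matrix.neg_mulVec]
      have h1 := symp_add_smul_right d (-1) 0 u (κ *ᵥ v) 0
      simp only [zero_smul, add_zero, zero_mul, neg_one_smul, neg_one_mul] at h1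
      exact h1

end Cfsg.Agent.H82.Gu
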