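import Cfsg.Agent.H59.JzKillDefs
import Cfsg.Agent.H52.SrMain
import Cfsg.Agent.S2948
import Cfsg.Agent.S2950

/-!
# K-CARD (JZ-KILL sub-piece for S2951 / S2952): `|Ω₁Z(O₂(L))| ≥ 16` when `S` does not normalize `K`

`kCard (hZ2 : StZ2) : StKCard`.  Route: helper52's `Cfsg.Agent.H52.Sr.struct` with `T := S`
(`hfix` from `|Ω₁Z(S)| = 2`); the orbit of `K` under `S` has two members `K ≠ K^s`, whose
four-groups `W_K`, `W_{K^s}` are independent inside `V`.
-/

set_option autoImplicit false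
open Cfsg

namespace Cfsg.Agent.H82.Jk

open Cfsg.Agent.H64.Jz Cfsg.Agent.H59.JzK

universe u

/-- Two disjoint subgroups of order 4 inside `V` force `|V| ≥ 16`. -/
theorem card_ge_sixteen {G : Type u} [Group G] [Finite G] (V A B : Subgroup G) (hA : A ≤ V)
    (hB : B ≤ V) (hAB : Disjoint A B) (hcA : Nat.card ↥A = 4) (hcB : Nat.card ↥B = 4) :
    16 ≤ Nat.card ↥V := by
  let f : ↥A × ↥B → ↥V := fun p => ⟨(p.1 : G) * (p.2 : G), V.mul_mem (hA p.1.2) (hB p.2.2)⟩
  have hf : Function.Injective f := by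
    rintro ⟨a, b⟩ ⟨a', b'⟩ h
    have h1 : (a : G) * (b : G) = (a' : G) * (b' : G) := congrArg Subtype.val h
    have h2 : (a' : G)⁻¹ * (a : G) = (b' : G) * (b : G)⁻¹ := by
      calc (a' : G)⁻¹ * (a : G) = (a' : G)⁻¹ * ((a : G) * (b : G)) * (b : G)⁻¹ := by group
        _ = (a' : G)⁻¹ * ((a' : G) * (b' : G)) * (b : G)⁻¹ := by rw [h1]
        _ = (b' : G) * (b : G)⁻¹ := by group
    have h3 : (a' : G)⁻¹ * (a : G) = 1 :=
      Subgroup.disjoint_def.mp hAB (A.mul_mem (A.inv_mem a'.2) a.2)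
        (by rw [h2]; exact B.mul_mem b'.2 (B.inv_mem b.2))
    have h4 : (b' : G) * (b : G)⁻¹ = 1 := by rw [← h2]; exact h3
    have ea : (a : G) = a' := (inv_mul_eq_one.mp h3).symm
    have eb : (b : G) = b' := (mul_inv_eq_one.mp h4).symm
    exact Prod.ext (Subtype.ext ea) (Subtype.ext eb)
  have h := Nat.card_le_card_of_injective f hf
  rw [Nat.card_prod, hcA, hcB] at h
  exact h

/-- `K^s = K` puts `s` in the normalizer of `K`. -/
theorem mem_normalizer_of_map_conj_eq {G : Type u} [Group G] {K : Subgroup G} {s : G}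
    (h1 : K = K.map (MulAut.conj s).toMonoidHom) : s ∈ Subgroup.normalizer (K : Set G) := by
  rw [Subgroup.mem_normalizer_iff]
  intro x
  constructor
  · intro hx
    rw [h1]; exact ⟨x, hx, by simp [MulAut.conj_apply]⟩
  · intro hx
    rw [h1] at hx
    obtain ⟨y, hy, hyx⟩ := hx
    have h2 : s * y * s⁻¹ = s * x * s⁻¹ := by simpa [MulAut.conj_apply] using hyx
    have h3 : y = x := by simpa using h2
    rw [← h3]; exact hy

/-- A 2-group generated by elements of odd order is trivial. -/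
theorem eq_bot_of_odd_gen {G : Type u} [Group G] {K : Subgroup G} (hK2 : IsPGroup 2 ↥K)
    (hgen : Subgroup.closure {g : G | g ∈ K ∧ Odd (orderOf g)} = K) : K = ⊥ := by
  rw [← hgen, Subgroup.closure_eq_bot_iff]
  rintro g ⟨hgK, hgo⟩
  obtain ⟨n, hn⟩ := hK2 ⟨g, hgK⟩
  have h1 : orderOf g ∣ 2 ^ n := by
    apply orderOf_dvd_of_pow_eq_one
    have := congrArg Subtype.val hn
    simpa using this
  obtain ⟨k, -, hk⟩ := (Nat.dvd_prime_pow Nat.prime_two).mp h1
  rcases Nat.eq_zero_or_pos k with rfl | hkpos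
  · exact orderOf_eq_one_iff.mp (by simpa using hk)
  · exfalso
    rw [hk] at hgo
    have : Even (2 ^ k) := Nat.even_pow.mpr ⟨even_two, by omega⟩
    exact (Nat.not_odd_iff_even.mpr this) hgo

/-- K-CARD. -/
theorem kCard (hZ2 : StZ2.{u}) : StKCard.{u} := by
  intro G _ _ S M K L T' K' L' hR hn
  obtain ⟨hB, hX, hB', hne⟩ := hR
  have hB0 := hB
  obtain ⟨hZN, hO, hM, hMJ, hT, -, hK, hLmax, hKL⟩ := hB0
  have hZN' := hZN
  obtain ⟨hc2, hsolv, hZ⟩ := hZN'
  have hS2 : IsPGroup 2 ↥(S : Subgroup G) := S.isPGroup'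
  have hSne : (S : Subgroup G) ≠ ⊥ := hT.1.2.1
  have hJle : thompsonSubgroupOf 2 (S : Subgroup G) ≤ (S : Subgroup G) :=
    Subgroup.map_subtype_le _
  obtain ⟨L₀, hL₀max, hKL₀, huniq, -, hSyl₀⟩ :=
    Cfsg.Agent.S2950.result hc2 hsolv hZ hO S M hM hMJ (S : Subgroup G) hT K hK
  have hLL₀ : L = L₀ := huniq L hLmax hKL
  have hSyl : IsSylowTwoIn (S : Subgroup G) L := by rw [hLL₀]; exact hSyl₀
  have hL2 : IsTwoLocal L := hLmax.1
  have hLM : ¬ L ≤ M := fun h => hK.2.1 ((le_sup_left.trans hKL).trans h)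
  have h48 := Cfsg.Agent.S2948.result hc2 hsolv hZ hO S M hM hMJ (S : Subgroup G) hT L hL2 hLM
    (S : Subgroup G) hSyl hJle
  have hLS : L ∈ jOvergroups (S : Subgroup G) := h48.2.2.1
  have hKc : IsJComponent (S : Subgroup G) K := hK.1.1
  have hKL' : K ≤ L := le_sup_left.trans hKL
  have hZ2' : Nat.card ↥(omegaCenterOf (S : Subgroup G)) = 2 := hZ2 S L T' K' L' hB' hne
  obtain ⟨hLNV, hVexp, hVQ, hQL, hQ2⟩ := Cfsg.Agent.H32.Sr.vng L
  have hQS : pCoreOf 2 L ≤ (S : Subgroup G) :=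
    Cfsg.Agent.Helper55.J48.pCoreOf_le_of_sylowIn hSyl
  have hfix : ∀ v ∈ omegaCenterOf (pCoreOf 2 L),
      v ∈ Subgroup.centralizer ((S : Subgroup G) : Set G) →
      v ∈ Subgroup.centralizer (K : Set G) → v = 1 := by
    intro v hv hvS hvK
    by_contra hv1
    have hvZ : v ∈ omegaCenterOf (S : Subgroup G) := by
      apply Subgroup.subset_closure
      refine ⟨⟨hQS (hVQ hv), hvS⟩, ?_⟩
      rw [pow_two]; exact hVexp v hv
    have hZelems : ∀ x ∈ omegaCenterOf (S : Subgroup G), x = 1 ∨ x = v := by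
      intro x hx
      by_cases hx1 : x = 1
      · exact Or.inl hx1
      · right
        obtain ⟨y, hy, huq⟩ :=
          (Nat.card_eq_two_iff' (1 : ↥(omegaCenterOf (S : Subgroup G)))).mp hZ2'
        have e1 : (⟨x, hx⟩ : ↥(omegaCenterOf (S : Subgroup G))) = y :=
          huq _ (fun h => hx1 (congrArg Subtype.val h))
        have e2 : (⟨v, hvZ⟩ : ↥(omegaCenterOf (S : Subgroup G))) = y :=
          huq _ (fun h => hv1 (congrArg Subtype.val h))
        exact congrArg Subtype.val (e1.trans e2.symm)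
    have hKZ : K ≤ Subgroup.centralizer (omegaCenterOf (S : Subgroup G) : Set G) := by
      intro k hk
      rw [Subgroup.mem_centralizer_iff]
      intro x hx
      rcases hZelems x hx with rfl | rfl
      · simp
      · exact (Subgroup.mem_centralizer_iff.mp hvK k hk).symm
    have hKN : K ≤ Subgroup.normalizer ((S : Subgroup G) : Set G) := hKZ.trans (hZ S)
    have hKS : K ≤ (S : Subgroup G) := by
      rw [← hKc.2.1, Subgroup.commutator_le]
      intro k hk j hj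
      have h1 : k * j * k⁻¹ ∈ (S : Subgroup G) :=
        (Subgroup.mem_normalizer_iff.mp (hKN hk) j).mp (hJle hj)
      rw [commutatorElement_def]
      exact Subgroup.mul_mem _ h1 (Subgroup.inv_mem _ (hJle hj))
    have hKbot : K = ⊥ := eq_bot_of_odd_gen (hS2.to_le hKS) hKc.1
    have h3 := hKc.2.2.1
    rw [hKbot, Subgroup.relIndex_bot_right] at h3
    omega
  obtain ⟨hsup, hind, hcomp, -, -, -⟩ := Cfsg.Agent.H52.Sr.struct hc2 hsolv hZ (S : Subgroup G)
    hS2 hSne L hLS K hKc hKL' hfix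
  obtain ⟨s, hsS, hsN⟩ := SetLike.not_le_iff_exists.mp hn
  let i : Cfsg.Agent.H52.Sr.Orb (S : Subgroup G) K :=
    ⟨K, 1, Subgroup.one_mem _, by ext x; simp⟩
  let j : Cfsg.Agent.H52.Sr.Orb (S : Subgroup G) K :=
    ⟨K.map (MulAut.conj s).toMonoidHom, s, hsS, rfl⟩
  have hij : i ≠ j := by
    intro h
    exact hsN (mem_normalizer_of_map_conj_eq (congrArg Subtype.val h))
  have hdisj : Disjoint (wOf i.1) (wOf j.1) := hind.pairwiseDisjoint hij
  have hle : ∀ i' : Cfsg.Agent.H52.Sr.Orb (S : Subgroup G) K,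
      wOf i'.1 ≤ omegaCenterOf (pCoreOf 2 L) := fun i' =>
    hsup ▸ le_iSup (fun i : Cfsg.Agent.H52.Sr.Orb (S : Subgroup G) K => wOf i.1) i'
  exact card_ge_sixteen _ _ _ (hle i) (hle j) hdisj (hcomp i).2.2 (hcomp j).2.2

example (hZ2 : StZ2.{u}) : Cfsg.Agent.H59.JzK.StKCard.{u} := kCard hZ2

end Cfsg.Agent.H82.Jk
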