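import Cfsg.Agent.H82.JtDich

/-!
# The `𝒜(T)`-count for two commuting four-groups swapped by an element of `A ∈ 𝒜(T)`

`Cfsg.Agent.H82.Jv.count`: `V₁, V₂ ≤ T` four-groups, `V₁ ∩ V₂ = 1`, commuting; `A ≤ T` of exponent
2 and of largest order among the subgroups of exponent 2 of `T`; `a ∈ A` swaps `V₁` and `V₂`; a
subgroup `A₀ ≤ A` with `|A| ≤ 2 |A₀|` normalizes `V₁`.  This is impossible.
(For the residual configuration of S2953.)
-/

set_option autoImplicit false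

namespace Cfsg.Agent.H82.Jv

open Cfsg.Agent.H82.Jt

universe u

variable {G : Type u} [Group G]

/-- The internal direct product of two elementwise commuting subgroups meeting trivially. -/
theorem prodSub (C E : Subgroup G) (hcomm : ∀ c ∈ C, ∀ e ∈ E, c * e = e * c)
    (hdisj : ∀ x, x ∈ C → x ∈ E → x = 1) :
    ∃ B : Subgroup G, (∀ b ∈ B, ∃ c ∈ C, ∃ e ∈ E, b = c * e) ∧
      (∀ c ∈ C, ∀ e ∈ E, c * e ∈ B) ∧ Nat.card ↥B = Nat.card ↥C * Nat.card ↥E := by
  classical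
  let φ : ↥C × ↥E →* G := MonoidHom.noncommCoprod C.subtype E.subtype
    (fun c e => hcomm c c.2 e e.2)
  have hφ : ∀ y : ↥C × ↥E, φ y = (y.1 : G) * (y.2 : G) := fun y => rfl
  have hinj : Function.Injective φ := by
    rw [injective_iff_map_eq_one]
    rintro ⟨c, e⟩ h
    rw [hφ] at h
    have hc : (c : G) = (e : G)⁻¹ := eq_inv_of_mul_eq_one_left h
    have hc1 : (c : G) = 1 := hdisj _ c.2 (by rw [hc]; exact E.inv_mem e.2)
    have he1 : (e : G) = 1 := by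
      have h' : (c : G) * (e : G) = 1 := h
      rw [hc1, one_mul] at h'; exact h'
    exact Prod.ext (Subtype.ext hc1) (Subtype.ext he1)
  refine ⟨φ.range, ?_, ?_, ?_⟩
  · rintro b ⟨y, rfl⟩
    exact ⟨y.1, y.1.2, y.2, y.2.2, hφ y⟩
  · intro c hc e he
    exact ⟨(⟨c, hc⟩, ⟨e, he⟩), hφ _⟩
  · rw [← Nat.card_prod]
    exact (Nat.card_congr (MonoidHom.ofInjective hinj).toEquiv).symm

/-- Elements of `zpowers s` for an involution `s`. -/
theorem zpowers_inv {s t : G} (hs : s * s = 1) (ht : t ∈ Subgroup.zpowers s) : t = 1 ∨ t = s := by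
  obtain ⟨n, hn⟩ := Subgroup.mem_zpowers_iff.mp ht
  rw [← hn]
  have h2 : s ^ (2 : ℤ) = 1 := by
    rw [zpow_ofNat, pow_two]; exact hs
  rcases Int.even_or_odd' n with ⟨k, hk | hk⟩
  · left
    rw [hk, zpow_mul, h2, one_zpow]
  · right
    rw [hk, zpow_add, zpow_mul, h2, one_zpow, one_mul, zpow_one]

/-- **The count.** -/
theorem count [Finite G] (T V₁ V₂ A A₀ : Subgroup G) (a : G)
    (hV₁T : V₁ ≤ T) (hV₂T : V₂ ≤ T) (hc₁ : Nat.card ↥V₁ = 4) (hc₂ : Nat.card ↥V₂ = 4)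
    (he₁ : ∀ w ∈ V₁, w * w = 1) (he₂ : ∀ w ∈ V₂, w * w = 1)
    (hdisj : V₁ ⊓ V₂ = ⊥) (hcomm : ∀ w₁ ∈ V₁, ∀ w₂ ∈ V₂, w₁ * w₂ = w₂ * w₁)
    (hAT : A ≤ T) (hAe : ∀ x ∈ A, x * x = 1)
    (hmax : ∀ B : Subgroup G, B ≤ T → (∀ x ∈ B, x * x = 1) → Nat.card ↥B ≤ Nat.card ↥A)
    (hA₀A : A₀ ≤ A) (hidx : Nat.card ↥A ≤ 2 * Nat.card ↥A₀)
    (haA : a ∈ A) (hswap : ∀ w ∈ V₁, a * w * a⁻¹ ∈ V₂) (hswap' : ∀ w ∈ V₂, a * w * a⁻¹ ∈ V₁)
    (hnorm : ∀ x ∈ A₀, ∀ w ∈ V₁, x * w * x⁻¹ ∈ V₁) : False := by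
  classical
  have hAcomm : ∀ x ∈ A, ∀ y ∈ A, x * y = y * x := fun x hx y hy => comm_of_sq hAe hx hy
  have hV₁comm : ∀ x ∈ V₁, ∀ y ∈ V₁, x * y = y * x := fun x hx y hy => comm_of_sq he₁ hx hy
  have hinv : ∀ x : G, x * x = 1 → x⁻¹ = x := fun x hx => inv_eq_of_mul_eq_one_left hx
  have ha2 : a * a = 1 := hAe a haA
  have hainv : a⁻¹ = a := hinv a ha2
  have hbot : ∀ x, x ∈ V₁ → x ∈ V₂ → x = 1 := fun x h1 h2 => by
    have : x ∈ V₁ ⊓ V₂ := ⟨h1, h2⟩
    rw [hdisj] at this; exact Subgroup.mem_bot.mp this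
  -- conjugation by a commuting element
  have hconj_fix : ∀ x y : G, x * y = y * x → x * y * x⁻¹ = y := fun x y h => by
    rw [h]; group
  -- `A ∩ V₁ = 1`
  have hA_V₁ : ∀ x, x ∈ A → x ∈ V₁ → x = 1 := by
    intro x hxA hx1
    have h1 : a * x * a⁻¹ = x := hconj_fix a x (hAcomm a haA x hxA)
    exact hbot x hx1 (h1 ▸ hswap x hx1)
  -- `A₀` normalizes `V₂`
  have hnorm₂ : ∀ x ∈ A₀, ∀ w ∈ V₂, x * w * x⁻¹ ∈ V₂ := by
    intro x hx w hw
    have hw' : a * w * a⁻¹ ∈ V₁ := hswap' w hw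
    have h1 : x * w * x⁻¹ = a * (x * (a * w * a⁻¹) * x⁻¹) * a⁻¹ := by
      have hxa : x * a = a * x := hAcomm x (hA₀A hx) a haA
      have hxa' : x⁻¹ * a⁻¹ = a⁻¹ * x⁻¹ := by
        rw [← mul_inv_rev, ← mul_inv_rev, hxa]
      calc x * w * x⁻¹ = x * (a * a) * w * (a⁻¹ * a⁻¹) * x⁻¹ := by
              rw [ha2, hainv, ha2]; group
        _ = (x * a) * (a * w * a⁻¹) * (a⁻¹ * x⁻¹) := by group
        _ = (a * x) * (a * w * a⁻¹) * (x⁻¹ * a⁻¹) := by rw [hxa, ← hxa']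
        _ = a * (x * (a * w * a⁻¹) * x⁻¹) * a⁻¹ := by group
    rw [h1]
    exact hswap _ (hnorm x hx _ hw')
  -- unique decomposition in `V₁ V₂`
  have huniq : ∀ w₁ ∈ V₁, ∀ w₂ ∈ V₂, ∀ w₁' ∈ V₁, ∀ w₂' ∈ V₂, w₁ * w₂ = w₁' * w₂' →
      w₁ = w₁' ∧ w₂ = w₂' := by
    intro w₁ h1 w₂ h2 w₁' h1' w₂' h2' h
    have h3 : w₁'⁻¹ * w₁ = w₂' * w₂⁻¹ := by
      calc w₁'⁻¹ * w₁ = w₁'⁻¹ * (w₁ * w₂) * w₂⁻¹ := by group
        _ = w₁'⁻¹ * (w₁' * w₂') * w₂⁻¹ := by rw [h]
        _ = w₂' * w₂⁻¹ := by group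
    have h4 : w₁'⁻¹ * w₁ = 1 := hbot _ (V₁.mul_mem (V₁.inv_mem h1') h1)
      (by rw [h3]; exact V₂.mul_mem h2' (V₂.inv_mem h2))
    have h5 : w₂' * w₂⁻¹ = 1 := by rw [← h3]; exact h4
    exact ⟨(inv_mul_eq_one.mp h4).symm, (mul_inv_eq_one.mp h5).symm⟩
  -- the key lemma on elements of `A₀` inside `V₁ V₂`
  have hkey : ∀ c ∈ A₀, ∀ w₁ ∈ V₁, ∀ w₂ ∈ V₂, c = w₁ * w₂ →
      w₂ = a * w₁ * a⁻¹ ∧ ∀ x ∈ A₀, x * w₁ * x⁻¹ = w₁ := by
    intro c hc w₁ h1 w₂ h2 hcw
    constructor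
    · have hfix : a * c * a⁻¹ = c := hconj_fix a c (hAcomm a haA c (hA₀A hc))
      have h3 : (a * w₂ * a⁻¹) * (a * w₁ * a⁻¹) = w₁ * w₂ := by
        have h4 : a * c * a⁻¹ = (a * w₁ * a⁻¹) * (a * w₂ * a⁻¹) := by rw [hcw]; group
        rw [hcomm _ (hswap' w₂ h2) _ (hswap w₁ h1), ← h4, hfix, hcw]
      exact ((huniq _ (hswap' w₂ h2) _ (hswap w₁ h1) _ h1 _ h2 h3).2).symm
    · intro x hx
      have hfix : x * c * x⁻¹ = c := hconj_fix x c (hAcomm x (hA₀A hx) c (hA₀A hc))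
      have h3 : (x * w₁ * x⁻¹) * (x * w₂ * x⁻¹) = w₁ * w₂ := by
        have h4 : x * c * x⁻¹ = (x * w₁ * x⁻¹) * (x * w₂ * x⁻¹) := by rw [hcw]; group
        rw [← h4, hfix, hcw]
      exact (huniq _ (hnorm x hx w₁ h1) _ (hnorm₂ x hx w₂ h2) _ h1 _ h2 h3).1
  have hA₀pos : 0 < Nat.card ↥A₀ := Nat.card_pos
  by_cases hcen : ∀ x ∈ A₀, ∀ w ∈ V₁, x * w = w * x
  · -- Case 1: `A₀` centralizes `V₁`
    obtain ⟨B, hB1, hB2, hBc⟩ := prodSub A₀ V₁ hcen (fun x hx hx' => hA_V₁ x (hA₀A hx) hx')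
    have hBT : B ≤ T := by
      intro b hb
      obtain ⟨c, hc, e, he, rfl⟩ := hB1 b hb
      exact T.mul_mem (hAT (hA₀A hc)) (hV₁T he)
    have hBe : ∀ b ∈ B, b * b = 1 := by
      intro b hb
      obtain ⟨c, hc, e, he, rfl⟩ := hB1 b hb
      calc c * e * (c * e) = c * (e * c) * e := by group
        _ = c * (c * e) * e := by rw [hcen c hc e he]
        _ = (c * c) * (e * e) := by group
        _ = 1 := by rw [hAe c (hA₀A hc), he₁ e he, one_mul]
    have := hmax B hBT hBe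
    rw [hBc, hc₁] at this
    omega
  · -- Case 2
    push_neg at hcen
    obtain ⟨x₀, hx₀, q, hq, hx₀q⟩ := hcen
    have hx₀2 : x₀ * x₀ = 1 := hAe x₀ (hA₀A hx₀)
    have hx₀inv : x₀⁻¹ = x₀ := hinv x₀ hx₀2
    obtain ⟨r, hrdef⟩ : ∃ r, r = x₀ * q * x₀⁻¹ := ⟨_, rfl⟩
    have hr : r ∈ V₁ := hrdef ▸ hnorm x₀ hx₀ q hq
    have hrq : r ≠ q := by
      intro h
      apply hx₀q
      calc x₀ * q = (x₀ * q * x₀⁻¹) * x₀ := by group
        _ = q * x₀ := by rw [← hrdef, h]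
    have hq1 : q ≠ 1 := by rintro rfl; exact hx₀q (by simp)
    have hr1 : r ≠ 1 := by
      intro h
      apply hq1
      have : q = x₀⁻¹ * r * x₀ := by rw [hrdef]; group
      rw [this, h]; group
    have hx₀r : x₀ * r * x₀⁻¹ = q := by
      rw [hrdef]
      calc x₀ * (x₀ * q * x₀⁻¹) * x₀⁻¹ = (x₀ * x₀) * q * (x₀⁻¹ * x₀⁻¹) := by group
        _ = q := by rw [hx₀inv, hx₀2]; group
    obtain ⟨p, hpdef⟩ : ∃ p, p = q * r := ⟨_, rfl⟩
    have hp : p ∈ V₁ := hpdef ▸ V₁.mul_mem hq hr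
    have hq2 : q * q = 1 := he₁ q hq
    have hr2 : r * r = 1 := he₁ r hr
    have hqr : q * r = r * q := hV₁comm q hq r hr
    have hp1 : p ≠ 1 := by
      intro h
      apply hrq
      have h1 : q * r = 1 := hpdef ▸ h
      have : r = q⁻¹ := eq_inv_of_mul_eq_one_right h1
      rw [this, hinv q hq2]
    have hpq : p ≠ q := by
      intro h
      apply hr1
      have h1 : q * r = q := hpdef ▸ h
      exact mul_left_cancel (h1.trans (mul_one q).symm)
    have hpr : p ≠ r := by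
      intro h
      apply hq1
      have h1 : q * r = r := hpdef ▸ h
      exact mul_right_cancel (h1.trans (one_mul r).symm)
    have hx₀p : x₀ * p * x₀⁻¹ = p := by
      rw [hpdef]
      calc x₀ * (q * r) * x₀⁻¹ = (x₀ * q * x₀⁻¹) * (x₀ * r * x₀⁻¹) := by group
        _ = r * q := by rw [← hrdef, hx₀r]
        _ = q * r := hqr.symm
    have h4 : ∀ w ∈ V₁, w = 1 ∨ w = p ∨ w = q ∨ w = r := fun w hw =>
      four_elems V₁ hc₁ p q r hp hq hr hp1 hq1 hr1 hpq hpr (Ne.symm hrq) w hw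
    have hcinj : ∀ x y z : G, x * y * x⁻¹ = x * z * x⁻¹ → y = z := by
      intro x y z h
      have := congrArg (fun t => x⁻¹ * t * x) h
      simpa [mul_assoc] using this
    -- (i) `p` is fixed by `A₀`
    have hpfix : ∀ x ∈ A₀, x * p * x⁻¹ = p := by
      intro x hx
      have hxx₀ : x₀ * x = x * x₀ := hAcomm x₀ (hA₀A hx₀) x (hA₀A hx)
      have hcommconj : ∀ y : G, x₀ * (x * y * x⁻¹) * x₀⁻¹ = x * (x₀ * y * x₀⁻¹) * x⁻¹ := by
        intro y
        have h' : x₀⁻¹ * x⁻¹ = x⁻¹ * x₀⁻¹ := by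
          rw [← mul_inv_rev, ← mul_inv_rev, hxx₀]
        calc x₀ * (x * y * x⁻¹) * x₀⁻¹ = (x₀ * x) * y * (x⁻¹ * x₀⁻¹) := by group
          _ = (x * x₀) * y * (x₀⁻¹ * x⁻¹) := by rw [hxx₀, h']
          _ = x * (x₀ * y * x₀⁻¹) * x⁻¹ := by group
      have h5 := hcommconj p
      rw [hx₀p] at h5
      -- `x p x⁻¹` is fixed by `x₀`
      rcases h4 _ (hnorm x hx p hp) with h | h | h | h
      · exact absurd (hcinj x p 1 (by rw [h]; group)) hp1
      · exact h
      · rw [h] at h5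
        exact absurd (h5.symm.trans (hrdef.symm ▸ rfl : x₀ * q * x₀⁻¹ = r)) (Ne.symm hrq)
      · rw [h, hx₀r] at h5
        exact absurd h5 (Ne.symm hrq)
    -- (ii) the centralizer `C` of `V₁` in `A₀`
    obtain ⟨C, hCdef⟩ : ∃ C : Subgroup G, C = A₀ ⊓ Subgroup.centralizer (V₁ : Set G) := ⟨_, rfl⟩
    have hCA₀ : C ≤ A₀ := hCdef ▸ inf_le_left
    have hCcen : ∀ c ∈ C, ∀ w ∈ V₁, c * w = w * c := by
      intro c hc w hw
      have : c ∈ Subgroup.centralizer (V₁ : Set G) := (hCdef ▸ hc : c ∈ A₀ ⊓ _).2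
      exact (Subgroup.mem_centralizer_iff.mp this w hw).symm
    have hCmem : ∀ x ∈ A₀, x * q * x⁻¹ = q → x ∈ C := by
      intro x hx hxq
      rw [hCdef]
      refine Subgroup.mem_inf.mpr ⟨hx, ?_⟩
      rw [Subgroup.mem_centralizer_iff]
      intro w hw
      have hfixw : x * w * x⁻¹ = w := by
        rcases h4 w hw with h | h | h | h
        · rw [h]; group
        · rw [h]; exact hpfix x hx
        · rw [h]; exact hxq
        · have hr' : r = q * p := by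
            rw [hpdef, ← mul_assoc, hq2, one_mul]
          rw [h, hr']
          calc x * (q * p) * x⁻¹ = (x * q * x⁻¹) * (x * p * x⁻¹) := by group
            _ = q * p := by rw [hxq, hpfix x hx]
      calc w * x = (x * w * x⁻¹) * x := by rw [hfixw]
        _ = x * w := by group
    have hcover : ∀ x ∈ A₀, x ∈ C ∨ x * x₀ ∈ C := by
      intro x hx
      rcases h4 _ (hnorm x hx q hq) with h | h | h | h
      · exact absurd (hcinj x q 1 (by rw [h]; group)) hq1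
      · exact absurd (hcinj x q p (by rw [h, hpfix x hx])) (Ne.symm hpq)
      · exact Or.inl (hCmem x hx h)
      · right
        apply hCmem _ (A₀.mul_mem hx hx₀)
        have hr' : r = q * p := by
          rw [hpdef, ← mul_assoc, hq2, one_mul]
        have hxr : x * r * x⁻¹ = q := by
          have : x * r * x⁻¹ = (x * q * x⁻¹) * (x * p * x⁻¹) := by rw [hr']; group
          rw [this, h, hpfix x hx, hpdef, hqr, ← mul_assoc, hr2, one_mul]
        calc x * x₀ * q * (x * x₀)⁻¹ = x * (x₀ * q * x₀⁻¹) * x⁻¹ := by group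
          _ = q := by rw [← hrdef, hxr]
    have hcardA₀ : Nat.card ↥A₀ ≤ 2 * Nat.card ↥C := by
      let f : ↥A₀ → ↥C × Bool := fun x =>
        if h : (x : G) ∈ C then (⟨x, h⟩, false)
        else (⟨(x : G) * x₀, (hcover x x.2).resolve_left h⟩, true)
      have hf : Function.Injective f := by
        intro x y hxy
        by_cases hx : (x : G) ∈ C <;> by_cases hy : (y : G) ∈ C
        · simp only [f, dif_pos hx, dif_pos hy, Prod.mk.injEq, Subtype.mk.injEq] at hxy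
          exact Subtype.ext hxy.1
        · simp only [f, dif_pos hx, dif_neg hy, Prod.mk.injEq] at hxy
          exact absurd hxy.2 (by decide)
        · simp only [f, dif_neg hx, dif_pos hy, Prod.mk.injEq] at hxy
          exact absurd hxy.2 (by decide)
        · simp only [f, dif_neg hx, dif_neg hy, Prod.mk.injEq, Subtype.mk.injEq] at hxy
          exact Subtype.ext (mul_right_cancel hxy.1)
      have h := Nat.card_le_card_of_injective f hf
      have hb : Nat.card Bool = 2 := by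
        rw [Nat.card_eq_fintype_card, Fintype.card_bool]
      rw [Nat.card_prod, hb] at h
      omega
    -- `C` centralizes `V₂`
    have hCcen₂ : ∀ c ∈ C, ∀ w ∈ V₂, c * w = w * c := by
      intro c hc w hw
      have hw' : a * w * a⁻¹ ∈ V₁ := hswap' w hw
      have h1 : c * (a * w * a⁻¹) = (a * w * a⁻¹) * c := hCcen c hc _ hw'
      have hca : c * a = a * c := hAcomm c (hA₀A (hCA₀ hc)) a haA
      have hca' : c * a⁻¹ = a⁻¹ * c := by rw [hainv]; exact hca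
      have h2 : a * (c * w) * a⁻¹ = a * (w * c) * a⁻¹ := by
        calc a * (c * w) * a⁻¹ = (a * c) * w * a⁻¹ := by group
          _ = (c * a) * w * a⁻¹ := by rw [hca]
          _ = c * (a * w * a⁻¹) := by group
          _ = (a * w * a⁻¹) * c := h1
          _ = a * w * (a⁻¹ * c) := by group
          _ = a * w * (c * a⁻¹) := by rw [hca']
          _ = a * (w * c) * a⁻¹ := by group
      exact hcinj a _ _ h2
    -- (iii) `s`
    obtain ⟨s₁, hs₁, s₂, hs₂, hs₁1, hs₂1, hs₁₂⟩ := exists_two V₂ hc₂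
    obtain ⟨s, hs, hs1, hsp⟩ : ∃ s ∈ V₂, s ≠ 1 ∧ s ≠ a * p * a⁻¹ := by
      by_cases h : s₁ = a * p * a⁻¹
      · exact ⟨s₂, hs₂, hs₂1, fun h' => hs₁₂ (h.trans h'.symm)⟩
      · exact ⟨s₁, hs₁, hs₁1, h⟩
    have hs2 : s * s = 1 := he₂ s hs
    have hzle : Subgroup.zpowers s ≤ V₂ := by
      rw [Subgroup.zpowers_le]; exact hs
    have hzcard : Nat.card ↥(Subgroup.zpowers s) = 2 := by
      rw [Nat.card_zpowers]
      exact orderOf_eq_prime (by rw [pow_two]; exact hs2) hs1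
    obtain ⟨E, hE1, hE2, hEc⟩ := prodSub V₁ (Subgroup.zpowers s)
      (fun w hw t ht => hcomm w hw t (hzle ht)) (fun x hx hx' => hbot x hx (hzle hx'))
    have hCE : ∀ c ∈ C, ∀ e ∈ E, c * e = e * c := by
      intro c hc e he
      obtain ⟨w, hw, t, ht, rfl⟩ := hE1 e he
      calc c * (w * t) = (c * w) * t := by group
        _ = (w * c) * t := by rw [hCcen c hc w hw]
        _ = w * (c * t) := by group
        _ = w * (t * c) := by rw [hCcen₂ c hc t (hzle ht)]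
        _ = w * t * c := by group
    have hCEdisj : ∀ x, x ∈ C → x ∈ E → x = 1 := by
      intro x hxC hxE
      obtain ⟨w, hw, t, ht, rfl⟩ := hE1 x hxE
      obtain ⟨ht', hwfix⟩ := hkey _ (hCA₀ hxC) w hw t (hzle ht) rfl
      rcases h4 w hw with h | h | h | h
      · subst h
        have : t = 1 := by rw [ht']; group
        rw [this]; group
      · exfalso
        rcases zpowers_inv hs2 ht with h' | h'
        · apply hp1
          apply hcinj a p 1
          rw [← h, ← ht', h']; group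
        · exact hsp (by rw [← h, ← ht', h'])
      · exfalso
        have := hwfix x₀ hx₀
        rw [h, ← hrdef] at this
        exact hrq this
      · exfalso
        have := hwfix x₀ hx₀
        rw [h, hx₀r] at this
        exact hrq this.symm
    obtain ⟨B, hB1, hB2, hBc⟩ := prodSub C E hCE hCEdisj
    have hBT : B ≤ T := by
      intro b hb
      obtain ⟨c, hc, e, he, rfl⟩ := hB1 b hb
      obtain ⟨w, hw, t, ht, rfl⟩ := hE1 e he
      exact T.mul_mem (hAT (hA₀A (hCA₀ hc))) (T.mul_mem (hV₁T hw) (hV₂T (hzle ht)))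
    have hEe : ∀ e ∈ E, e * e = 1 := by
      intro e he
      obtain ⟨w, hw, t, ht, rfl⟩ := hE1 e he
      calc w * t * (w * t) = w * (t * w) * t := by group
        _ = w * (w * t) * t := by rw [hcomm w hw t (hzle ht)]
        _ = (w * w) * (t * t) := by group
        _ = 1 := by rw [he₁ w hw, he₂ t (hzle ht), one_mul]
    have hBe : ∀ b ∈ B, b * b = 1 := by
      intro b hb
      obtain ⟨c, hc, e, he, rfl⟩ := hB1 b hb
      calc c * e * (c * e) = c * (e * c) * e := by group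
        _ = c * (c * e) * e := by rw [hCE c hc e he]
        _ = (c * c) * (e * e) := by group
        _ = 1 := by rw [hAe c (hA₀A (hCA₀ hc)), hEe e he, one_mul]
    have h := hmax B hBT hBe
    rw [hBc, hEc, hc₁, hzcard] at h
    have hCpos : 0 < Nat.card ↥C := Nat.card_pos
    omega

end Cfsg.Agent.H82.Jv
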