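import Mathlib
import Cfsg.Agent.H64.JyDefs
import Cfsg.Agent.H43.JyVFacts
import Cfsg.Agent.Helper55.J48
import Cfsg.Agent.Helper55.UqBase
import Cfsg.Agent.H82.JvCaseA

/-!
# S2953, KILL2, case (a): `Vof L ≤ O₂(K' ⊔ T')` is impossible (G-level glue for `Jv.caseA`)

`ka_of (hA : StGoodA) (hGB : StGoodB) : RCtx2 S M K L T' K' L' → Ω₁Z(O₂(L)) ≤ O₂(K' ⊔ T') → False`.
-/

set_option autoImplicit false
open Cfsg

universe u

namespace Cfsg.Agent.H82.Jv

/-- In a non-commutative group of order 6 an involution inverts every element of order 3. -/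
theorem six_inv {Γ : Type u} [Group Γ] (hcard : Nat.card Γ = 6)
    (hnc : ∃ g h : Γ, g * h ≠ h * g) (x y : Γ) (hx2 : x * x = 1) (hx1 : x ≠ 1)
    (hy3 : y ^ 3 = 1) : x * y * x⁻¹ * y = 1 := by
  by_cases hy1 : y = 1
  · subst hy1; simp
  have : Fact (Nat.Prime 3) := ⟨Nat.prime_three⟩
  have : Fact (Nat.Prime 2) := ⟨Nat.prime_two⟩
  have hoy : orderOf y = 3 := orderOf_eq_prime hy3 hy1
  have hox : orderOf x = 2 := orderOf_eq_prime (by rw [pow_two]; exact hx2) hx1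
  have hH3 : Nat.card ↥(Subgroup.zpowers y) = 3 := by rw [Nat.card_zpowers, hoy]
  have hidx : (Subgroup.zpowers y).index = 2 := by
    have h := Subgroup.index_mul_card (Subgroup.zpowers y)
    rw [hH3, hcard] at h
    omega
  have hHn : (Subgroup.zpowers y).Normal := Subgroup.normal_of_index_eq_two hidx
  have hxH : x ∉ Subgroup.zpowers y := by
    intro h
    have h1 := Subgroup.orderOf_dvd_natCard (Subgroup.zpowers y) h
    rw [hox, hH3] at h1
    omega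
  have hxiH : x⁻¹ ∉ Subgroup.zpowers y := fun h => hxH (by simpa using Subgroup.inv_mem _ h)
  have hy2 : y ^ 2 = y⁻¹ := by
    apply eq_inv_of_mul_eq_one_left
    rw [← pow_succ]; exact hy3
  have hcases : ∀ h ∈ Subgroup.zpowers y, h = 1 ∨ h = y ∨ h = y⁻¹ := by
    intro h hh
    obtain ⟨i, rfl⟩ := Subgroup.mem_zpowers_iff.mp hh
    have h1 : y ^ (i % (orderOf y : ℤ)) = y ^ i := zpow_mod_orderOf y i
    rw [hoy] at h1
    push_cast at h1
    have h2 : 0 ≤ i % (3 : ℤ) := Int.emod_nonneg _ (by norm_num)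
    have h3 : i % (3 : ℤ) < 3 := Int.emod_lt_of_pos _ (by norm_num)
    rw [← h1]
    obtain h4 | h4 | h4 : i % (3 : ℤ) = 0 ∨ i % (3 : ℤ) = 1 ∨ i % (3 : ℤ) = 2 := by omega
    · left; rw [h4]; simp
    · right; left; rw [h4]; simp
    · right; right; rw [h4]
      have : y ^ (2 : ℤ) = y ^ 2 := by norm_cast
      rw [this, hy2]
  have hconj : x * y * x⁻¹ ∈ Subgroup.zpowers y := hHn.conj_mem y (Subgroup.mem_zpowers y) x
  rcases hcases _ hconj with h | h | h
  · exfalso; apply hy1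
    have : y = x⁻¹ * (x * y * x⁻¹) * x := by group
    rw [this, h]; group
  · -- x and y commute: the group is commutative
    exfalso
    have hcomm : Commute x y := by
      have : x * y = y * x := by
        calc x * y = (x * y * x⁻¹) * x := by group
          _ = y * x := by rw [h]
      exact this
    have hrep : ∀ g : Γ, g ∉ Subgroup.zpowers y → ∃ i : ℤ, g = x * y ^ i := by
      intro g hg
      have h1 : x⁻¹ * g ∈ Subgroup.zpowers y := by
        rw [Subgroup.mul_mem_iff_of_index_two hidx]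
        exact ⟨fun h => (hxiH h).elim, fun h => (hg h).elim⟩
      obtain ⟨i, hi⟩ := Subgroup.mem_zpowers_iff.mp h1
      exact ⟨i, by rw [hi]; group⟩
    have hxc : x ∈ Subgroup.center Γ := by
      rw [Subgroup.mem_center_iff]
      intro g
      by_cases hg : g ∈ Subgroup.zpowers y
      · obtain ⟨i, rfl⟩ := Subgroup.mem_zpowers_iff.mp hg
        exact ((hcomm.zpow_right i).symm).eq
      · obtain ⟨i, rfl⟩ := hrep g hg
        exact ((Commute.refl x).mul_left ((hcomm.zpow_right i).symm)).eq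
    have hyc : y ∈ Subgroup.center Γ := by
      rw [Subgroup.mem_center_iff]
      intro g
      by_cases hg : g ∈ Subgroup.zpowers y
      · obtain ⟨i, rfl⟩ := Subgroup.mem_zpowers_iff.mp hg
        exact ((Commute.refl y).zpow_left i).eq
      · obtain ⟨i, rfl⟩ := hrep g hg
        exact (hcomm.mul_left ((Commute.refl y).zpow_left i)).eq
    have hall : ∀ g : Γ, g ∈ Subgroup.center Γ := by
      intro g
      by_cases hg : g ∈ Subgroup.zpowers y
      · exact (Subgroup.zpowers_le.mpr hyc) hg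
      · obtain ⟨i, rfl⟩ := hrep g hg
        exact Subgroup.mul_mem _ hxc (Subgroup.zpow_mem _ hyc i)
    obtain ⟨g, h', hgh⟩ := hnc
    exact hgh ((Subgroup.mem_center_iff.mp (hall h') g))
  · rw [h]; group

/-- The same inside `G`: `Q ⊴ P` of index 6 with `P / Q` non-abelian; an element `a ∈ P ∖ Q` with
`a² ∈ Q` inverts modulo `Q` every `k ∈ P` with `k³ = 1`. -/
theorem inv_mod {G : Type u} [Group G] (P Q : Subgroup G) (hQP : Q ≤ P)
    (hN : P ≤ Subgroup.normalizer (Q : Set G)) (h6 : Q.relIndex P = 6) (hnc : ¬ ⁅P, P⁆ ≤ Q)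
    (a k : G) (haP : a ∈ P) (hkP : k ∈ P) (ha2 : a * a ∈ Q) (haQ : a ∉ Q) (hk3 : k ^ 3 = 1) :
    a * k * a⁻¹ * k ∈ Q := by
  have hn : (Q.subgroupOf P).Normal := (Subgroup.normal_subgroupOf_iff_le_normalizer hQP).mpr hN
  have hcard : Nat.card (↥P ⧸ Q.subgroupOf P) = 6 := by
    rw [← Subgroup.index_eq_card]; exact h6
  have hnc' : ∃ g h : ↥P ⧸ Q.subgroupOf P, g * h ≠ h * g := by
    by_contra hc0
    have hc : ∀ g h : ↥P ⧸ Q.subgroupOf P, g * h = h * g := fun g h => by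
      by_contra hne
      exact hc0 ⟨g, h, hne⟩
    apply hnc
    rw [Subgroup.commutator_le]
    intro g₁ hg₁ g₂ hg₂
    have h1 := hc (QuotientGroup.mk' (Q.subgroupOf P) ⟨g₁, hg₁⟩)
      (QuotientGroup.mk' (Q.subgroupOf P) ⟨g₂, hg₂⟩)
    have h2 : QuotientGroup.mk' (Q.subgroupOf P)
        ((⟨g₁, hg₁⟩ : ↥P) * ⟨g₂, hg₂⟩ * (⟨g₁, hg₁⟩ : ↥P)⁻¹ * (⟨g₂, hg₂⟩ : ↥P)⁻¹) = 1 := by
      rw [map_mul, map_mul, map_mul, map_inv, map_inv, h1]
      group
    have h3 := (QuotientGroup.eq_one_iff _).mp h2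
    rw [Subgroup.mem_subgroupOf] at h3
    rw [commutatorElement_def]
    simpa using h3
  have hx2 : QuotientGroup.mk' (Q.subgroupOf P) ⟨a, haP⟩ *
      QuotientGroup.mk' (Q.subgroupOf P) ⟨a, haP⟩ = 1 := by
    rw [← map_mul]
    apply (QuotientGroup.eq_one_iff _).mpr
    rw [Subgroup.mem_subgroupOf]
    exact ha2
  have hx1 : QuotientGroup.mk' (Q.subgroupOf P) ⟨a, haP⟩ ≠ 1 := by
    intro h
    have h3 := (QuotientGroup.eq_one_iff _).mp h
    rw [Subgroup.mem_subgroupOf] at h3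
    exact haQ h3
  have hy3 : (QuotientGroup.mk' (Q.subgroupOf P) ⟨k, hkP⟩) ^ 3 = 1 := by
    rw [← map_pow]
    have : (⟨k, hkP⟩ : ↥P) ^ 3 = 1 := Subtype.ext (by simpa using hk3)
    rw [this, map_one]
  have h := six_inv hcard hnc' _ _ hx2 hx1 hy3
  rw [← map_inv, ← map_mul, ← map_mul, ← map_mul] at h
  have h3 := (QuotientGroup.eq_one_iff _).mp h
  rw [Subgroup.mem_subgroupOf] at h3
  simpa using h3


/-- KILL2, case (a): in the residual situation `V = Ω₁Z(O₂(L))` is not inside `O₂(K' ⊔ T')`. -/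
theorem ka_of (hA : Cfsg.Agent.H64.Jy.StGoodA.{u}) (hGB : Cfsg.Agent.H64.Jy.StGoodB.{u})
    {G : Type u} [Group G] [Finite G] (S : Sylow 2 G) (M K L T' K' L' : Subgroup G)
    (h : Cfsg.Agent.H64.Jy.RCtx2 S M K L T' K' L')
    (hVQ : omegaCenterOf (pCoreOf 2 L) ≤ pCoreOf 2 (K' ⊔ T')) : False := by
  obtain ⟨hB, hNS, hB', hne⟩ := h
  obtain ⟨-, -, -, hV4, hVe, -, hNV, hSL, -, -, -, -, hTI⟩ :=
    Cfsg.Agent.H43.Jy.vfacts S M K L T' K' L' hB hNS hB' hne
  obtain ⟨-, hSyl, -⟩ := hA S L T' K' L' hB'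
  obtain ⟨h6, hnc⟩ := hGB S L T' K' L' hB'
  have hTS : T' ≤ (S : Subgroup G) := hB'.2.2.2.2.2.1
  have hKout := hB'.2.2.2.2.2.2.1
  have hJc : IsJComponent T' K' := hKout.1.1
  have hKL : ¬ K' ≤ L := hKout.2.1
  obtain ⟨hgen, hKJ, -, -, -, -⟩ := hJc
  have hQT : pCoreOf 2 (K' ⊔ T') ≤ T' := Cfsg.Agent.Helper55.J48.pCoreOf_le_of_sylowIn hSyl
  have hPN : K' ⊔ T' ≤ Subgroup.normalizer (pCoreOf 2 (K' ⊔ T') : Set G) :=
    Cfsg.Agent.Helper55.J48.le_normalizer_pCoreOf (K' ⊔ T')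
  have hQ2 : IsPGroup 2 ↥(pCoreOf 2 (K' ⊔ T')) := Cfsg.Agent.Helper55.Uq.pCoreOf_isPGroup (K' ⊔ T')
  have hTP : T' ≤ K' ⊔ T' := le_sup_right
  have hKP : K' ≤ K' ⊔ T' := le_sup_left
  have hQP : pCoreOf 2 (K' ⊔ T') ≤ K' ⊔ T' := hQT.trans hTP
  have hTL : T' ≤ L := hTS.trans hSL
  have hTNV : T' ≤ Subgroup.normalizer (omegaCenterOf (pCoreOf 2 L) : Set G) := by
    rw [hNV]; exact hTL
  -- the element `k` of order 3 outside `L`
  obtain ⟨k, hkK, hkodd, hkL⟩ : ∃ k ∈ K', Odd (orderOf k) ∧ k ∉ L := by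
    by_contra hc
    apply hKL
    rw [← hgen, Subgroup.closure_le]
    intro g hg
    by_contra hgL
    exact hc ⟨g, hg.1, hg.2, hgL⟩
  have hk3 : k ^ 3 = 1 := by
    have h1 : orderOf k ∣ Nat.card ↥(K' ⊔ T') := Subgroup.orderOf_dvd_natCard (K' ⊔ T') (hKP hkK)
    have h2a := Subgroup.index_mul_card ((pCoreOf 2 (K' ⊔ T')).subgroupOf (K' ⊔ T'))
    have h2b : Nat.card ↥((pCoreOf 2 (K' ⊔ T')).subgroupOf (K' ⊔ T')) =
        Nat.card ↥(pCoreOf 2 (K' ⊔ T')) :=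
      Nat.card_congr (Subgroup.subgroupOfEquivOfLe hQP).toEquiv
    have h2 : (pCoreOf 2 (K' ⊔ T')).relIndex (K' ⊔ T') * Nat.card ↥(pCoreOf 2 (K' ⊔ T')) =
        Nat.card ↥(K' ⊔ T') := by
      rw [← h2b]; exact h2a
    obtain ⟨m, hm⟩ := (IsPGroup.iff_card).mp hQ2
    rw [h6, hm] at h2
    rw [← h2] at h1
    have hnd : ¬ 2 ∣ orderOf k := fun hd => by
      have := Nat.odd_iff.mp hkodd
      omega
    have hcop : Nat.Coprime (orderOf k) (2 ^ m) :=
      Nat.Coprime.pow_right m ((Nat.prime_two.coprime_iff_not_dvd.mpr hnd).symm)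
    have h3 : orderOf k ∣ 6 := hcop.dvd_of_dvd_mul_right h1
    have key : ∀ o : ℕ, o ∣ 6 → Odd o → o ∣ 3 := by
      intro o ho hodd
      have h4 : o ≤ 6 := Nat.le_of_dvd (by norm_num) ho
      have h5 : o % 2 = 1 := Nat.odd_iff.mp hodd
      interval_cases o <;> omega
    exact orderOf_dvd_iff_pow_eq_one.mp (key _ h3 hkodd)
  -- `J(T')` is not inside `Q`
  obtain ⟨A, hAmax, a₀, ha₀A, ha₀Q⟩ : ∃ A ∈ maxElementaryAbelianSubgroups 2 ↥T',
      ∃ x ∈ A, (x : G) ∉ pCoreOf 2 (K' ⊔ T') := by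
    by_contra hc
    have hJQ : thompsonSubgroupOf 2 T' ≤ pCoreOf 2 (K' ⊔ T') := by
      unfold thompsonSubgroupOf thompsonSubgroup
      rw [Subgroup.map_le_iff_le_comap]
      apply sSup_le
      intro A hA x hx
      by_contra hxQ
      exact hc ⟨A, hA, x, hx, hxQ⟩
    apply hKL
    have hKQ : ⁅K', thompsonSubgroupOf 2 T'⁆ ≤ pCoreOf 2 (K' ⊔ T') := by
      rw [Subgroup.commutator_le]
      intro g₁ hg₁ g₂ hg₂
      have h1 : g₁ * g₂ * g₁⁻¹ ∈ pCoreOf 2 (K' ⊔ T') :=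
        (Subgroup.mem_normalizer_iff.mp (hPN (hKP hg₁)) g₂).mp (hJQ hg₂)
      rw [commutatorElement_def]
      exact Subgroup.mul_mem _ h1 (Subgroup.inv_mem _ (hJQ hg₂))
    exact (le_of_eq_of_le hKJ.symm hKQ).trans (hQT.trans hTL)
  have hAT : A.map T'.subtype ≤ T' := Subgroup.map_subtype_le A
  have hAe : ∀ x ∈ A.map T'.subtype, x * x = 1 := by
    rintro _ ⟨y, hy, rfl⟩
    have h1 := hAmax.1.2 y hy
    have h2 := congrArg (Subtype.val) h1
    simpa [pow_two] using h2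
  have hmax : ∀ B : Subgroup G, B ≤ T' → (∀ x ∈ B, x * x = 1) →
      Nat.card ↥B ≤ Nat.card ↥(A.map T'.subtype) := by
    intro B hBT hBe
    have hBel : IsElementaryAbelian 2 (B.subgroupOf T') := by
      refine ⟨⟨⟨?_⟩⟩, ?_⟩
      · rintro ⟨x, hx⟩ ⟨y, hy⟩
        apply Subtype.ext
        apply Subtype.ext
        show (x : G) * (y : G) = (y : G) * (x : G)
        have hx' : (x : G) ∈ B := Subgroup.mem_subgroupOf.mp hx
        have hy' : (y : G) ∈ B := Subgroup.mem_subgroupOf.mp hy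
        have h1 := hBe _ hx'
        have h2 := hBe _ hy'
        have h3 := hBe _ (B.mul_mem hx' hy')
        calc (x : G) * y = (x : G) * (((x : G) * y) * ((x : G) * y)) * y := by rw [h3, mul_one]
          _ = ((x : G) * x) * ((y : G) * x) * ((y : G) * y) := by group
          _ = (y : G) * x := by rw [h1, h2, one_mul, mul_one]
      · intro b hb
        apply Subtype.ext
        have hb' : (b : G) ∈ B := Subgroup.mem_subgroupOf.mp hb
        have := hBe _ hb'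
        simpa [pow_two] using this
    have h1 := hAmax.2 (B.subgroupOf T') hBel
    have h2 : Nat.card ↥(B.subgroupOf T') = Nat.card ↥B :=
      Nat.card_congr (Subgroup.subgroupOfEquivOfLe hBT).toEquiv
    have h3 : Nat.card ↥A = Nat.card ↥(A.map T'.subtype) :=
      Nat.card_congr (A.equivMapOfInjective T'.subtype (Subgroup.subtype_injective T')).toEquiv
    omega
  have haA : (a₀ : G) ∈ A.map T'.subtype := ⟨a₀, ha₀A, rfl⟩
  have haT : (a₀ : G) ∈ T' := a₀.2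
  have hak : (a₀ : G) * k * (a₀ : G)⁻¹ * k ∈ pCoreOf 2 (K' ⊔ T') :=
    inv_mod (K' ⊔ T') (pCoreOf 2 (K' ⊔ T')) hQP hPN h6 hnc (a₀ : G) k (hTP haT) (hKP hkK)
      (by rw [hAe _ haA]; exact Subgroup.one_mem _) ha₀Q hk3
  have hidx2 : (pCoreOf 2 (K' ⊔ T')).relIndex T' = 2 := by
    have h1 := Subgroup.relIndex_mul_relIndex (H := pCoreOf 2 (K' ⊔ T')) (K := T') (L := K' ⊔ T') hQT hTP
    rw [h6] at h1
    have hodd : Odd (T'.relIndex (K' ⊔ T')) := hSyl.2.2
    have hT2 : IsPGroup 2 ↥T' := hSyl.2.1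
    obtain ⟨n, hn⟩ := (IsPGroup.iff_card).mp hT2
    have hdvd : (pCoreOf 2 (K' ⊔ T')).relIndex T' ∣ 2 ^ n := by
      rw [← hn]; exact Subgroup.relIndex_dvd_card (H := pCoreOf 2 (K' ⊔ T')) (K := T')
    have key : ∀ r s : ℕ, r * s = 6 → Odd s → r ∣ 2 ^ n → r = 2 := by
      intro r s hrs hs hr
      have hr6 : r ∣ 6 := ⟨s, hrs.symm⟩
      have hr6' : r ≤ 6 := Nat.le_of_dvd (by norm_num) hr6
      have hs2 := Nat.odd_iff.mp hs
      have h3 : ¬ 3 ∣ 2 ^ n := fun h => by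
        have := Nat.Prime.dvd_of_dvd_pow Nat.prime_three h
        omega
      interval_cases r
      · omega
      · omega
      · rfl
      · exact (h3 hr).elim
      · omega
      · omega
      · exact (h3 (Dvd.dvd.trans ⟨2, rfl⟩ hr)).elim
    exact key _ _ h1 hodd hdvd
  have hTQ : ∀ t ∈ A.map T'.subtype, t ∈ pCoreOf 2 (K' ⊔ T') ∨ t * (a₀ : G) ∈ pCoreOf 2 (K' ⊔ T') := by
    intro t ht
    by_cases htQ : t ∈ pCoreOf 2 (K' ⊔ T')
    · exact Or.inl htQ
    · right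
      have hi : ((pCoreOf 2 (K' ⊔ T')).subgroupOf T').index = 2 := hidx2
      have h1 := Subgroup.mul_mem_iff_of_index_two hi (a := (⟨t, hAT ht⟩ : ↥T'))
        (b := (⟨(a₀ : G), haT⟩ : ↥T'))
      rw [Subgroup.mem_subgroupOf, Subgroup.mem_subgroupOf, Subgroup.mem_subgroupOf] at h1
      exact h1.mpr ⟨fun h => (htQ h).elim, fun h => (ha₀Q h).elim⟩
  exact caseA T' (pCoreOf 2 (K' ⊔ T')) (omegaCenterOf (pCoreOf 2 L)) (A.map T'.subtype) k (a₀ : G)
    hQT hVQ hV4 hVe (fun g hg => by rw [hNV]; exact hTI g hg) (hQT.trans hTNV) (hPN (hKP hkK)) hk3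
    (fun h => hkL (by rw [hNV] at h; exact h)) hAT hAe hmax haA (hTNV haT) hak hTQ

end Cfsg.Agent.H82.Jv
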