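import Mathlib
import Cfsg.Agent.H52.JxDefs
import Cfsg.Agent.H82.JvKA
import Cfsg.Agent.H71.JyGoodA
import Cfsg.Agent.H59.JyGoodB

/-!
# S2953, KILL2, case (a): `ka : StKA` (exact Prop of `H52/JxDefs.lean`), hypothesis-free

`V = Ω₁Z(O₂(L)) ≤ O₂(K' ⊔ T')` is impossible in the residual situation `RCtx2`.
-/

set_option autoImplicit false
open Cfsg

universe u

namespace Cfsg.Agent.H82.Jv

/-- KA with GOODB as a hypothesis (GOODA from `H71.Jy.goodA`). -/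
theorem ka_ofB (hGB : Cfsg.Agent.H64.Jy.StGoodB.{u}) : Cfsg.Agent.H52.Jx.StKA.{u} :=
  fun S M K L T' K' L' hR hVQ =>
    ka_of Cfsg.Agent.H71.Jy.goodA hGB S M K L T' K' L' hR hVQ

/-- KA, hypothesis-free. -/
theorem ka : Cfsg.Agent.H52.Jx.StKA.{u} := ka_ofB Cfsg.Agent.H59.Jy.goodB

example : (∀ {G : Type u} [Group G] [Finite G] (S : Sylow 2 G) (M K L T' K' L' : Subgroup G),
    Cfsg.Agent.H64.Jy.RCtx2 S M K L T' K' L' →
    omegaCenterOf (pCoreOf 2 L) ≤ pCoreOf 2 (K' ⊔ T') → False) := ka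

end Cfsg.Agent.H82.Jv
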