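import Cfsg.Agent.H82.JxDefs

/-! JX-CNT (helper82): the counting argument for `|W_K| ≤ 4`. -/

set_option autoImplicit false
open Cfsg

namespace Cfsg.Agent.H82.Jx

universe u

theorem cnt_card_mul_relIndex {G : Type u} [Group G] {H K : Subgroup G} (h : H ≤ K) :
    Nat.card ↥H * H.relIndex K = Nat.card ↥K := by
  have h1 := Subgroup.card_mul_index (H.subgroupOf K)
  have h2 : Nat.card ↥(H.subgroupOf K) = Nat.card ↥H :=
    Nat.card_congr (Subgroup.subgroupOfEquivOfLe h).toEquiv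
  rw [h2] at h1
  exact h1

theorem cnt_card_mul_le {G : Type u} [Group G] [Finite G] (Y B : Subgroup G) :
    Nat.card ↥Y * Nat.card ↥B ≤ Nat.card ↥(Y ⊔ B) * Nat.card ↥(Y ⊓ B) := by
  have h1 : Nat.card ↥(Y ⊓ B) * (Y ⊓ B).relIndex Y = Nat.card ↥Y :=
    cnt_card_mul_relIndex inf_le_left
  rw [Subgroup.inf_relIndex_left] at h1
  have h2 : Nat.card ↥B * B.relIndex (Y ⊔ B) = Nat.card ↥(Y ⊔ B) :=
    cnt_card_mul_relIndex le_sup_right
  have h3 : B.relIndex Y ≤ B.relIndex (Y ⊔ B) :=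
    Subgroup.relIndex_le_of_le_right le_sup_left (by
      intro h0
      rw [h0, mul_zero] at h2
      exact (Nat.card_pos (α := ↥(Y ⊔ B))).ne' h2.symm)
  calc Nat.card ↥Y * Nat.card ↥B = Nat.card ↥(Y ⊓ B) * B.relIndex Y * Nat.card ↥B := by rw [h1]
    _ ≤ Nat.card ↥(Y ⊓ B) * B.relIndex (Y ⊔ B) * Nat.card ↥B :=
        Nat.mul_le_mul_right _ (Nat.mul_le_mul_left _ h3)
    _ = Nat.card ↥(Y ⊔ B) * Nat.card ↥(Y ⊓ B) := by rw [← h2]; ring

theorem cnt_elemAb_sup {G : Type u} [Group G] (Y B : Subgroup G)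
    (hYc : ∀ u ∈ Y, ∀ v ∈ Y, u * v = v * u) (hY2 : ∀ u ∈ Y, u * u = 1)
    (hBc : ∀ u ∈ B, ∀ v ∈ B, u * v = v * u) (hB2 : ∀ u ∈ B, u * u = 1)
    (hYB : ∀ u ∈ Y, ∀ v ∈ B, u * v = v * u) : IsElementaryAbelian 2 (Y ⊔ B) := by
  have h1 : Y ⊔ B ≤ Subgroup.centralizer ((Y : Set G) ∪ (B : Set G)) := by
    apply sup_le
    · intro y hy
      rw [Subgroup.mem_centralizer_iff]
      rintro s (hs | hs)
      · exact hYc s hs y hy
      · exact (hYB y hy s hs).symm
    · intro b hb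
      rw [Subgroup.mem_centralizer_iff]
      rintro s (hs | hs)
      · exact hYB s hs b hb
      · exact hBc s hs b hb
  have h2 : ∀ g ∈ Y ⊔ B, ∀ h ∈ Y ⊔ B, g * h = h * g := by
    intro g hg h hh
    have hg' := h1 hg
    rw [Subgroup.mem_centralizer_iff] at hg'
    have h3 : Y ⊔ B ≤ Subgroup.centralizer ({g} : Set G) := by
      apply sup_le
      · intro y hy
        rw [Subgroup.mem_centralizer_iff]
        intro s hs
        rw [Set.mem_singleton_iff] at hs
        subst hs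
        exact (hg' y (Or.inl hy)).symm
      · intro b hb
        rw [Subgroup.mem_centralizer_iff]
        intro s hs
        rw [Set.mem_singleton_iff] at hs
        subst hs
        exact (hg' b (Or.inr hb)).symm
    have := h3 hh
    rw [Subgroup.mem_centralizer_iff] at this
    exact this g rfl
  refine ⟨⟨⟨fun u v => Subtype.ext (h2 u.1 u.2 v.1 v.2)⟩⟩, ?_⟩
  intro g hg
  have h4 : Y ⊔ B ≤ (Y ⊔ B) ⊓ Subgroup.centralizer ((Y : Set G) ∪ (B : Set G)) := le_inf le_rfl h1
  -- squares: closure induction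
  have h5 : ∀ g ∈ Y ⊔ B, g * g = 1 := by
    intro g hg
    rw [Subgroup.sup_eq_closure] at hg
    induction hg using Subgroup.closure_induction with
    | mem s hs =>
      rcases hs with hs | hs
      · exact hY2 s hs
      · exact hB2 s hs
    | one => simp
    | mul s t hs ht ihs iht =>
      have hs' : s ∈ Y ⊔ B := by rw [Subgroup.sup_eq_closure]; exact hs
      have ht' : t ∈ Y ⊔ B := by rw [Subgroup.sup_eq_closure]; exact ht
      have hc := h2 s hs' t ht'
      calc s * t * (s * t) = s * (t * s) * t := by group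
        _ = s * (s * t) * t := by rw [hc]
        _ = (s * s) * (t * t) := by group
        _ = 1 := by rw [ihs, iht, mul_one]
    | inv s hs ihs =>
      have : s⁻¹ * s⁻¹ = (s * s)⁻¹ := by group
      rw [this, ihs, inv_one]
  rw [pow_two]
  exact h5 g hg

theorem cnt (hSq : StSq.{u}) (hFun : StFun.{u}) : StCnt.{u} := by
  intro G _ _ T Q A W a x hQT hAT hAel hAmax haA hidx F
  have hAc : ∀ u ∈ A, ∀ v ∈ A, u * v = v * u := by
    intro u hu v hv
    have := hAel.1.is_comm.comm (⟨u, hu⟩ : ↥A) ⟨v, hv⟩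
    exact congrArg Subtype.val this
  have hA2 : ∀ u ∈ A, u * u = 1 := by
    intro u hu
    have := hAel.2 u hu
    rwa [pow_two] at this
  have haa : a * a = 1 := hA2 a haA
  have hainv : a⁻¹ = a := inv_eq_of_mul_eq_one_left haa
  have hA0A : A ⊓ Q ≤ A := inf_le_left
  have hWT : W ≤ T := F.hWQ.trans hQT
  -- Y
  have hYW : W ⊓ Subgroup.centralizer ((A ⊓ Q : Subgroup G) : Set G) ≤ W := inf_le_left
  have hYcomm : ∀ y ∈ W ⊓ Subgroup.centralizer ((A ⊓ Q : Subgroup G) : Set G), ∀ b ∈ A ⊓ Q,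
      b * y = y * b := by
    intro y hy b hb
    exact (Subgroup.mem_centralizer_iff.mp hy.2) b hb
  have haY : ∀ y ∈ W ⊓ Subgroup.centralizer ((A ⊓ Q : Subgroup G) : Set G),
      a * y * a⁻¹ ∈ W ⊓ Subgroup.centralizer ((A ⊓ Q : Subgroup G) : Set G) := by
    intro y hy
    refine Subgroup.mem_inf.mpr ⟨F.haW y hy.1, ?_⟩
    rw [Subgroup.mem_centralizer_iff]
    intro b hb
    have h1 := hYcomm y hy b hb
    have h2 := hAc b (hA0A hb) a haA
    rw [hainv]
    calc b * (a * y * a) = (b * a) * y * a := by group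
      _ = (a * b) * y * a := by rw [h2]
      _ = a * (b * y) * a := by group
      _ = a * (y * b) * a := by rw [h1]
      _ = a * y * (b * a) := by group
      _ = a * y * (a * b) := by rw [h2]
      _ = a * y * a * b := by group
  have hxY : ∀ y ∈ W ⊓ Subgroup.centralizer ((A ⊓ Q : Subgroup G) : Set G),
      x * y * x⁻¹ ∈ W ⊓ Subgroup.centralizer ((A ⊓ Q : Subgroup G) : Set G) := by
    intro y hy
    refine Subgroup.mem_inf.mpr ⟨F.hxW y hy.1, ?_⟩
    rw [Subgroup.mem_centralizer_iff]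
    intro b hb
    have h1 := hYcomm y hy b hb
    have h2 := F.hbx b hb y hy.1
    have h3 : b * y * b⁻¹ = y := by rw [h1]; group
    rw [h3] at h2
    calc b * (x * y * x⁻¹) = b * (x * y * x⁻¹) * b⁻¹ * b := by group
      _ = x * y * x⁻¹ * b := by rw [h2]
  have hSqY := hSq (W ⊓ Subgroup.centralizer ((A ⊓ Q : Subgroup G) : Set G)) a x
    (fun y hy z hz => F.hWc y hy.1 z hz.1) (fun y hy => F.hW2 y hy.1) haY hxY
    (fun y _ => by rw [hainv]; calc a * (a * y * a) * a = (a * a) * y * (a * a) := by group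
                                  _ = y := by rw [haa]; group)
    (fun y hy => F.hx3 y hy.1) (fun y hy => F.hax y hy.1) (fun y hy => F.hxf y hy.1)
  have hSqW := hSq W a x F.hWc F.hW2 F.haW F.hxW
    (fun y _ => by rw [hainv]; calc a * (a * y * a) * a = (a * a) * y * (a * a) := by group
                                  _ = y := by rw [haa]; group)
    F.hx3 F.hax F.hxf
  -- d := card (Y ⊓ C(a)) ≤ 2
  have hA0pos : 0 < Nat.card ↥(A ⊓ Q) := Nat.card_pos
  have hE1 : IsElementaryAbelian 2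
      ((W ⊓ Subgroup.centralizer ((A ⊓ Q : Subgroup G) : Set G)) ⊔ (A ⊓ Q)) :=
    cnt_elemAb_sup _ _ (fun y hy z hz => F.hWc y hy.1 z hz.1) (fun y hy => F.hW2 y hy.1)
      (fun u hu v hv => hAc u (hA0A hu) v (hA0A hv)) (fun u hu => hA2 u (hA0A hu))
      (fun y hy b hb => (hYcomm y hy b hb).symm)
  have hE1T : (W ⊓ Subgroup.centralizer ((A ⊓ Q : Subgroup G) : Set G)) ⊔ (A ⊓ Q) ≤ T :=
    sup_le (hYW.trans hWT) (hA0A.trans hAT)
  have hE1c := hAmax _ hE1T hE1
  have hm1 := cnt_card_mul_le (W ⊓ Subgroup.centralizer ((A ⊓ Q : Subgroup G) : Set G)) (A ⊓ Q)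
  have hYA0 : (W ⊓ Subgroup.centralizer ((A ⊓ Q : Subgroup G) : Set G)) ⊓ (A ⊓ Q) ≤
      (W ⊓ Subgroup.centralizer ((A ⊓ Q : Subgroup G) : Set G)) ⊓
        Subgroup.centralizer ({a} : Set G) := by
    intro g hg
    refine Subgroup.mem_inf.mpr ⟨hg.1, ?_⟩
    rw [Subgroup.mem_centralizer_iff]
    intro s hs
    rw [Set.mem_singleton_iff] at hs
    subst hs
    exact hAc s haA g (hA0A hg.2)
  have hd1 := Subgroup.card_le_of_le hYA0
  have hd : Nat.card ↥((W ⊓ Subgroup.centralizer ((A ⊓ Q : Subgroup G) : Set G)) ⊓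
        Subgroup.centralizer ({a} : Set G)) ≤ 2 := by
    have h1 : Nat.card ↥(W ⊓ Subgroup.centralizer ((A ⊓ Q : Subgroup G) : Set G)) *
        Nat.card ↥(A ⊓ Q) ≤ 2 * Nat.card ↥(A ⊓ Q) *
          Nat.card ↥((W ⊓ Subgroup.centralizer ((A ⊓ Q : Subgroup G) : Set G)) ⊓
            Subgroup.centralizer ({a} : Set G)) :=
      calc _ ≤ _ := hm1
        _ ≤ Nat.card ↥A * Nat.card ↥((W ⊓ Subgroup.centralizer ((A ⊓ Q : Subgroup G) : Set G)) ⊓
            Subgroup.centralizer ({a} : Set G)) := Nat.mul_le_mul hE1c hd1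
        _ ≤ _ := Nat.mul_le_mul_right _ hidx
    rw [hSqY.1] at h1
    have hdpos : 0 < Nat.card ↥((W ⊓ Subgroup.centralizer ((A ⊓ Q : Subgroup G) : Set G)) ⊓
        Subgroup.centralizer ({a} : Set G)) := Nat.card_pos
    generalize Nat.card ↥((W ⊓ Subgroup.centralizer ((A ⊓ Q : Subgroup G) : Set G)) ⊓
        Subgroup.centralizer ({a} : Set G)) = d at h1 hdpos ⊢
    generalize Nat.card ↥(A ⊓ Q) = n at h1 hA0pos
    have h2 : d * (d * n) ≤ 2 * (d * n) := by
      calc d * (d * n) = d ^ 2 * n := by ring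
        _ ≤ 2 * n * d := h1
        _ = 2 * (d * n) := by ring
    exact Nat.le_of_mul_le_mul_right h2 (Nat.mul_pos hdpos hA0pos)
  -- W ⊓ A small
  have hWA : W ⊓ A ≤ (W ⊓ Subgroup.centralizer ((A ⊓ Q : Subgroup G) : Set G)) ⊓
        Subgroup.centralizer ({a} : Set G) := by
    intro g hg
    refine Subgroup.mem_inf.mpr ⟨Subgroup.mem_inf.mpr ⟨hg.1, ?_⟩, ?_⟩
    · rw [Subgroup.mem_centralizer_iff]
      intro b hb
      exact hAc b (hA0A hb) g hg.2
    · rw [Subgroup.mem_centralizer_iff]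
      intro s hs
      rw [Set.mem_singleton_iff] at hs
      subst hs
      exact hAc s haA g hg.2
  -- E2
  have hE2 : IsElementaryAbelian 2 (W ⊔ (A ⊓ Subgroup.centralizer (W : Set G))) :=
    cnt_elemAb_sup _ _ F.hWc F.hW2
      (fun u hu v hv => hAc u hu.1 v hv.1) (fun u hu => hA2 u hu.1)
      (fun w hw c hc => (Subgroup.mem_centralizer_iff.mp hc.2) w hw)
  have hE2T : W ⊔ (A ⊓ Subgroup.centralizer (W : Set G)) ≤ T :=
    sup_le hWT (inf_le_left.trans hAT)
  have hE2c := hAmax _ hE2T hE2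
  have hm2 := cnt_card_mul_le W (A ⊓ Subgroup.centralizer (W : Set G))
  have hWCA : W ⊓ (A ⊓ Subgroup.centralizer (W : Set G)) ≤ W ⊓ A :=
    inf_le_inf_left _ inf_le_left
  have hd2 : Nat.card ↥(W ⊓ (A ⊓ Subgroup.centralizer (W : Set G))) ≤ 2 :=
    (Subgroup.card_le_of_le (hWCA.trans hWA)).trans hd
  -- (I): card W * card CA ≤ 2 * card A
  have hI : Nat.card ↥W * Nat.card ↥(A ⊓ Subgroup.centralizer (W : Set G)) ≤ 2 * Nat.card ↥A :=
    calc _ ≤ _ := hm2
      _ ≤ Nat.card ↥A * 2 := Nat.mul_le_mul hE2c hd2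
      _ = _ := by ring
  -- (II): card W ≤ 4 r
  have hc0 : Nat.card ↥((A ⊓ Q) ⊓ Subgroup.centralizer (W : Set G)) ≤
      Nat.card ↥(A ⊓ Subgroup.centralizer (W : Set G)) :=
    Subgroup.card_le_of_le (inf_le_inf_right _ hA0A)
  have hr := cnt_card_mul_relIndex
    (inf_le_left : (A ⊓ Q) ⊓ Subgroup.centralizer (W : Set G) ≤ A ⊓ Q)
  have hc0pos : 0 < Nat.card ↥((A ⊓ Q) ⊓ Subgroup.centralizer (W : Set G)) := Nat.card_pos
  have hII : Nat.card ↥W ≤ 4 * ((A ⊓ Q) ⊓ Subgroup.centralizer (W : Set G)).relIndex (A ⊓ Q) := by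
    have h1 : Nat.card ↥W * Nat.card ↥((A ⊓ Q) ⊓ Subgroup.centralizer (W : Set G)) ≤
        4 * (Nat.card ↥((A ⊓ Q) ⊓ Subgroup.centralizer (W : Set G)) *
          ((A ⊓ Q) ⊓ Subgroup.centralizer (W : Set G)).relIndex (A ⊓ Q)) := by
      rw [hr]
      calc _ ≤ Nat.card ↥W * Nat.card ↥(A ⊓ Subgroup.centralizer (W : Set G)) :=
            Nat.mul_le_mul_left _ hc0
        _ ≤ 2 * Nat.card ↥A := hI
        _ ≤ 2 * (2 * Nat.card ↥(A ⊓ Q)) := Nat.mul_le_mul_left _ hidx
        _ = _ := by ring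
    have h2 : Nat.card ↥W * Nat.card ↥((A ⊓ Q) ⊓ Subgroup.centralizer (W : Set G)) ≤
        (4 * ((A ⊓ Q) ⊓ Subgroup.centralizer (W : Set G)).relIndex (A ⊓ Q)) *
          Nat.card ↥((A ⊓ Q) ⊓ Subgroup.centralizer (W : Set G)) := by
      calc _ ≤ _ := h1
        _ = _ := by ring
    exact Nat.le_of_mul_le_mul_right h2 hc0pos
  -- case split on U⁺
  by_cases hU : W ⊓ Subgroup.centralizer ({a} : Set G) = ⊥
  · left
    have h1 : Nat.card ↥(W ⊓ Subgroup.centralizer ({a} : Set G)) = 1 := by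
      rw [hU]; exact Subgroup.card_bot
    have h2 : Nat.card ↥W = 1 := by rw [hSqW.1, h1]; norm_num
    exact (Subgroup.card_eq_one).mp h2
  · right
    have hUW : W ⊓ Subgroup.centralizer ({a} : Set G) ≤ W := inf_le_left
    have hfun := hFun (A ⊓ Q) (W ⊓ Subgroup.centralizer ({a} : Set G))
      (fun u hu v hv => hAc u (hA0A hu) v (hA0A hv))
      (by
        intro g
        refine ⟨1, ?_⟩
        apply Subtype.ext
        have := hA2 g.1 (hA0A g.2)
        simp [pow_two, this])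
      (fun u hu v hv => F.hWc u hu.1 v hv.1) (fun u hu => F.hW2 u hu.1)
      (by
        intro b hb u hu
        refine Subgroup.mem_inf.mpr ⟨F.hbW b hb u hu.1, ?_⟩
        rw [Subgroup.mem_centralizer_iff]
        intro s hs
        rw [Set.mem_singleton_iff] at hs
        subst hs
        have h1 : s * u = u * s := (Subgroup.mem_centralizer_iff.mp hu.2) s rfl
        have h2 := hAc b (hA0A hb) s haA
        have h3 : s * b⁻¹ = b⁻¹ * s := by
          calc s * b⁻¹ = b⁻¹ * (b * s) * b⁻¹ := by group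
            _ = b⁻¹ * (s * b) * b⁻¹ := by rw [h2]
            _ = b⁻¹ * s := by group
        calc s * (b * u * b⁻¹) = (s * b) * u * b⁻¹ := by group
          _ = (b * s) * u * b⁻¹ := by rw [h2]
          _ = b * (s * u) * b⁻¹ := by group
          _ = b * (u * s) * b⁻¹ := by rw [h1]
          _ = b * u * (s * b⁻¹) := by group
          _ = b * u * (b⁻¹ * s) := by rw [h3]
          _ = b * u * b⁻¹ * s := by group)
      (by
        refine (Subgroup.card_le_of_le ?_).trans hd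
        intro g hg
        exact Subgroup.mem_inf.mpr ⟨Subgroup.mem_inf.mpr ⟨hg.1.1, hg.2⟩, hg.1.2⟩)
      hU
    -- kernel comparison
    have hker : (A ⊓ Q) ⊓ Subgroup.centralizer
        ((W ⊓ Subgroup.centralizer ({a} : Set G) : Subgroup G) : Set G) ≤
        (A ⊓ Q) ⊓ Subgroup.centralizer (W : Set G) := by
      intro b hb
      refine Subgroup.mem_inf.mpr ⟨hb.1, ?_⟩
      rw [Subgroup.mem_centralizer_iff]
      intro w hw
      obtain ⟨u, hu, v, hv, rfl⟩ := hSqW.2 w hw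
      have hbu : u * b = b * u := (Subgroup.mem_centralizer_iff.mp hb.2) u hu
      have hbv : v * b = b * v := (Subgroup.mem_centralizer_iff.mp hb.2) v hv
      have h2 := F.hbx b hb.1 v hv.1
      have h3 : b * v * b⁻¹ = v := by rw [← hbv]; group
      rw [h3] at h2
      have h4 : b * (x * v * x⁻¹) = x * v * x⁻¹ * b := by
        calc b * (x * v * x⁻¹) = b * (x * v * x⁻¹) * b⁻¹ * b := by group
          _ = x * v * x⁻¹ * b := by rw [h2]
      calc u * (x * v * x⁻¹) * b = u * (x * v * x⁻¹ * b) := by group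
        _ = u * (b * (x * v * x⁻¹)) := by rw [h4]
        _ = (u * b) * (x * v * x⁻¹) := by group
        _ = (b * u) * (x * v * x⁻¹) := by rw [hbu]
        _ = b * (u * (x * v * x⁻¹)) := by group
    have hrne : ((A ⊓ Q) ⊓ Subgroup.centralizer
        ((W ⊓ Subgroup.centralizer ({a} : Set G) : Subgroup G) : Set G)).relIndex (A ⊓ Q) ≠ 0 := by
      intro h0
      have := cnt_card_mul_relIndex (inf_le_left : (A ⊓ Q) ⊓ Subgroup.centralizer
        ((W ⊓ Subgroup.centralizer ({a} : Set G) : Subgroup G) : Set G) ≤ A ⊓ Q)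
      rw [h0, mul_zero] at this
      exact hA0pos.ne' this.symm
    have hrle := Subgroup.relIndex_le_of_le_left hker hrne
    -- combine
    have hUpos : 0 < Nat.card ↥(W ⊓ Subgroup.centralizer ({a} : Set G)) := Nat.card_pos
    have hU2 : Nat.card ↥(W ⊓ Subgroup.centralizer ({a} : Set G)) ≤ 2 := by
      have h1 : Nat.card ↥(W ⊓ Subgroup.centralizer ({a} : Set G)) ^ 2 ≤
          2 * Nat.card ↥(W ⊓ Subgroup.centralizer ({a} : Set G)) := by
        rw [← hSqW.1]
        calc Nat.card ↥W ≤ 4 * ((A ⊓ Q) ⊓ Subgroup.centralizer (W : Set G)).relIndex (A ⊓ Q) := hII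
          _ ≤ 4 * ((A ⊓ Q) ⊓ Subgroup.centralizer
            ((W ⊓ Subgroup.centralizer ({a} : Set G) : Subgroup G) : Set G)).relIndex (A ⊓ Q) :=
              Nat.mul_le_mul_left _ hrle
          _ = 2 * (2 * ((A ⊓ Q) ⊓ Subgroup.centralizer
            ((W ⊓ Subgroup.centralizer ({a} : Set G) : Subgroup G) : Set G)).relIndex (A ⊓ Q)) := by
              ring
          _ ≤ _ := Nat.mul_le_mul_left _ hfun
      generalize Nat.card ↥(W ⊓ Subgroup.centralizer ({a} : Set G)) = e at h1 hUpos ⊢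
      have h2 : e * e ≤ 2 * e := by
        calc e * e = e ^ 2 := by ring
          _ ≤ 2 * e := h1
      exact Nat.le_of_mul_le_mul_right h2 hUpos
    have hU1 : Nat.card ↥(W ⊓ Subgroup.centralizer ({a} : Set G)) ≠ 1 := by
      intro h1
      exact hU ((Subgroup.card_eq_one).mp h1)
    have hU3 : Nat.card ↥(W ⊓ Subgroup.centralizer ({a} : Set G)) = 2 := by omega
    rw [hSqW.1, hU3]
    norm_num

example (hSq : StSq.{u}) (hFun : StFun.{u}) : StCnt.{u} := cnt hSq hFun

end Cfsg.Agent.H82.Jx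

#print axioms Cfsg.Agent.H82.Jx.cnt
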