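import Cfsg.Agent.H90.NSLam
import Cfsg.Agent.H86.FusSat
import Cfsg.Agent.H86.FusNormal
import Cfsg.Agent.H40.Resid

set_option autoImplicit false

/-!
Piece A12 of the team project S5121 (helper90): every map of `E` on `R` is induced by an element
of `H = K T`.
-/

namespace Cfsg.Agent.H82.NS

open Cfsg Cfsg.FusionSystem Cfsg.Agent.H86 Cfsg.Agent.H90.NS

universe u

variable {G : Type u} [Group G]

/-- An element of order prime to `p` with `Λ` satisfies `[Q, m] ≤ R`. -/
lemma qr_of_lam_coprime [Finite G] {p : ℕ} [Fact p.Prime] {S T : Subgroup G}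
    (hRn : (rSub p T).Normal) {m : G} (hm : Lam p S T m) (hord : (orderOf m).Coprime p) :
    QR p T m := by
  classical
  have hQp : IsPGroup p (pCore p G) := pCore_isPGroup p G
  have hWp : IsPGroup p (wSub p S T) := hQp.to_le (wSub_le_pCore p S T)
  obtain ⟨k, hk⟩ := IsPGroup.iff_card.mp hWp
  have hWexp : ∀ w ∈ wSub p S T, w ^ (p ^ k) = 1 := by
    intro w hw
    have := pow_card_eq_one' (G := wSub p S T) (x := ⟨w, hw⟩)
    rw [hk] at this
    simpa using congrArg Subtype.val this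
  haveI := hRn
  let π := QuotientGroup.mk' (rSub p T)
  have hπ : ∀ x : G, π x = 1 ↔ x ∈ rSub p T := fun x => QuotientGroup.eq_one_iff x
  have key : ∀ q ∈ pCore p G, ∀ i : ℕ,
      π (m ^ i) * π q * (π (m ^ i))⁻¹ = π q * (π (q⁻¹ * (m * q * m⁻¹))) ^ i := by
    intro q hq i
    have hw : q⁻¹ * (m * q * m⁻¹) ∈ wSub p S T := hm.1 q hq
    have hc : π m * π (q⁻¹ * (m * q * m⁻¹)) * (π m)⁻¹ = π (q⁻¹ * (m * q * m⁻¹)) := by
      have h := hm.2 _ hw
      have h' := (hπ _).2 h
      rw [map_mul, map_inv, map_mul, map_mul, map_inv] at h'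
      exact (inv_mul_eq_one.mp h').symm
    have hb : π m * π q * (π m)⁻¹ = π q * π (q⁻¹ * (m * q * m⁻¹)) := by
      simp only [map_mul, map_inv]
      group
    induction i with
    | zero => simp
    | succ i ih =>
      have e1 : π (m ^ (i + 1)) = π m * π (m ^ i) := by rw [pow_succ', map_mul]
      rw [e1]
      calc π m * π (m ^ i) * π q * (π m * π (m ^ i))⁻¹
          = π m * (π (m ^ i) * π q * (π (m ^ i))⁻¹) * (π m)⁻¹ := by group
        _ = π m * (π q * (π (q⁻¹ * (m * q * m⁻¹))) ^ i) * (π m)⁻¹ := by rw [ih]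
        _ = (π m * π q * (π m)⁻¹) * (π m * (π (q⁻¹ * (m * q * m⁻¹))) * (π m)⁻¹) ^ i := by
            rw [conj_pow]; group
        _ = (π m * π q * (π m)⁻¹) * (π (q⁻¹ * (m * q * m⁻¹))) ^ i := by rw [hc]
        _ = π q * (π (q⁻¹ * (m * q * m⁻¹))) ^ (i + 1) := by
            rw [hb, pow_succ', mul_assoc]
  have hqr : QR p T (m ^ (p ^ k)) := by
    intro q hq
    have h := key q hq (p ^ k)
    rw [← map_pow, hWexp _ (hm.1 q hq), map_one, mul_one] at h
    rw [← hπ]
    have e : π (q⁻¹ * (m ^ p ^ k * q * (m ^ p ^ k)⁻¹))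
        = (π q)⁻¹ * (π (m ^ p ^ k) * π q * (π (m ^ p ^ k))⁻¹) := by
      simp only [map_mul, map_inv]
    rw [e, h, inv_mul_cancel]
  obtain ⟨j, hj⟩ := exists_pow_eq_self_of_coprime (x := m) (n := p ^ k)
    (Nat.Coprime.pow_left k hord.symm)
  rw [← hj]
  exact qr_pow hRn hqr j

theorem a12 : Cfsg.Agent.H90.NS.A12Stmt.{u} := by
  intro G _ _ p _ S T E hyp hsc hRn hRNC hLam f hf
  classical
  obtain ⟨hC, hTS, hnorm⟩ := hyp
  have hEsat : E.IsSaturated p := hnorm.1.1
  have hTp : IsPGroup p T := S.isPGroup'.to_le hTS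
  have hRT : rSub p T ≤ T := inf_le_left
  -- `R` is weakly closed in `E`
  have hRsc : E.StronglyClosed (rSub p T) := IsNormal.stronglyClosed hRNC.1
  have hwc : ∀ g : G → G, Mor E (rSub p T) g → imgS (rSub p T) g = rSub p T := by
    intro g hg
    exact imgS_eq_of_maps hg (fun x hx => (stronglyClosed_iff.1 hRsc).2 _ g le_rfl hg x hx)
  have hRfn : E.IsFullyNormalized (rSub p T) := by
    refine ⟨hRT, fun Q' hQ' => ?_⟩
    obtain ⟨g, hg, rfl⟩ := isConj_iff.1 hQ'
    rw [hwc g hg]
  obtain ⟨-, -, Sy, hSy⟩ := saturated_fullyNormalized hTp hEsat hRfn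
  -- the automorphism given by `f`
  have himg := hwc f hf
  have hα : mkAut hf himg ∈ E.autGroup (rSub p T) := mkAut_mem hf himg
  obtain ⟨s, hs, m, hm, hsm⟩ :=
    Cfsg.Agent.H40.exists_mul_sylow_pResidual Sy ⟨mkAut hf himg, hα⟩
  -- `s` is induced by an element of `T`
  have hs' : (s : MulAut (rSub p T)) ∈ autInducedBy T (rSub p T) := by
    have h1 : s ∈ (Sy : Subgroup (E.autGroup (rSub p T))) := hs
    rw [hSy] at h1
    exact Subgroup.mem_subgroupOf.1 h1
  obtain ⟨t, ht, Ht⟩ := (mem_autInducedBy_iff T _ _).1 hs'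
  -- elements of `O^p(Aut_E(R))` are induced by elements of `K`
  have hres : ∀ m ∈ pResidual p (E.autGroup (rSub p T)), ∃ k ∈ kSub p T E,
      ∀ x : rSub p T, (((m : MulAut (rSub p T)) x : rSub p T) : G) = k * (x : G) * k⁻¹ := by
    intro m hm
    unfold pResidual at hm
    induction hm using Subgroup.closure_induction with
    | mem a ha =>
      have ha' : Nat.Coprime (orderOf a) p := ha
      have hmor : Mor E (rSub p T) (autFun (rSub p T) (a : MulAut (rSub p T))) :=
        (mem_autGroup_iff hRT _).1 a.2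
      obtain ⟨m0, hm0, Hm0⟩ := hLam _ hmor
      have H0 : ∀ x : rSub p T, (((a : MulAut (rSub p T)) x : rSub p T) : G)
          = m0 * (x : G) * m0⁻¹ := by
        intro x
        rw [← autFun_apply]
        exact Hm0 x x.2
      have Hpow : ∀ (N : ℕ) (x : rSub p T),
          ((((a : MulAut (rSub p T)) ^ N) x : rSub p T) : G) = m0 ^ N * (x : G) * (m0 ^ N)⁻¹ := by
        intro N
        induction N with
        | zero => intro x; simp
        | succ N ih =>
          intro x
          have e : ((a : MulAut (rSub p T)) ^ (N + 1)) x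
              = (a : MulAut (rSub p T)) (((a : MulAut (rSub p T)) ^ N) x) := by
            rw [pow_succ']; rfl
          rw [e, H0, ih, pow_succ']
          group
      obtain ⟨j, hj⟩ := Cfsg.Agent.H40.exists_pow_prime_pow_coprime (p := p) m0
      obtain ⟨i, hi⟩ := exists_pow_eq_self_of_coprime (x := a) (n := p ^ j)
        (Nat.Coprime.pow_left j ha'.symm)
      have hi' : (a : MulAut (rSub p T)) ^ (p ^ j * i) = (a : MulAut (rSub p T)) := by
        have := congrArg Subtype.val hi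
        rw [pow_mul]
        simpa using this
      have hLam' : Lam p (S : Subgroup G) T ((m0 ^ (p ^ j)) ^ i) :=
        lam_pow hRn (lam_pow hRn hm0 _) _
      have hord' : (orderOf ((m0 ^ (p ^ j)) ^ i)).Coprime p :=
        Nat.Coprime.coprime_dvd_left (orderOf_pow_dvd i) hj
      have hQR' : QR p T ((m0 ^ (p ^ j)) ^ i) := qr_of_lam_coprime hRn hLam' hord'
      have H' : ∀ x : rSub p T, (((a : MulAut (rSub p T)) x : rSub p T) : G)
          = (m0 ^ (p ^ j)) ^ i * (x : G) * ((m0 ^ (p ^ j)) ^ i)⁻¹ := by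
        intro x
        have := Hpow (p ^ j * i) x
        rw [hi', pow_mul] at this
        exact this
      have hmor' : Mor E (rSub p T)
          (fun x => (m0 ^ (p ^ j)) ^ i * x * ((m0 ^ (p ^ j)) ^ i)⁻¹) :=
        hmor.congr (fun x hx => by rw [autFun_of_mem _ hx, H' ⟨x, hx⟩])
      exact ⟨_, Subgroup.subset_closure ⟨⟨hQR', hmor'⟩, hord'⟩, H'⟩
    | one => exact ⟨1, Subgroup.one_mem _, fun x => by simp⟩
    | mul a b _ _ iha ihb =>
      obtain ⟨k1, hk1, H1⟩ := iha
      obtain ⟨k2, hk2, H2⟩ := ihb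
      refine ⟨k1 * k2, Subgroup.mul_mem _ hk1 hk2, fun x => ?_⟩
      show ((((a : MulAut (rSub p T)) ((b : MulAut (rSub p T)) x)) : rSub p T) : G) = _
      rw [H1, H2]
      group
    | inv a _ ih =>
      obtain ⟨k1, hk1, H1⟩ := ih
      refine ⟨k1⁻¹, Subgroup.inv_mem _ hk1, fun x => ?_⟩
      have h1 := H1 ((a : MulAut (rSub p T))⁻¹ x)
      have e : (a : MulAut (rSub p T)) ((a : MulAut (rSub p T))⁻¹ x) = x := by
        show ((a : MulAut (rSub p T)) * (a : MulAut (rSub p T))⁻¹) x = x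
        rw [mul_inv_cancel]; rfl
      rw [e] at h1
      show ((((a : MulAut (rSub p T))⁻¹ x) : rSub p T) : G) = _
      rw [h1]
      group
  obtain ⟨k, hk, Hk⟩ := hres m hm
  refine ⟨t * k, Subgroup.mul_mem _ (Subgroup.mem_sup_right ht) (Subgroup.mem_sup_left hk),
    fun x hx => ?_⟩
  have h1 : f x = ((mkAut hf himg ⟨x, hx⟩ : rSub p T) : G) := (mkAut_apply hf himg ⟨x, hx⟩).symm
  have h2 : mkAut hf himg = (s : MulAut (rSub p T)) * (m : MulAut (rSub p T)) := by
    have := congrArg Subtype.val hsm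
    simpa using this
  rw [h1, h2]
  show (((s : MulAut (rSub p T)) ((m : MulAut (rSub p T)) ⟨x, hx⟩) : rSub p T) : G) = _
  rw [Ht, Hk]
  group

end Cfsg.Agent.H82.NS
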