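import Cfsg.Agent.H90.NSDefs
import Cfsg.Agent.H86.GrpLemmas

set_option autoImplicit false

/-!
Piece A2 of the team project S5121 (helper90): the chain lemma.
-/

namespace Cfsg.Agent.H82.NS

open Cfsg Cfsg.FusionSystem Cfsg.Agent.H86 Cfsg.Agent.H90.NS

universe u

/-- The subgroup of elements acting trivially on `Q/R` and on `R`. -/
def chainSub {G : Type u} [Group G] (p : ℕ) (T : Subgroup G) (hQn : (pCore p G).Normal) :
    Subgroup G where
  carrier := {g | QR p T g ∧ ∀ r ∈ rSub p T, g * r * g⁻¹ = r}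
  one_mem' := by
    refine ⟨?_, ?_⟩
    · intro q hq
      simpa using (rSub p T).one_mem
    · intro r hr; simp
  mul_mem' := by
    rintro a b ⟨ha1, ha2⟩ ⟨hb1, hb2⟩
    refine ⟨?_, ?_⟩
    · intro q hq
      have h1 := hb1 q hq
      have h2 := ha1 q hq
      have h3 := ha2 _ h1
      have : q⁻¹ * (a * b * q * (a * b)⁻¹)
          = (q⁻¹ * (a * q * a⁻¹)) * (a * (q⁻¹ * (b * q * b⁻¹)) * a⁻¹) := by group
      rw [this, h3]
      exact (rSub p T).mul_mem h2 h1
    · intro r hr
      have : a * b * r * (a * b)⁻¹ = a * (b * r * b⁻¹) * a⁻¹ := by group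
      rw [this, hb2 r hr, ha2 r hr]
  inv_mem' := by
    rintro a ⟨ha1, ha2⟩
    refine ⟨?_, ?_⟩
    · intro q hq
      have hq' : a⁻¹ * q * a ∈ pCore p G := by
        have := hQn.conj_mem q hq a⁻¹
        simpa using this
      have h1 := ha1 _ hq'
      have : q⁻¹ * (a⁻¹ * q * a⁻¹⁻¹)
          = ((a⁻¹ * q * a)⁻¹ * (a * (a⁻¹ * q * a) * a⁻¹))⁻¹ := by group
      rw [this]
      exact (rSub p T).inv_mem h1
    · intro r hr
      have h := ha2 r hr
      calc a⁻¹ * r * a⁻¹⁻¹ = a⁻¹ * (a * r * a⁻¹) * a := by rw [h]; simp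
        _ = r := by group

theorem a2 : Cfsg.Agent.H90.NS.A2Stmt.{u} := by
  intro G _ _ p _ T hC hRn g hQR hcen
  classical
  have hQn : (pCore p G).Normal := pCore_normal p G
  have hRQ : rSub p T ≤ pCore p G := inf_le_right
  have hQp : IsPGroup p (pCore p G) := pCore_isPGroup p G
  -- normality of the chain subgroup
  have hBn : (chainSub p T hQn).Normal := by
    constructor
    rintro a ⟨ha1, ha2⟩ x
    refine ⟨?_, ?_⟩
    · intro q hq
      have hq' : x⁻¹ * q * x ∈ pCore p G := by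
        have := hQn.conj_mem q hq x⁻¹
        simpa using this
      have h1 := ha1 _ hq'
      have h2 := hRn.conj_mem _ h1 x
      have : q⁻¹ * (x * a * x⁻¹ * q * (x * a * x⁻¹)⁻¹)
          = x * ((x⁻¹ * q * x)⁻¹ * (a * (x⁻¹ * q * x) * a⁻¹)) * x⁻¹ := by group
      rw [this]
      exact h2
    · intro r hr
      have hr' : x⁻¹ * r * x ∈ rSub p T := by
        have := hRn.conj_mem r hr x⁻¹
        simpa using this
      have h1 := ha2 _ hr'
      calc x * a * x⁻¹ * r * (x * a * x⁻¹)⁻¹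
          = x * (a * (x⁻¹ * r * x) * a⁻¹) * x⁻¹ := by group
        _ = x * (x⁻¹ * r * x) * x⁻¹ := by rw [h1]
        _ = r := by group
  -- it is a p-group
  have hBp : IsPGroup p (chainSub p T hQn) := by
    rintro ⟨a, ha1, ha2⟩
    -- powers of `a` act on `Q` through powers of the `R`-part
    have hpow : ∀ (n : ℕ) (q : G), q ∈ pCore p G →
        a ^ n * q * (a ^ n)⁻¹ = q * (q⁻¹ * (a * q * a⁻¹)) ^ n := by
      intro n
      induction n with
      | zero => intro q hq; simp
      | succ n ih =>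
        intro q hq
        have h1 := ha1 q hq
        have h2 := ha2 _ ((rSub p T).pow_mem h1 n)
        calc a ^ (n + 1) * q * (a ^ (n + 1))⁻¹
            = a * (a ^ n * q * (a ^ n)⁻¹) * a⁻¹ := by
              rw [pow_succ']; group
          _ = a * (q * (q⁻¹ * (a * q * a⁻¹)) ^ n) * a⁻¹ := by rw [ih q hq]
          _ = (a * q * a⁻¹) * (a * (q⁻¹ * (a * q * a⁻¹)) ^ n * a⁻¹) := by group
          _ = (a * q * a⁻¹) * (q⁻¹ * (a * q * a⁻¹)) ^ n := by rw [h2]
          _ = q * (q⁻¹ * (a * q * a⁻¹)) ^ (n + 1) := by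
              have e : q * (q⁻¹ * (a * q * a⁻¹)) = a * q * a⁻¹ := mul_inv_cancel_left q _
              rw [pow_succ', ← mul_assoc q, e]
    -- the exponent of `R`
    have hRp : IsPGroup p (rSub p T) := hQp.to_le hRQ
    obtain ⟨k, hk⟩ := IsPGroup.iff_card.mp hRp
    have hRexp : ∀ r ∈ rSub p T, r ^ (p ^ k) = 1 := by
      intro r hr
      have := pow_card_eq_one' (G := rSub p T) (x := ⟨r, hr⟩)
      rw [hk] at this
      simpa using congrArg Subtype.val this
    have hcen' : a ^ (p ^ k) ∈ Subgroup.centralizer ((pCore p G : Subgroup G) : Set G) := by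
      rw [Subgroup.mem_centralizer_iff]
      intro q hq
      have h := hpow (p ^ k) q hq
      rw [hRexp _ (ha1 q hq), mul_one] at h
      calc q * a ^ (p ^ k) = (a ^ (p ^ k) * q * (a ^ (p ^ k))⁻¹) * a ^ (p ^ k) := by rw [h]
        _ = a ^ (p ^ k) * q := by group
    have hmem : a ^ (p ^ k) ∈ pCore p G := hC hcen'
    obtain ⟨j, hj⟩ := hQp ⟨a ^ (p ^ k), hmem⟩
    refine ⟨k + j, ?_⟩
    have hj' : (a ^ (p ^ k)) ^ (p ^ j) = 1 := by
      simpa using congrArg Subtype.val hj
    apply Subtype.ext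
    simp only [Subgroup.coe_pow, Subgroup.coe_one]
    rw [pow_add, pow_mul]
    exact hj'
  have hle : chainSub p T hQn ≤ pCore p G := le_pCore hBn hBp
  exact hle ⟨hQR, hcen⟩

end Cfsg.Agent.H82.NS
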