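import Cfsg.Agent.H90.NSLam
import Cfsg.Agent.H86.FusSat
import Cfsg.Agent.H86.FusNormal

set_option autoImplicit false

/-!
Piece A5 of the team project S5121 (helper90): the key lemma.
-/

namespace Cfsg.Agent.H82.NS

open Cfsg Cfsg.FusionSystem Cfsg.Agent.H86 Cfsg.Agent.H90.NS

universe u

variable {G : Type u} [Group G]

/-- An automorphism of `P` that is trivial on `R` and on `P / R` (elementwise: `x⁻¹ δ(x) ∈ R`)
has order dividing the exponent of `R`. -/
lemma aut_pow_eq_one_of_stabilizes {P R : Subgroup G} {N : ℕ} (hexp : ∀ r ∈ R, r ^ N = 1)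
    (δ : MulAut P) (h1 : ∀ x : P, ((x⁻¹ * δ x : P) : G) ∈ R)
    (h2 : ∀ r : P, (r : G) ∈ R → δ r = r) : δ ^ N = 1 := by
  have key : ∀ (n : ℕ) (x : P), (δ ^ n) x = x * (x⁻¹ * δ x) ^ n := by
    intro n
    induction n with
    | zero => intro x; simp
    | succ n ih =>
      intro x
      have e : (δ ^ (n + 1)) x = δ ((δ ^ n) x) := by
        rw [pow_succ']; rfl
      rw [e, ih, map_mul, map_pow, h2 _ (h1 x), pow_succ', ← mul_assoc x, mul_inv_cancel_left]
  ext x
  have hz : (x⁻¹ * δ x) ^ N = 1 := by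
    apply Subtype.ext
    rw [Subgroup.coe_pow]
    exact hexp _ (h1 x)
  rw [key N x, hz, mul_one]
  rfl

theorem a5 : Cfsg.Agent.H90.NS.A5Stmt.{u} := by
  intro G _ _ p _ S T E hyp hsc hRn hRNC hAN P hRP hPT β hβ hord hmorR
  classical
  obtain ⟨hC, hTS, hnorm⟩ := hyp
  have hEsat : E.IsSaturated p := hnorm.1.1
  have hsub : E.IsSubsystemOf (groupFusionSystem (S : Subgroup G)) := hnorm.1.2.2.1
  have hTp : IsPGroup p T := S.isPGroup'.to_le hTS
  have hRT : rSub p T ≤ T := inf_le_left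
  have hPS : P ≤ (S : Subgroup G) := hPT.trans hTS
  -- `R` is weakly closed in `E`, hence fully normalized and receptive
  have hRsc : E.StronglyClosed (rSub p T) := IsNormal.stronglyClosed hRNC.1
  have hwc : ∀ g : G → G, Mor E (rSub p T) g → imgS (rSub p T) g = rSub p T := by
    intro g hg
    exact imgS_eq_of_maps hg (fun x hx => (stronglyClosed_iff.1 hRsc).2 _ g le_rfl hg x hx)
  have hRfn : E.IsFullyNormalized (rSub p T) := by
    refine ⟨hRT, fun Q' hQ' => ?_⟩
    obtain ⟨g, hg, rfl⟩ := isConj_iff.1 hQ'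
    rw [hwc g hg]
  obtain ⟨hfc, -⟩ := saturated_fullyNormalized hTp hEsat hRfn
  have hrec : E.IsReceptive (rSub p T) := saturated_receptive_of_fullyCentralized hTp hEsat hfc
  -- the function of `β`
  have hmorF : Mor (groupFusionSystem (S : Subgroup G)) P (autFun P β) :=
    (mem_autGroup_iff hPS β).1 hβ
  have himgR : imgS (rSub p T) (autFun P β) = rSub p T := hwc _ hmorR
  have hPle : P ≤ extSub T (rSub p T) (autFun P β) := by
    intro g hg
    rw [mem_extSub_iff hmorR]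
    refine ⟨hPT hg, ?_, autFun P β g, hPT (autFun_mem β hg), fun x hx => ?_⟩
    · rw [Subgroup.normalizer_eq_top_iff.2 hRn]
      exact Subgroup.mem_top g
    · rw [hmorF.map_mul (P.mul_mem hg (hRP hx)) (P.inv_mem hg), hmorF.map_mul hg (hRP hx),
        hmorF.map_inv hg]
  obtain ⟨f', hf', hf'b⟩ := receptive_extend' hrec hmorR himgR
  have hc : Mor E P f' := hf'.restrict hPle
  -- `f'(x)⁻¹ β(x)` centralizes `R`, hence lies in `R`
  have hz : ∀ x ∈ P, (f' x)⁻¹ * autFun P β x ∈ rSub p T := by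
    intro x hx
    have hcen : (f' x)⁻¹ * autFun P β x ∈ centralizerIn T (rSub p T) := by
      rw [mem_centralizerIn_iff]
      refine ⟨T.mul_mem (T.inv_mem (hc.mem hx)) (hPT (autFun_mem β hx)), fun y hy => ?_⟩
      have hy' : y ∈ imgS (rSub p T) (autFun P β) := by rw [himgR]; exact hy
      obtain ⟨r, hr, rfl⟩ := hmorR.mem_imgS.1 hy'
      have hxr : x * r * x⁻¹ ∈ rSub p T := hRn.conj_mem r hr x
      have e1 : f' (x * r * x⁻¹) = f' x * autFun P β r * (f' x)⁻¹ := by
        rw [hc.map_mul (P.mul_mem hx (hRP hr)) (P.inv_mem hx), hc.map_mul hx (hRP hr),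
          hc.map_inv hx, hf'b r hr]
      have e2 : f' (x * r * x⁻¹) = autFun P β x * autFun P β r * (autFun P β x)⁻¹ := by
        rw [hf'b _ hxr, hmorF.map_mul (P.mul_mem hx (hRP hr)) (P.inv_mem hx),
          hmorF.map_mul hx (hRP hr), hmorF.map_inv hx]
      have e3 := e1.symm.trans e2
      calc autFun P β r * ((f' x)⁻¹ * autFun P β x)
          = (f' x)⁻¹ * (f' x * autFun P β r * (f' x)⁻¹) * autFun P β x := by group
        _ = (f' x)⁻¹ * (autFun P β x * autFun P β r * (autFun P β x)⁻¹) * autFun P β x := by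
            rw [e3]
        _ = (f' x)⁻¹ * autFun P β x * autFun P β r := by group
    exact hRNC.2.2 _ (isConj_refl E hRT) hcen
  have hmaps : ∀ x ∈ P, f' x ∈ P := by
    intro x hx
    have h1 : f' x = autFun P β x * ((f' x)⁻¹ * autFun P β x)⁻¹ := by group
    rw [h1]
    exact P.mul_mem (autFun_mem β hx) (P.inv_mem (hRP (hz x hx)))
  have himgP : imgS P f' = P := imgS_eq_of_maps hc hmaps
  have hγ : mkAut hc himgP ∈ E.autGroup P := mkAut_mem hc himgP
  have hEF : ∀ α : MulAut P, α ∈ E.autGroup P →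
      α ∈ (groupFusionSystem (S : Subgroup G)).autGroup P := by
    intro α hα
    obtain ⟨φ, hφ, hφf⟩ := (mem_autGroup_iff hPT α).1 hα
    exact (mem_autGroup_iff hPS α).2 ⟨φ, hsub P hφ, hφf⟩
  have hγF := hEF _ hγ
  -- exponent of `R`
  have hRp : IsPGroup p (rSub p T) := hTp.to_le hRT
  obtain ⟨k, hk⟩ := IsPGroup.iff_card.mp hRp
  have hRexp : ∀ r ∈ rSub p T, r ^ (p ^ k) = 1 := by
    intro r hr
    have := pow_card_eq_one' (G := rSub p T) (x := ⟨r, hr⟩)
    rw [hk] at this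
    simpa using congrArg Subtype.val this
  -- `δ = γ⁻¹ β`
  have hγr : ∀ r : P, (r : G) ∈ rSub p T → mkAut hc himgP r = β r := by
    intro r hr
    apply Subtype.ext
    rw [mkAut_apply, hf'b _ hr, autFun_apply]
  have hδ2 : ∀ r : P, (r : G) ∈ rSub p T → ((mkAut hc himgP)⁻¹ * β) r = r := by
    intro r hr
    show (mkAut hc himgP)⁻¹ (β r) = r
    rw [← hγr r hr]
    show ((mkAut hc himgP)⁻¹ * mkAut hc himgP) r = r
    rw [inv_mul_cancel]; rfl
  -- `γ⁻¹` maps `R` into `R`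
  have hγinv : ∀ y : P, (y : G) ∈ rSub p T → (((mkAut hc himgP)⁻¹ y : P) : G) ∈ rSub p T := by
    intro y hy
    have hy' : (y : G) ∈ imgS (rSub p T) (autFun P β) := by rw [himgR]; exact hy
    obtain ⟨r, hr, hry⟩ := hmorR.mem_imgS.1 hy'
    have e : y = mkAut hc himgP ⟨r, hRP hr⟩ := by
      apply Subtype.ext
      rw [mkAut_apply, hf'b _ hr, hry]
    rw [e]
    have : (mkAut hc himgP)⁻¹ (mkAut hc himgP ⟨r, hRP hr⟩) = ⟨r, hRP hr⟩ := by
      show ((mkAut hc himgP)⁻¹ * mkAut hc himgP) _ = _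
      rw [inv_mul_cancel]; rfl
    rw [this]
    exact hr
  have hδ1 : ∀ x : P, ((x⁻¹ * ((mkAut hc himgP)⁻¹ * β) x : P) : G) ∈ rSub p T := by
    intro x
    -- `x⁻¹ γ⁻¹(β x) = γ⁻¹((γ x)⁻¹ β x)`
    have e : x⁻¹ * ((mkAut hc himgP)⁻¹ * β) x
        = (mkAut hc himgP)⁻¹ ((mkAut hc himgP x)⁻¹ * β x) := by
      rw [map_mul, map_inv]
      have : (mkAut hc himgP)⁻¹ (mkAut hc himgP x) = x := by
        show ((mkAut hc himgP)⁻¹ * mkAut hc himgP) x = x
        rw [inv_mul_cancel]; rfl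
      rw [this]
      rfl
    rw [e]
    apply hγinv
    have := hz x x.2
    rw [autFun_apply] at this
    exact this
  have hδpow : ((mkAut hc himgP)⁻¹ * β) ^ (p ^ k) = 1 :=
    aut_pow_eq_one_of_stabilizes hRexp _ hδ1 hδ2
  have hδF : (mkAut hc himgP)⁻¹ * β ∈ (groupFusionSystem (S : Subgroup G)).autGroup P :=
    Subgroup.mul_mem _ (Subgroup.inv_mem _ hγF) hβ
  have hβγδ : β = mkAut hc himgP * ((mkAut hc himgP)⁻¹ * β) := by group
  have hpow : ∀ n : ℕ, ∃ a ∈ E.autGroup P, β ^ n = a * ((mkAut hc himgP)⁻¹ * β) ^ n := by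
    intro n
    induction n with
    | zero => exact ⟨1, Subgroup.one_mem _, by simp⟩
    | succ n ih =>
      obtain ⟨a, ha, han⟩ := ih
      have hconj := hAN P hPT _ hγ _ (Subgroup.pow_mem _ hδF n)
      refine ⟨a * (((mkAut hc himgP)⁻¹ * β) ^ n * mkAut hc himgP *
        (((mkAut hc himgP)⁻¹ * β) ^ n)⁻¹), Subgroup.mul_mem _ ha hconj, ?_⟩
      rw [pow_succ, han]
      conv_lhs => rw [hβγδ]
      rw [pow_succ]
      group
  obtain ⟨a, ha, han⟩ := hpow (p ^ k)
  rw [hδpow, mul_one] at han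
  obtain ⟨i, hi⟩ := exists_pow_eq_self_of_coprime (x := β) (n := p ^ k)
    (Nat.Coprime.pow_left k hord.symm)
  rw [← hi, han]
  exact Subgroup.pow_mem _ ha i

end Cfsg.Agent.H82.NS
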