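import Mathlib

/-!
# Weighted fixed-point congruence for a permutation of prime-power order (helper82)

`sum_modEq_sum_fixed`: if `σ ^ p = 1`, `s` is a `σ`-stable finset and `w` is `σ`-invariant, then
`∑ x ∈ s, w x ≡ ∑ x ∈ s with σ x = x, w x [ZMOD p]`.
-/

set_option autoImplicit false

namespace Cfsg.Agent.H82

open Equiv

/-- The number of non-fixed points of `σ` (with `σ ^ p = 1`) inside a `σ`-stable set is
divisible by `p`. -/
theorem dvd_card_nonfixed {α : Type*} [Fintype α] [DecidableEq α] {p : ℕ} [hp : Fact p.Prime]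
    (σ : Perm α) (hσ : σ ^ p = 1) (P : α → Prop) [DecidablePred P]
    (hP : ∀ x, P (σ x) ↔ P x) :
    p ∣ (Finset.univ.filter (fun x => P x ∧ σ x ≠ x)).card := by
  set τ : Perm α := Perm.ofSubtype (σ.subtypePerm hP) with hτ
  have hτp : τ ^ p ^ 1 = 1 := by
    have : (σ.subtypePerm hP) ^ p = 1 := by
      ext x
      rw [Perm.subtypePerm_pow]
      simp [hσ]
    rw [pow_one, hτ, ← map_pow, this, map_one]
  have hsupp : τ.support = Finset.univ.filter (fun x => P x ∧ σ x ≠ x) := by
    ext x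
    rw [Perm.mem_support, Finset.mem_filter]
    simp only [Finset.mem_univ, true_and]
    by_cases hx : P x
    · rw [hτ, Perm.ofSubtype_apply_of_mem _ hx]
      simp [hx]
    · rw [hτ, Perm.ofSubtype_apply_of_not_mem _ hx]
      simp [hx]
  have h := Perm.card_compl_support_modEq hτp
  rw [Finset.card_compl] at h
  have hle : τ.support.card ≤ Fintype.card α := Finset.card_le_univ _
  have h2 : (p : ℤ) ∣ ((Fintype.card α : ℕ) : ℤ) - ((Fintype.card α - τ.support.card : ℕ) : ℤ) :=
    Nat.ModEq.dvd h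
  rw [Nat.cast_sub hle] at h2
  have h3 : (p : ℤ) ∣ (τ.support.card : ℤ) := by
    have : ((Fintype.card α : ℕ) : ℤ) - (((Fintype.card α : ℕ) : ℤ) - (τ.support.card : ℤ)) =
        (τ.support.card : ℤ) := by ring
    rwa [this] at h2
  rw [← hsupp]
  exact_mod_cast h3

/-- Weighted fixed-point congruence. -/
theorem sum_modEq_sum_fixed {α : Type*} [Fintype α] [DecidableEq α] {p : ℕ} [hp : Fact p.Prime]
    (σ : Perm α) (hσ : σ ^ p = 1) (s : Finset α) (hs : ∀ x, σ x ∈ s ↔ x ∈ s)
    (w : α → ℤ) (hw : ∀ x, w (σ x) = w x) :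
    ∑ x ∈ s, w x ≡ ∑ x ∈ s.filter (fun x => σ x = x), w x [ZMOD p] := by
  have hsplit := Finset.sum_filter_add_sum_filter_not s (fun x => σ x = x) w
  rw [← hsplit]
  have hdvd : (p : ℤ) ∣ ∑ x ∈ s.filter (fun x => ¬ σ x = x), w x := by
    set s' := s.filter (fun x => ¬ σ x = x) with hs'
    rw [← Finset.sum_fiberwise_of_maps_to (g := w) (t := s'.image w)
      (fun x hx => Finset.mem_image_of_mem w hx)]
    apply Finset.dvd_sum
    intro v _
    have hconst : ∑ x ∈ s'.filter (fun x => w x = v), w x =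
        ((s'.filter (fun x => w x = v)).card : ℤ) * v := by
      rw [Finset.sum_congr rfl (fun x hx => (Finset.mem_filter.mp hx).2), Finset.sum_const,
        nsmul_eq_mul]
    rw [hconst]
    apply Dvd.dvd.mul_right
    have hP : ∀ x, (σ x ∈ s ∧ w (σ x) = v) ↔ (x ∈ s ∧ w x = v) := by
      intro x
      rw [hs, hw]
    have h := dvd_card_nonfixed σ hσ (fun x => x ∈ s ∧ w x = v) hP
    have heq : (Finset.univ.filter (fun x => (x ∈ s ∧ w x = v) ∧ σ x ≠ x)) =
        s'.filter (fun x => w x = v) := by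
      ext x
      simp only [Finset.mem_filter, Finset.mem_univ, true_and, hs', ne_eq]
      tauto
    rw [heq] at h
    exact_mod_cast h
  have : ∑ x ∈ s.filter (fun x => σ x = x), w x + ∑ x ∈ s.filter (fun x => ¬ σ x = x), w x ≡
      ∑ x ∈ s.filter (fun x => σ x = x), w x + 0 [ZMOD p] :=
    Int.ModEq.add_left _ ((Int.modEq_zero_iff_dvd).mpr hdvd)
  rwa [add_zero] at this

end Cfsg.Agent.H82
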