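import Mathlib
import Cfsg.Agent.H46.OutDefs

/-!
# S2124, piece CNT: the second isomorphism theorem as a count (helper82)
-/

set_option autoImplicit false

namespace Cfsg.Agent.H82.OutE

open Cfsg.Agent.H46.OutE

universe u

/-- **S2124-CNT.** -/
theorem cnt : StCnt.{u} := by
  intro A _ I T _ h
  obtain ⟨f, hf⟩ : ∃ f : ↥T →* A ⧸ I, f = (QuotientGroup.mk' I).comp T.subtype := ⟨_, rfl⟩
  have hsurj : Function.Surjective f := by
    intro y
    obtain ⟨a, rfl⟩ := QuotientGroup.mk_surjective y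
    obtain ⟨i, hi, t, ht, rfl⟩ := h a
    refine ⟨⟨t, ht⟩, ?_⟩
    rw [hf]
    show ((t : A) : A ⧸ I) = ((i * t : A) : A ⧸ I)
    rw [QuotientGroup.mk_mul, (QuotientGroup.eq_one_iff i).mpr hi, one_mul]
  have hker : f.ker = (T ⊓ I).subgroupOf T := by
    ext y
    rw [MonoidHom.mem_ker, Subgroup.mem_subgroupOf, Subgroup.mem_inf, hf]
    show ((y : A) : A ⧸ I) = 1 ↔ _
    rw [QuotientGroup.eq_one_iff]
    exact ⟨fun h1 => ⟨y.2, h1⟩, fun h1 => h1.2⟩
  have h1 := Subgroup.card_eq_card_quotient_mul_card_subgroup f.ker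
  have h2 : Nat.card (↥T ⧸ f.ker) = Nat.card (A ⧸ I) :=
    Nat.card_congr (QuotientGroup.quotientKerEquivOfSurjective f hsurj).toEquiv
  have h3 : Nat.card ↥f.ker = Nat.card ↥(T ⊓ I) := by
    rw [hker]
    exact Nat.card_congr (Subgroup.subgroupOfEquivOfLe (inf_le_left : T ⊓ I ≤ T)).toEquiv
  rw [h1, h2, h3]

example : StCnt.{u} := cnt

end Cfsg.Agent.H82.OutE
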