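import Mathlib
import Cfsg.Agent.H46.OutDefs

/-!
# S2124, piece DECOMP (helper82)

Every automorphism fixing the fundamental root subgroups and their opposites is a diagonal
automorphism times a field automorphism.
-/

set_option autoImplicit false

namespace Cfsg.Agent.H82.OutE

open Cfsg.Lie Cfsg.Agent.H23 Cfsg.Agent.H23.Stb Cfsg.Agent.H46.OutE

universe u

/-- Left multiplication by a nonzero scalar, as an additive equivalence. -/
def scaleEquiv {F : Type u} [Field F] (a : F) (ha : a ≠ 0) : F ≃+ F where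
  toFun t := a * t
  invFun t := a⁻¹ * t
  left_inv t := by
    show a⁻¹ * (a * t) = t
    rw [← mul_assoc, inv_mul_cancel₀ ha, one_mul]
  right_inv t := by
    show a * (a⁻¹ * t) = t
    rw [← mul_assoc, mul_inv_cancel₀ ha, one_mul]
  map_add' s t := mul_add a s t

theorem scaleEquiv_apply {F : Type u} [Field F] (a : F) (ha : a ≠ 0) (t : F) :
    scaleEquiv a ha t = a * t := rfl

/-- **S2124-DECOMP.** -/
theorem decomp : StDecomp.{u} := by
  intro D F _ z η hP hDA hAs θ hθ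
  classical
  have hT := hP.tab
  choose! φ ψ hφψ using hθ
  have hφ : ∀ i < D.rank, ∀ t : F,
      θ (xG hP.sem (D.simple i) t) = xG hP.sem (D.simple i) (φ i t) := fun i hi => (hφψ i hi).1
  have hψ : ∀ i < D.rank, ∀ t : F,
      θ (xG hP.sem (D.neg (D.simple i)) t) = xG hP.sem (D.neg (D.simple i)) (ψ i t) :=
    fun i hi => (hφψ i hi).2
  obtain ⟨c, hcdef⟩ : ∃ c : ℕ → F, c = fun i => if i < D.rank then φ i 1 else 1 := ⟨_, rfl⟩
  have hci : ∀ i < D.rank, c i = φ i 1 := by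
    intro i hi
    rw [hcdef]
    exact if_pos hi
  have hc : ∀ i < D.rank, c i ≠ 0 := by
    intro i hi h0
    rw [hci i hi] at h0
    exact one_ne_zero ((AddEquiv.map_eq_zero_iff (φ i)).mp h0)
  obtain ⟨χ, δ, hχ0, hδ, hχc⟩ := hDA c hc
  have hδs : ∀ r < D.nroots, ∀ w : F, δ.symm (xG hP.sem r w) = xG hP.sem r ((χ r)⁻¹ * w) := by
    intro r hr w
    rw [MulEquiv.symm_apply_eq, hδ r hr, ← mul_assoc, mul_inv_cancel₀ (hχ0 r hr), one_mul]
  obtain ⟨θ', hθ'⟩ : ∃ θ' : ↥(D.group F) ≃* ↥(D.group F), θ' = θ.trans δ.symm := ⟨_, rfl⟩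
  have hθ'a : ∀ y : ↥(D.group F), θ' y = δ.symm (θ y) := by
    intro y
    rw [hθ']
    rfl
  have hNorm : NormFund hP.sem θ' := by
    intro i hi
    refine ⟨(φ i).trans (scaleEquiv (c i)⁻¹ (inv_ne_zero (hc i hi))),
      (ψ i).trans (scaleEquiv (c i) (hc i hi)), fun t => ?_, fun t => ?_, ?_⟩
    · rw [hθ'a, hφ i hi, hδs _ (hT.simple_lt i hi), (hχc i hi).1]
      rfl
    · rw [hθ'a, hψ i hi, hδs _ (hT.neg_lt _ (hT.simple_lt i hi)), (hχc i hi).2, inv_inv]
      rfl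
    · show (c i)⁻¹ * φ i 1 = 1
      rw [← hci i hi, inv_mul_cancel₀ (hc i hi)]
  obtain ⟨σ, hσ⟩ := hAs θ' hNorm
  refine ⟨χ, σ, hχ0, fun i hi => ?_, fun r hr t => ?_⟩
  · rw [(hχc i hi).2, (hχc i hi).1]
  · have h1 : θ' (xG hP.sem r t) = xG hP.sem r (σ t) := by
      apply Subtype.ext
      rw [hσ]
      exact glMap_xU hP.sem hP.sem (σ : F →+* F) r t
    have h2 : θ (xG hP.sem r t) = δ (θ' (xG hP.sem r t)) := by
      rw [hθ'a, MulEquiv.apply_symm_apply]
    rw [h2, h1, hδ r hr]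

example : StDecomp.{u} := decomp

end Cfsg.Agent.H82.OutE
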