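import Mathlib
import Cfsg.Agent.H46.OutDefs

/-!
# S2124, piece FIX: fixed points of the `|F|`-th power map (helper82)
-/

set_option autoImplicit false

namespace Cfsg.Agent.H82.OutE

open Cfsg.Agent.H46.OutE

universe u

/-- **S2124-FIX.** -/
theorem fix : StFix.{u} := by
  intro F K _ _ _ _ x hx
  classical
  have : Fintype F := Fintype.ofFinite F
  have hq : Nat.card F = Fintype.card F := Nat.card_eq_fintype_card
  rw [hq] at hx
  obtain ⟨q, hqdef⟩ : ∃ q : ℕ, q = Fintype.card F := ⟨_, rfl⟩
  rw [← hqdef] at hx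
  have hq1 : 1 < q := by
    rw [hqdef]
    exact Fintype.one_lt_card
  have hne : (Polynomial.X ^ q - Polynomial.X : Polynomial K) ≠ 0 :=
    FiniteField.X_pow_card_sub_X_ne_zero K hq1
  have hdeg : (Polynomial.X ^ q - Polynomial.X : Polynomial K).natDegree = q :=
    FiniteField.X_pow_card_sub_X_natDegree_eq K hq1
  obtain ⟨S, hS⟩ : ∃ S : Finset K, S = Finset.univ.image (algebraMap F K) := ⟨_, rfl⟩
  obtain ⟨R, hR⟩ : ∃ R : Finset K,
      R = (Polynomial.X ^ q - Polynomial.X : Polynomial K).roots.toFinset := ⟨_, rfl⟩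
  have hSR : S ⊆ R := by
    intro y hy
    rw [hS] at hy
    obtain ⟨a, -, rfl⟩ := Finset.mem_image.mp hy
    rw [hR, Multiset.mem_toFinset, Polynomial.mem_roots hne, Polynomial.IsRoot.def]
    simp only [Polynomial.eval_sub, Polynomial.eval_pow, Polynomial.eval_X]
    rw [← map_pow, hqdef, FiniteField.pow_card, sub_self]
  have hScard : S.card = q := by
    rw [hS, Finset.card_image_of_injective _ (algebraMap F K).injective, Finset.card_univ, hqdef]
  have hRcard : R.card ≤ q := by
    rw [hR]
    calc (Polynomial.X ^ q - Polynomial.X : Polynomial K).roots.toFinset.card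
        ≤ Multiset.card (Polynomial.X ^ q - Polynomial.X : Polynomial K).roots :=
          Multiset.toFinset_card_le _
      _ ≤ (Polynomial.X ^ q - Polynomial.X : Polynomial K).natDegree := Polynomial.card_roots' _
      _ = q := hdeg
  have hEq : S = R := Finset.eq_of_subset_of_card_le hSR (by rw [hScard]; exact hRcard)
  have hxR : x ∈ R := by
    rw [hR, Multiset.mem_toFinset, Polynomial.mem_roots hne, Polynomial.IsRoot.def]
    simp only [Polynomial.eval_sub, Polynomial.eval_pow, Polynomial.eval_X]
    rw [hx, sub_self]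
  rw [← hEq, hS] at hxR
  obtain ⟨a, -, ha⟩ := Finset.mem_image.mp hxR
  exact ⟨a, ha⟩

example : StFix.{u} := fix

end Cfsg.Agent.H82.OutE
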