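import Cfsg.Agent.H82.P1M

/-!
# Sylow subgroups of prime order, part 2A: the lattice over an arbitrary character (helper82)

In a local setup with `N / C` cyclic in which the count `k_{p'}(G) ≥ k(N)` holds: for every
irreducible character `ϑ` of `C` trivial on `P`, the generalized characters `Gam μ ϑ` have the
shape `w + s δ_{b(μ)}`.
-/

set_option autoImplicit false
set_option linter.style.haveILetI false
set_option linter.unusedSectionVars false

namespace Cfsg.Agent.H82.P1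

open Cfsg Cfsg.Agent.H4 Cfsg.Agent.H82 Cfsg.Agent.H82.BL Cfsg.Agent.Clifford
open scoped ComplexConjugate
open Classical

universe u

variable {G : Type u} [Group G] [Fintype G] {p : ℕ} {N C P : Subgroup G} [Fintype N] [Fintype C]
  (S : Setup p N C P)
  [Fintype (IrrCharacter G)] [Fintype (IrrCharacter N)] [Fintype (IrrCharacter C)]
  [Fintype (P.subgroupOf C)] [Fintype (P.subgroupOf C →* ℂˣ)]

/-- The equality case of the character count, at an arbitrary character. -/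
theorem setX_facts (hcyc : haveI := normal_CN S; IsCyclic (N ⧸ C.subgroupOf N))
    (heq : Fintype.card (IrrCharacter N) ≤
      (Finset.univ.filter fun χ : IrrCharacter G => ¬ Nat.card P ∣ charDegree χ.1).card)
    (ϑ : Irr0 S) :
    (setX S ϑ).card = (setA S ϑ.1).card + (setB S ϑ).card ∧
      ∀ ϑ' : Irr0 S, ¬ relN S ϑ' ϑ → Disjoint (setX S ϑ') (setX S ϑ) := by
  have hge : (Finset.univ.biUnion fun ϑ : Irr0 S => setA S ϑ.1 ∪ setB S ϑ).card ≤
      (Finset.univ.biUnion (setX S)).card :=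
    calc (Finset.univ.biUnion fun ϑ : Irr0 S => setA S ϑ.1 ∪ setB S ϑ).card
        ≤ Fintype.card (IrrCharacter N) := Finset.card_le_univ _
      _ ≤ _ := heq
      _ ≤ _ := Finset.card_le_card (filter_subset_biUnion S)
  have h := card_eq_of_setoid (setoidN S) (setX S) (fun ϑ => setA S ϑ.1 ∪ setB S ϑ)
    (fun ϑ ϑ' hr => Finset.Subset.antisymm (setX_subset S hr) (setX_subset S (relN_symm S hr)))
    (fun ϑ ϑ' hr => setY_disjoint S hr) (card_setX_le_union S hcyc) hge ϑ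
  constructor
  · rw [h.1, Finset.card_union_of_disjoint (setA_inter_setB S ϑ)]
  · intro ϑ' hϑ'
    exact h.2 ϑ' hϑ'

/-- The shape of the `Gam μ ϑ`. -/
theorem exists_wbs_gen (hp : p.Prime)
    (hcyc : haveI := normal_CN S; IsCyclic (N ⧸ C.subgroupOf N))
    (heq : Fintype.card (IrrCharacter N) ≤
      (Finset.univ.filter fun χ : IrrCharacter G => ¬ Nat.card P ∣ charDegree χ.1).card)
    (ϑ : Irr0 S) (μ0 : {μ : P.subgroupOf C →* ℂˣ // μ ≠ 1}) :
    ∃ (w : IrrCharacter G → ℤ) (b : IrrCharacter N → IrrCharacter G) (s : ℤ),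
      (∀ χ, w χ = 0 ∨ w χ = 1 ∨ w χ = -1) ∧
      (Finset.univ.filter fun χ => w χ ≠ 0).card = (setA S ϑ.1).card ∧
      (∀ μ : {μ : P.subgroupOf C →* ℂˣ // μ ≠ 1}, w (b (LamN S μ ϑ)) = 0) ∧
      (s = 1 ∨ s = -1) ∧
      (∀ μ μ' : {μ : P.subgroupOf C →* ℂˣ // μ ≠ 1},
        b (LamN S μ ϑ) = b (LamN S μ' ϑ) → LamN S μ ϑ = LamN S μ' ϑ) ∧
      ∀ (μ : {μ : P.subgroupOf C →* ℂˣ // μ ≠ 1}) (χ : IrrCharacter G),
        classInner (Gam S μ.1 ϑ.1.1) χ.1 =
          ((w χ + if χ = b (LamN S μ ϑ) then s else 0 : ℤ) : ℂ) := by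
  have hint : ∀ (μ : {μ : P.subgroupOf C →* ℂˣ // μ ≠ 1}) (χ : IrrCharacter G),
      ∃ z : ℤ, classInner (Gam S μ.1 ϑ.1.1) χ.1 = z :=
    fun μ χ => inner_Gam_int S μ.1 ϑ.1 χ
  choose v hv using hint
  have he : classInner ϑ.1.1 (trN S ϑ.1.1) = ((setA S ϑ.1).card : ℂ) := card_setA S hcyc ϑ.1
  have hG : ∀ μ μ' : {μ : P.subgroupOf C →* ℂˣ // μ ≠ 1},
      ∑ χ : IrrCharacter G, v μ χ * v μ' χ =
        ((setA S ϑ.1).card : ℤ) + if LamN S μ ϑ = LamN S μ' ϑ then 1 else 0 := by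
    intro μ μ'
    have h1 := gram_Gam S μ μ' ϑ
    rw [he, classInner_eq_sum_irr (A := Gam S μ.1 ϑ.1.1) (indFun_isClassFunction C _),
      finsum_eq_sum_of_fintype] at h1
    have h2 : ∀ χ : IrrCharacter G, classInner (Gam S μ.1 ϑ.1.1) χ.1 *
        classInner χ.1 (Gam S μ'.1 ϑ.1.1) = ((v μ χ * v μ' χ : ℤ) : ℂ) := by
      intro χ
      rw [← classInner_conj_symm χ.1 (Gam S μ'.1 ϑ.1.1), hv, hv]
      simp
    simp only [h2] at h1
    have h3 : ((∑ χ : IrrCharacter G, v μ χ * v μ' χ : ℤ) : ℂ) =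
        ((((setA S ϑ.1).card : ℤ) + if LamN S μ ϑ = LamN S μ' ϑ then 1 else 0 : ℤ) : ℂ) := by
      rw [Int.cast_sum, h1]
      push_cast
      split_ifs <;> simp
    exact_mod_cast h3
  have e1 : (Finset.univ.filter fun χ : IrrCharacter G => ∃ μ, v μ χ ≠ 0) = setX S ϑ := by
    simp only [setX]
    apply Finset.filter_congr
    intro χ _
    constructor
    · rintro ⟨μ, hμ⟩
      refine ⟨μ, ?_⟩
      rw [hv]
      exact_mod_cast hμ
    · rintro ⟨μ, hμ⟩
      refine ⟨μ, ?_⟩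
      rw [hv] at hμ
      exact_mod_cast hμ
  have hcard : (setA S ϑ.1).card + (Finset.univ.image
      (fun μ : {μ : P.subgroupOf C →* ℂˣ // μ ≠ 1} => LamN S μ ϑ)).card ≤
      (Finset.univ.filter fun χ : IrrCharacter G => ∃ μ, v μ χ ≠ 0).card := by
    rw [e1, (setX_facts S hcyc heq ϑ).1]
    exact le_refl _
  obtain ⟨w, b, s, hw, hwc, hwb, hs, hb, hv'⟩ :=
    lattice_structure v (fun μ => LamN S μ ϑ) (setA S ϑ.1).card hG hcard μ0
  have h1ne : ¬ p ∣ orderOf (1 : G) := by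
    rw [orderOf_one]
    exact fun h => hp.ne_one (Nat.dvd_one.mp h)
  have hdeg : ∀ μ : {μ : P.subgroupOf C →* ℂˣ // μ ≠ 1},
      (∑ χ : IrrCharacter G, w χ * (charDegree χ.1 : ℤ)) +
        s (LamN S μ ϑ) * (charDegree (b (LamN S μ ϑ)).1 : ℤ) = 0 := by
    intro μ
    have h1 := Gam_expand_reg S μ.1 ϑ.1.1 1 h1ne
    have h2 : ∑ χ : IrrCharacter G, ((v μ χ * (charDegree χ.1 : ℤ) : ℤ) : ℂ) = 0 := by
      rw [← h1]
      refine Finset.sum_congr rfl fun χ _ => ?_
      rw [hv, irr_one_eq_charDegree]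
      push_cast
      rfl
    have h3 : ∑ χ : IrrCharacter G, v μ χ * (charDegree χ.1 : ℤ) = 0 := by
      exact_mod_cast h2
    rw [← h3]
    simp only [hv', add_mul, Finset.sum_add_distrib, ite_mul, zero_mul, Finset.sum_ite_eq',
      Finset.mem_univ, if_true]
  have hsign : ∀ μ : {μ : P.subgroupOf C →* ℂˣ // μ ≠ 1},
      s (LamN S μ ϑ) = s (LamN S μ0 ϑ) := by
    intro μ
    have h1 := hdeg μ
    have h2 := hdeg μ0
    have hd1 : (0 : ℤ) < (charDegree (b (LamN S μ ϑ)).1 : ℤ) := by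
      exact_mod_cast charDegree_pos _
    have hd2 : (0 : ℤ) < (charDegree (b (LamN S μ0 ϑ)).1 : ℤ) := by
      exact_mod_cast charDegree_pos _
    rcases hs μ with h | h <;> rcases hs μ0 with h' | h'
    · rw [h, h']
    · rw [h] at h1
      rw [h'] at h2
      linarith
    · rw [h] at h1
      rw [h'] at h2
      linarith
    · rw [h, h']
  refine ⟨w, b, s (LamN S μ0 ϑ), hw, hwc, hwb, hs μ0, hb, ?_⟩
  intro μ χ
  have h : classInner (Gam S μ.1 ϑ.1.1) χ.1 = ((v μ χ : ℤ) : ℂ) := hv μ χ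
  rw [hv' μ χ, hsign μ] at h
  refine Eq.trans h ?_
  congr 2
  congr 1

/-- Equal induced characters come from `N`-conjugate characters of `C`. -/
theorem LamN_eq_imp (μ μ' : {μ : P.subgroupOf C →* ℂˣ // μ ≠ 1}) (ϑ : Irr0 S)
    (h : LamN S μ' ϑ = LamN S μ ϑ) :
    ∃ n : N, (fun c => tw S μ.1 ϑ.1.1 (cj S n c)) = tw S μ'.1 ϑ.1.1 := by
  have h1 : classInner (LamN S μ' ϑ).1 (LamN S μ ϑ).1 = 1 := by
    rw [h]
    exact irr_inner_self _
  rw [LamN_val, LamN_val, inner_indN_indN] at h1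
  by_contra hcon
  push Not at hcon
  have h2 : classInner (twI S μ'.1 ϑ.1).1 (trN S (twI S μ.1 ϑ.1).1) = 0 := by
    apply inner_trN_of_not
    intro n hn
    exact hcon n hn
  rw [twI_val, twI_val] at h2
  rw [h2] at h1
  exact zero_ne_one h1

/-- The `N`-conjugate of an irreducible character of `C`. -/
noncomputable def cjI (n : N) (β : IrrCharacter C) : IrrCharacter C :=
  ⟨fun c => β.1 (cj S n c), isIrrCharacter_comp_equiv (cj S n) β.2⟩

theorem cjI_val (n : N) (β : IrrCharacter C) : (cjI S n β).1 = fun c => β.1 (cj S n c) := rfl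

/-- Every irreducible character of `C` is a twist of a character trivial on `P`. -/
theorem exists_tw_eq (β : IrrCharacter C) :
    ∃ (ω : P.subgroupOf C →* ℂˣ) (ϑ : Irr0 S), IsCen β.1 ω ∧ tw S ω ϑ.1.1 = β.1 := by
  obtain ⟨ω, hω⟩ := exists_isCen S β
  have hϑc : IsCen (twI S ω⁻¹ β).1 (1 : P.subgroupOf C →* ℂˣ) := by
    have h1 := isCen_tw_mul S ω⁻¹ ω hω
    have e : ω⁻¹ * ω = 1 := inv_mul_cancel ω
    rw [e] at h1
    exact h1
  refine ⟨ω, ⟨twI S ω⁻¹ β, hϑc⟩, hω, ?_⟩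
  funext c
  simp only [twI_val, tw, MonoidHom.inv_apply, Units.val_inv_eq_inv_val]
  rw [← mul_assoc, mul_inv_cancel₀ (Units.ne_zero _), one_mul]

omit [Fintype (IrrCharacter G)] [Fintype (IrrCharacter N)] [Fintype (P.subgroupOf C)]
  [Fintype (P.subgroupOf C →* ℂˣ)] in
/-- The number of distinct irreducible constituents is at most the degree. -/
theorem card_le_deg {ψ : C → ℂ} (hψ : IsCharacter C ψ) (d : ℕ) (hd : ψ 1 = d)
    (T : Finset (IrrCharacter C)) (hT : ∀ β ∈ T, classInner ψ β.1 ≠ 0) : T.card ≤ d := by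
  obtain ⟨mm, hmm⟩ := isCharacter_iff.mp hψ
  have hinner : ∀ β : IrrCharacter C, classInner ψ β.1 = mm β := by
    intro β
    rw [hmm, classInner_finsum_irr]
  rw [finsum_eq_sum_of_fintype] at hmm
  have h1 : ψ 1 = ((∑ β : IrrCharacter C, mm β * charDegree β.1 : ℕ) : ℂ) := by
    rw [hmm, Finset.sum_apply]
    push_cast
    refine Finset.sum_congr rfl fun β _ => ?_
    rw [Pi.smul_apply, irr_one_eq_charDegree, smul_eq_mul]
  rw [hd] at h1
  have h2 : d = ∑ β : IrrCharacter C, mm β * charDegree β.1 := by exact_mod_cast h1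
  rw [h2, Finset.card_eq_sum_ones]
  calc ∑ _β ∈ T, 1 ≤ ∑ β ∈ T, mm β * charDegree β.1 := by
        refine Finset.sum_le_sum fun β hβ => ?_
        have h3 : mm β ≠ 0 := by
          intro h0
          apply hT β hβ
          rw [hinner, h0]
          simp
        have h4 := charDegree_pos β
        exact Nat.one_le_iff_ne_zero.mpr (Nat.mul_ne_zero h3 h4.ne')
    _ ≤ ∑ β : IrrCharacter C, mm β * charDegree β.1 :=
        Finset.sum_le_sum_of_subset (Finset.subset_univ T)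

omit [Fintype (IrrCharacter G)] [Fintype (IrrCharacter N)] in
/-- A set of characters of `P` each of which is the central character of a constituent has
at most `ψ(1)` elements. -/
theorem card_le_deg_cen {ψ : C → ℂ} (hψ : IsCharacter C ψ) (d : ℕ) (hd : ψ 1 = d)
    (M : Finset (P.subgroupOf C →* ℂˣ))
    (hM : ∀ μ ∈ M, ∃ β : IrrCharacter C, IsCen β.1 μ ∧ classInner ψ β.1 ≠ 0) : M.card ≤ d := by
  have hM' : ∀ μ : P.subgroupOf C →* ℂˣ, ∃ β : IrrCharacter C,
      μ ∈ M → (IsCen β.1 μ ∧ classInner ψ β.1 ≠ 0) := by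
    intro μ
    by_cases hμ : μ ∈ M
    · obtain ⟨β, hβ⟩ := hM μ hμ
      exact ⟨β, fun _ => hβ⟩
    · exact ⟨⟨1, isIrr_one_fun C⟩, fun h => absurd h hμ⟩
  choose β hβ using hM'
  have hinj : Set.InjOn β (M : Set (P.subgroupOf C →* ℂˣ)) := by
    intro μ hμ μ' hμ' hβeq
    have h1 := (hβ μ hμ).1
    have h2 := (hβ μ' hμ').1
    rw [hβeq] at h1
    exact IsCen.eq_of h1 h2 (irr_one_ne_zero (β μ'))
  rw [← Finset.card_image_of_injOn hinj]
  apply card_le_deg hψ d hd
  intro γ hγ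
  obtain ⟨μ, hμ, rfl⟩ := Finset.mem_image.mp hγ
  exact (hβ μ hμ).2

end Cfsg.Agent.H82.P1
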