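import Cfsg.Agent.H82.P2A

/-!
# Sylow subgroups of prime order, part 2B: restriction to `C` of an exceptional character
(helper82)

If `χ = b(μ₁)` is the exceptional character attached to `μ₁` in the lattice over `ϑ`, with
sign `-1`, and `χ` has no constituent trivial on `P` on restriction to `C`, then
`χ|_C = trN (tw μ₁ ϑ)`.
-/

set_option autoImplicit false
set_option linter.style.haveILetI false
set_option linter.unusedSectionVars false

namespace Cfsg.Agent.H82.P1

open Cfsg Cfsg.Agent.H4 Cfsg.Agent.H82 Cfsg.Agent.H82.BL Cfsg.Agent.Clifford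
open scoped ComplexConjugate
open Classical

universe u

variable {G : Type u} [Group G] [Fintype G] {p : ℕ} {N C P : Subgroup G} [Fintype N] [Fintype C]
  (S : Setup p N C P)
  [Fintype (IrrCharacter G)] [Fintype (IrrCharacter N)] [Fintype (IrrCharacter C)]
  [Fintype (P.subgroupOf C)] [Fintype (P.subgroupOf C →* ℂˣ)]

omit [Fintype G] [Fintype N] [Fintype C] [Fintype (IrrCharacter G)] [Fintype (IrrCharacter N)]
  [Fintype (IrrCharacter C)] [Fintype (P.subgroupOf C)] [Fintype (P.subgroupOf C →* ℂˣ)] in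
theorem cj_one_apply (c : C) : cj S 1 c = c := by
  apply Subtype.ext
  simp [cj_coe]

omit [Fintype G] [Fintype N] [Fintype C] [Fintype (IrrCharacter G)] [Fintype (IrrCharacter N)]
  [Fintype (IrrCharacter C)] [Fintype (P.subgroupOf C)] [Fintype (P.subgroupOf C →* ℂˣ)] in
theorem cj_cj_inv (n : N) (c : C) : cj S n (cj S n⁻¹ c) = c := by
  rw [← cj_mul, mul_inv_cancel, cj_one_apply]

omit [Fintype (IrrCharacter G)] [Fintype (IrrCharacter N)]
  [Fintype (IrrCharacter C)] [Fintype (P.subgroupOf C)] [Fintype (P.subgroupOf C →* ℂˣ)] in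
theorem isClassFunction_trN (f : C → ℂ) (hf : IsClassFunction C f) :
    IsClassFunction C (trN S f) := by
  intro c h
  simp only [trN]
  congr 1
  refine Finset.sum_congr rfl fun n _ => ?_
  rw [map_mul, map_mul, map_inv]
  exact hf _ _

omit [Fintype (IrrCharacter G)] [Fintype (IrrCharacter N)]
  [Fintype (IrrCharacter C)] [Fintype (P.subgroupOf C)] [Fintype (P.subgroupOf C →* ℂˣ)] in
theorem isCen_one_comp_cj {f : C → ℂ} (hf : IsCen f (1 : P.subgroupOf C →* ℂˣ)) (n : N) :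
    IsCen (fun c => f (cj S n c)) (1 : P.subgroupOf C →* ℂˣ) := by
  have := hf.comp_cj S n
  rwa [MonoidHom.one_comp] at this

/-- The restriction to `C` of an exceptional character with sign `-1`. -/
theorem res_eq_trN_of (hcyc : haveI := normal_CN S; IsCyclic (N ⧸ C.subgroupOf N))
    (heq : Fintype.card (IrrCharacter N) ≤
      (Finset.univ.filter fun χ : IrrCharacter G => ¬ Nat.card P ∣ charDegree χ.1).card)
    (χ : IrrCharacter G) (ϑ : Irr0 S)
    (w : IrrCharacter G → ℤ) (b : IrrCharacter N → IrrCharacter G)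
    (hwb : ∀ μ : {μ : P.subgroupOf C →* ℂˣ // μ ≠ 1}, w (b (LamN S μ ϑ)) = 0)
    (hb : ∀ μ μ' : {μ : P.subgroupOf C →* ℂˣ // μ ≠ 1},
      b (LamN S μ ϑ) = b (LamN S μ' ϑ) → LamN S μ ϑ = LamN S μ' ϑ)
    (hv : ∀ (μ : {μ : P.subgroupOf C →* ℂˣ // μ ≠ 1}) (χ' : IrrCharacter G),
      classInner (Gam S μ.1 ϑ.1.1) χ'.1 =
        ((w χ' + if χ' = b (LamN S μ ϑ) then (-1) else 0 : ℤ) : ℂ))
    (μ1 : {μ : P.subgroupOf C →* ℂˣ // μ ≠ 1}) (hχ : χ = b (LamN S μ1 ϑ))
    (h0 : ∀ ϑ' : Irr0 S, classInner ϑ'.1.1 (fun c : C => χ.1 c) = 0) :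
    (fun c : C => χ.1 c) = trN S (tw S μ1.1 ϑ.1.1) := by
  obtain ⟨χC, hχC⟩ : ∃ χC : C → ℂ, χC = fun c : C => χ.1 c := ⟨_, rfl⟩
  rw [← hχC] at h0 ⊢
  have hres : IsCharacter C χC := by
    rw [hχC]
    exact isCharacter_restrict C (isCharacter_of_isIrrCharacter χ.2)
  have hcl : IsClassFunction C χC := isClassFunction_of_isCharacter hres
  have hinv : NInv S χC := by
    rw [hχC]
    exact ninv_res S (irr_isClassFunction χ)
  have hwχ : w χ = 0 := by
    rw [hχ]
    exact hwb μ1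
  have hG : ∀ (μ : P.subgroupOf C →* ℂˣ) (ϑ' : Irr0 S),
      classInner (Gam S μ ϑ'.1.1) χ.1 =
        classInner ϑ'.1.1 χC - classInner (tw S μ ϑ'.1.1) χC := by
    intro μ ϑ'
    rw [inner_Gam S μ ϑ'.1.1 (irr_isClassFunction χ), ← hχC]
    simp only [Fm]
    rw [classInner_sub_left]
  -- (1)
  have hm : ∀ μ : {μ : P.subgroupOf C →* ℂˣ // μ ≠ 1},
      classInner (tw S μ.1 ϑ.1.1) χC = if χ = b (LamN S μ ϑ) then 1 else 0 := by
    intro μ
    have h1 := hv μ χ
    rw [hG, h0, hwχ] at h1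
    by_cases h : χ = b (LamN S μ ϑ)
    · rw [if_pos h] at h1 ⊢
      push_cast at h1
      linear_combination (-1 : ℂ) * h1
    · rw [if_neg h] at h1 ⊢
      push_cast at h1
      linear_combination (-1 : ℂ) * h1
  have hmem : χ ∈ setX S ϑ := by
    simp only [setX, Finset.mem_filter, Finset.mem_univ, true_and]
    refine ⟨μ1, ?_⟩
    rw [hv μ1 χ, hwχ, if_pos hχ]
    norm_num
  -- (2)
  have hdis : ∀ ϑ' : Irr0 S, ¬ relN S ϑ' ϑ → ∀ μ : P.subgroupOf C →* ℂˣ,
      classInner (tw S μ ϑ'.1.1) χC = 0 := by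
    intro ϑ' hrel μ
    by_cases hμ : μ = 1
    · rw [hμ, tw_one]
      exact h0 ϑ'
    · have hd := (setX_facts S hcyc heq ϑ).2 ϑ' hrel
      rw [Finset.disjoint_right] at hd
      have h1 := hd hmem
      simp only [setX, Finset.mem_filter, Finset.mem_univ, true_and] at h1
      push Not at h1
      have h2 := h1 ⟨μ, hμ⟩
      rw [hG, h0] at h2
      linear_combination (-1 : ℂ) * h2
  -- (3)
  have key : ∀ β : IrrCharacter C, classInner β.1 χC ≠ 0 →
      ∃ n : N, (fun c => tw S μ1.1 ϑ.1.1 (cj S n c)) = β.1 := by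
    intro β hβne
    obtain ⟨ω, ϑ', -, hβ⟩ := exists_tw_eq S β
    by_cases hrel : relN S ϑ' ϑ
    · obtain ⟨n, hn⟩ := hrel
      have e1 : (fun c => β.1 (cj S n c)) = tw S (ω.comp (cjP S n)) ϑ.1.1 := by
        rw [← hβ, tw_comp_cj, ← hn]
      have e2 : classInner (tw S (ω.comp (cjP S n)) ϑ.1.1) χC ≠ 0 := by
        rw [← e1, classInner_inv_left S hinv β.1 n]
        exact hβne
      have hν : ω.comp (cjP S n) ≠ 1 := by
        intro h1
        rw [h1, tw_one] at e2
        exact e2 (h0 ϑ)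
      have e3 := hm ⟨ω.comp (cjP S n), hν⟩
      have e4 : χ = b (LamN S ⟨ω.comp (cjP S n), hν⟩ ϑ) := by
        by_contra hcon
        rw [if_neg hcon] at e3
        exact e2 e3
      have e5 : LamN S ⟨ω.comp (cjP S n), hν⟩ ϑ = LamN S μ1 ϑ := by
        apply hb
        rw [← e4, ← hχ]
      obtain ⟨n', hn'⟩ := LamN_eq_imp S μ1 ⟨ω.comp (cjP S n), hν⟩ ϑ e5
      refine ⟨n' * n⁻¹, ?_⟩
      funext c
      have e6 : β.1 c = β.1 (cj S n (cj S n⁻¹ c)) := by rw [cj_cj_inv]
      have e7 := congrFun e1 (cj S n⁻¹ c)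
      have e8 := congrFun hn' (cj S n⁻¹ c)
      simp only at e7 e8
      rw [e6, e7, ← e8, cj_mul]
    · exfalso
      apply hβne
      rw [← hβ]
      exact hdis ϑ' hrel ω
  -- (4)
  obtain ⟨β1, hβ1⟩ : ∃ β1 : IrrCharacter C, β1 = twI S μ1.1 ϑ.1 := ⟨_, rfl⟩
  have hβ1v : β1.1 = tw S μ1.1 ϑ.1.1 := by rw [hβ1]; rfl
  have hcen1 : IsCen β1.1 μ1.1 := by
    rw [hβ1v]
    exact isCen_tw S μ1.1 ϑ.2
  rw [← hβ1v] at key ⊢
  have hcl' : IsClassFunction C (trN S β1.1) := isClassFunction_trN S β1.1 (irr_isClassFunction β1)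
  have hall : ∀ β : IrrCharacter C, classInner χC β.1 = classInner (trN S β1.1) β.1 := by
    intro β
    by_cases hex : ∃ n : N, (fun c => β1.1 (cj S n c)) = β.1
    · obtain ⟨n, hn⟩ := hex
      rw [← hn, classInner_inv_right S hinv β1.1 n,
        classInner_inv_right S (ninv_trN S β1.1) β1.1 n, ← classInner_conj_symm χC,
        ← classInner_conj_symm (trN S β1.1), inner_self_trN S β1 hcen1 μ1.2, hβ1v, hm μ1,
        if_pos hχ]
    · have e1 : classInner χC β.1 = 0 := by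
        by_contra hcon
        apply hex
        apply key
        rw [← classInner_conj_symm]
        exact (map_ne_zero _).mpr hcon
      have e2 : classInner (trN S β1.1) β.1 = 0 := by
        rw [← classInner_conj_symm, inner_trN_of_not S β β1 (fun n hn => hex ⟨n, hn⟩), map_zero]
      rw [e1, e2]
  have hz := eq_zero_of_inner_irr_eq_zero (isClassFunction_sub hcl hcl') (fun β => by
    rw [classInner_sub_left, hall β, sub_self])
  exact sub_eq_zero.mp hz

end Cfsg.Agent.H82.P1
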