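import Cfsg.Agent.H82.P2B

/-!
# Sylow subgroups of prime order, part 2C: characters of small degree (helper82)

In a local setup with `|P| = p`, `N / C` cyclic and `k_{p'}(G) ≥ k(N)`: an irreducible
character `χ` of degree less than `(p - 1) / 2` not containing `P` in its kernel restricts to
`C` as `trN (tw μ ϑ)`.
-/

set_option autoImplicit false
set_option linter.style.haveILetI false
set_option linter.unusedSectionVars false

namespace Cfsg.Agent.H82.P1

open Cfsg Cfsg.Agent.H4 Cfsg.Agent.H82 Cfsg.Agent.H82.BL Cfsg.Agent.Clifford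
open scoped ComplexConjugate
open Classical

universe u

variable {G : Type u} [Group G] [Fintype G] {p : ℕ} {N C P : Subgroup G} [Fintype N] [Fintype C]
  (S : Setup p N C P)
  [Fintype (IrrCharacter G)] [Fintype (IrrCharacter N)] [Fintype (IrrCharacter C)]
  [Fintype (P.subgroupOf C)] [Fintype (P.subgroupOf C →* ℂˣ)]

theorem card_dual (S' : Setup p N C P) (hP : Nat.card P = p) :
    Fintype.card (P.subgroupOf C →* ℂˣ) = p := by
  rw [← Nat.card_eq_fintype_card, (card_hom_units (comm_sub S')).2,
    Nat.card_congr (Subgroup.subgroupOfEquivOfLe S'.hPC).toEquiv, hP]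

/-- The shape on `C` of the characters of small degree. -/
theorem shape (hp : p.Prime) (hP : Nat.card P = p)
    (hcyc : haveI := normal_CN S; IsCyclic (N ⧸ C.subgroupOf N))
    (heq : Fintype.card (IrrCharacter N) ≤
      (Finset.univ.filter fun χ : IrrCharacter G => ¬ Nat.card P ∣ charDegree χ.1).card)
    (χ : IrrCharacter G) (hdeg : 2 * charDegree χ.1 + 1 < p)
    (x : G) (hx : x ∈ P) (hne : χ.1 x ≠ χ.1 1) :
    ∃ (ϑ : Irr0 S) (μ : {μ : P.subgroupOf C →* ℂˣ // μ ≠ 1}),
      (fun c : C => χ.1 c) = trN S (tw S μ.1 ϑ.1.1) := by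
  have hΛ := card_dual S hP
  obtain ⟨β0, ω0, hcen0, hω0, hne0⟩ :=
    exists_constituent S (isCharacter_of_isIrrCharacter χ.2) x hx hne
  obtain ⟨χC, hχC⟩ : ∃ χC : C → ℂ, χC = fun c : C => χ.1 c := ⟨_, rfl⟩
  rw [← hχC] at hne0 ⊢
  have hres : IsCharacter C χC := by
    rw [hχC]
    exact isCharacter_restrict C (isCharacter_of_isIrrCharacter χ.2)
  have hinv : NInv S χC := by
    rw [hχC]
    exact ninv_res S (irr_isClassFunction χ)
  have hd : χC 1 = (charDegree χ.1 : ℂ) := by
    rw [hχC]
    exact irr_one_eq_charDegree χ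
  obtain ⟨ω, ϑ, hcenβ, hβ⟩ := exists_tw_eq S β0
  have hωeq : ω = ω0 := IsCen.eq_of hcenβ hcen0 (irr_one_ne_zero β0)
  have hω : ω ≠ 1 := by
    rw [hωeq]
    exact hω0
  obtain ⟨w, b, s, hw, -, hwb, hs, hb, hv⟩ := exists_wbs_gen S hp hcyc heq ϑ ⟨ω, hω⟩
  have hex : ∀ μ : P.subgroupOf C →* ℂˣ, ∃ a : ℕ, classInner (tw S μ ϑ.1.1) χC = a :=
    fun μ => classInner_isCharacter_nat
      (isCharacter_tw S μ (isCharacter_of_isIrrCharacter ϑ.1.2)) hres
  choose m hm using hex
  have hm1 : classInner ϑ.1.1 χC = m 1 := by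
    have := hm 1
    rwa [tw_one] at this
  have hmω : m ω ≠ 0 := by
    intro h0
    apply hne0
    rw [← classInner_conj_symm, ← hβ, hm ω, h0]
    simp
  have hG : ∀ (μ : P.subgroupOf C →* ℂˣ) (ϑ' : Irr0 S),
      classInner (Gam S μ ϑ'.1.1) χ.1 =
        classInner ϑ'.1.1 χC - classInner (tw S μ ϑ'.1.1) χC := by
    intro μ ϑ'
    rw [inner_Gam S μ ϑ'.1.1 (irr_isClassFunction χ), ← hχC]
    simp only [Fm]
    rw [classInner_sub_left]
  have hvm : ∀ μ : {μ : P.subgroupOf C →* ℂˣ // μ ≠ 1},
      (m 1 : ℤ) - m μ.1 = w χ + if χ = b (LamN S μ ϑ) then s else 0 := by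
    intro μ
    have h1 := hv μ χ
    rw [hG, hm1, hm μ.1] at h1
    exact_mod_cast h1
  have hbound : ∀ M : Finset (P.subgroupOf C →* ℂˣ), (∀ μ ∈ M, m μ ≠ 0) →
      M.card ≤ charDegree χ.1 := by
    intro M hM
    apply card_le_deg_cen hres _ hd M
    intro μ hμ
    refine ⟨twI S μ ϑ.1, isCen_tw S μ ϑ.2, ?_⟩
    rw [twI_val, ← classInner_conj_symm, hm μ]
    simp only [map_natCast]
    exact_mod_cast hM μ hμ
  have hall : (∀ μ : P.subgroupOf C →* ℂˣ, m μ ≠ 0) → False := by
    intro h
    have h1 := hbound Finset.univ (fun μ _ => h μ)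
    rw [Finset.card_univ, hΛ] at h1
    omega
  have hall' : (∀ μ : P.subgroupOf C →* ℂˣ, μ ≠ 1 → m μ ≠ 0) → False := by
    intro h
    have h1 := hbound (Finset.univ.erase 1) (fun μ hμ => h μ (Finset.mem_erase.mp hμ).1)
    rw [Finset.card_erase_of_mem (Finset.mem_univ _), Finset.card_univ, hΛ] at h1
    have := hp.two_le
    omega
  rcases hw χ with hw0 | hw1 | hw1
  · by_cases hF : ∃ μ : {μ : P.subgroupOf C →* ℂˣ // μ ≠ 1}, χ = b (LamN S μ ϑ)
    · obtain ⟨μF, hμF⟩ := hF
      rcases hs with hs1 | hs1
      · -- s = 1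
        exfalso
        have hF1 := hvm μF
        rw [hw0, if_pos hμF, hs1] at hF1
        have hm1' : m 1 = 1 := by
          by_contra hcon
          apply hall
          intro μ
          by_cases hμ : μ = 1
          · rw [hμ]
            omega
          · have h2 : (m 1 : ℤ) - m μ = w χ + if χ = b (LamN S ⟨μ, hμ⟩ ϑ) then s else 0 :=
              hvm ⟨μ, hμ⟩
            rw [hw0, hs1] at h2
            split_ifs at h2 <;> omega
        -- the characters with `m = 0` lie in one orbit
        have hsub : (Finset.univ.filter fun μ : P.subgroupOf C →* ℂˣ => ¬ m μ ≠ 0) ⊆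
            Finset.univ.image (fun n : N => μF.1.comp (cjP S n)) := by
          intro μ hμ
          have hμ0 : m μ = 0 := not_not.mp (Finset.mem_filter.mp hμ).2
          have hμ1 : μ ≠ 1 := by
            intro h
            rw [h] at hμ0
            omega
          have h2 := hvm ⟨μ, hμ1⟩
          rw [hw0, hs1] at h2
          have h3 : χ = b (LamN S ⟨μ, hμ1⟩ ϑ) := by
            by_contra hcon
            rw [if_neg hcon] at h2
            simp only [hμ0] at h2
            omega
          have h4 : LamN S ⟨μ, hμ1⟩ ϑ = LamN S μF ϑ := by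
            apply hb
            rw [← h3, ← hμF]
          obtain ⟨n, hn⟩ := LamN_eq_imp S μF ⟨μ, hμ1⟩ ϑ h4
          rw [tw_comp_cj] at hn
          have c1 : IsCen (tw S (μF.1.comp (cjP S n)) (fun c => ϑ.1.1 (cj S n c)))
              (μF.1.comp (cjP S n)) := isCen_tw S _ (isCen_one_comp_cj S ϑ.2 n)
          rw [hn] at c1
          have c2 : IsCen (tw S μ ϑ.1.1) μ := isCen_tw S μ ϑ.2
          have c3 := IsCen.eq_of c1 c2 (irr_one_ne_zero (twI S μ ϑ.1))
          exact Finset.mem_image.mpr ⟨n, Finset.mem_univ _, c3⟩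
        have hB1 := hbound (Finset.univ.filter fun μ : P.subgroupOf C →* ℂˣ => m μ ≠ 0)
          (fun μ hμ => (Finset.mem_filter.mp hμ).2)
        have hB0 := Finset.card_le_card hsub
        rw [card_orbit_eq S μF.2] at hB0
        have hsplit := Finset.card_filter_add_card_filter_not (s := Finset.univ)
          (fun μ : P.subgroupOf C →* ℂˣ => m μ ≠ 0)
        rw [Finset.card_univ, hΛ] at hsplit
        -- the orbit of `ω`
        have hB2 : ind S ≤ charDegree χ.1 := by
          rw [← card_orbit_eq S hω]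
          apply card_le_deg_cen hres _ hd
          intro ν hν
          obtain ⟨n, -, rfl⟩ := Finset.mem_image.mp hν
          refine ⟨cjI S n (twI S ω ϑ.1), (isCen_tw S ω ϑ.2).comp_cj S n, ?_⟩
          rw [cjI_val, classInner_inv_right S hinv _ n, twI_val, ← classInner_conj_symm, hm ω]
          simp only [map_natCast]
          exact_mod_cast hmω
        omega
      · -- s = -1
        subst hs1
        have hm10 : m 1 = 0 := by
          by_contra hcon
          apply hall
          intro μ
          by_cases hμ : μ = 1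
          · rw [hμ]
            exact hcon
          · have h2 : (m 1 : ℤ) - m μ = w χ + if χ = b (LamN S ⟨μ, hμ⟩ ϑ) then (-1) else 0 :=
              hvm ⟨μ, hμ⟩
            rw [hw0] at h2
            split_ifs at h2 <;> omega
        have hmem : χ ∈ setX S ϑ := by
          simp only [setX, Finset.mem_filter, Finset.mem_univ, true_and]
          refine ⟨μF, ?_⟩
          rw [hv μF χ, hw0, if_pos hμF]
          norm_num
        have h0 : ∀ ϑ' : Irr0 S, classInner ϑ'.1.1 χC = 0 := by
          intro ϑ'
          by_cases hrel : relN S ϑ' ϑ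
          · obtain ⟨n, hn⟩ := hrel
            rw [← classInner_inv_left S hinv ϑ'.1.1 n, ← hn, hm1, hm10]
            simp
          · by_contra hcon
            have hd' := (setX_facts S hcyc heq ϑ).2 ϑ' hrel
            rw [Finset.disjoint_right] at hd'
            have h1 := hd' hmem
            simp only [setX, Finset.mem_filter, Finset.mem_univ, true_and] at h1
            push Not at h1
            have h3 : ∀ μ : P.subgroupOf C →* ℂˣ,
                classInner (tw S μ ϑ'.1.1) χC = classInner ϑ'.1.1 χC := by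
              intro μ
              by_cases hμ : μ = 1
              · rw [hμ, tw_one]
              · have h2 := h1 ⟨μ, hμ⟩
                rw [hG] at h2
                linear_combination (-1 : ℂ) * h2
            have h4 := card_le_deg_cen hres _ hd Finset.univ (fun μ _ => by
              refine ⟨twI S μ ϑ'.1, isCen_tw S μ ϑ'.2, ?_⟩
              rw [twI_val, ← classInner_conj_symm, h3 μ]
              exact (map_ne_zero _).mpr hcon)
            rw [Finset.card_univ, hΛ] at h4
            omega
        rw [hχC] at h0 ⊢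
        exact ⟨ϑ, μF, res_eq_trN_of S hcyc heq χ ϑ w b hwb hb hv μF hμF h0⟩
    · exfalso
      push Not at hF
      apply hall
      intro μ
      by_cases hμ : μ = 1
      · rw [hμ]
        have h2 := hvm ⟨ω, hω⟩
        rw [hw0, if_neg (hF _)] at h2
        simp only at h2
        omega
      · have h2 := hvm ⟨μ, hμ⟩
        rw [hw0, if_neg (hF _)] at h2
        have h3 := hvm ⟨ω, hω⟩
        rw [hw0, if_neg (hF _)] at h3
        simp only at h2 h3
        omega
  · exfalso
    have hnb : ∀ μ : {μ : P.subgroupOf C →* ℂˣ // μ ≠ 1}, χ ≠ b (LamN S μ ϑ) := by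
      intro μ h
      have := hwb μ
      rw [← h, hw1] at this
      exact one_ne_zero this
    apply hall
    intro μ
    have h3 := hvm ⟨ω, hω⟩
    rw [hw1, if_neg (hnb _)] at h3
    simp only at h3
    by_cases hμ : μ = 1
    · rw [hμ]
      omega
    · have h2 := hvm ⟨μ, hμ⟩
      rw [hw1, if_neg (hnb _)] at h2
      simp only at h2
      omega
  · exfalso
    have hnb : ∀ μ : {μ : P.subgroupOf C →* ℂˣ // μ ≠ 1}, χ ≠ b (LamN S μ ϑ) := by
      intro μ h
      have := hwb μ
      rw [← h, hw1] at this
      norm_num at this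
    apply hall'
    intro μ hμ
    have h2 := hvm ⟨μ, hμ⟩
    rw [hw1, if_neg (hnb _)] at h2
    simp only at h2
    omega

end Cfsg.Agent.H82.P1
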