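import Cfsg.Agent.H82.P2C
import Cfsg.Agent.H79.GaloisChar

/-!
# Sylow subgroups of prime order, part 2D: Galois conjugates (helper82)

If `χ|_C = trN (tw μ₁ ϑ)` then for every `μ₂ ≠ 1` there is an irreducible character `θ` with
`θ|_C = trN (tw μ₂ ϑ)` which agrees with `χ` on the `p`-regular elements.
-/

set_option autoImplicit false
set_option linter.style.haveILetI false
set_option linter.unusedSectionVars false

namespace Cfsg.Agent.H82.P1

open Cfsg Cfsg.Agent.H4 Cfsg.Agent.H82 Cfsg.Agent.H82.BL Cfsg.Agent.Clifford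
open scoped ComplexConjugate
open Classical

universe u

variable {G : Type u} [Group G] [Fintype G] {p : ℕ} {N C P : Subgroup G} [Fintype N] [Fintype C]
  (S : Setup p N C P)
  [Fintype (IrrCharacter G)] [Fintype (IrrCharacter N)] [Fintype (IrrCharacter C)]
  [Fintype (P.subgroupOf C)] [Fintype (P.subgroupOf C →* ℂˣ)]

theorem galois (hp : p.Prime) (hP : Nat.card P = p) (q : ℕ) (hG : Nat.card G = p * q)
    (hpq : p.Coprime q) (χ : IrrCharacter G) (ϑ : Irr0 S)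
    (μ1 μ2 : P.subgroupOf C →* ℂˣ) (hμ1 : μ1 ≠ 1) (hμ2 : μ2 ≠ 1)
    (hχ : (fun c : C => χ.1 c) = trN S (tw S μ1 ϑ.1.1)) :
    ∃ θ : IrrCharacter G, (fun c : C => θ.1 c) = trN S (tw S μ2 ϑ.1.1) ∧
      ∀ g : G, ¬ p ∣ orderOf g → θ.1 g = χ.1 g := by
  haveI : Fact p.Prime := ⟨hp⟩
  have hΛ : Nat.card (P.subgroupOf C →* ℂˣ) = p := by
    rw [Nat.card_eq_fintype_card]
    exact card_dual S hP
  have htop : Subgroup.zpowers μ1 = ⊤ := zpowers_eq_top_of_prime_card hΛ hμ1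
  obtain ⟨z, hz⟩ : ∃ z : ℤ, ∀ x : P.subgroupOf C, μ2 x = μ1 x ^ z := by
    have h1 : μ2 ∈ Subgroup.zpowers μ1 := by
      rw [htop]
      exact Subgroup.mem_top _
    obtain ⟨z, hz⟩ := Subgroup.mem_zpowers_iff.mp h1
    refine ⟨z, fun x => ?_⟩
    rw [← hz]
    exact MonoidHom.zpow_apply μ1 z x
  have hcardD : Nat.card (P.subgroupOf C) = p := by
    rw [Nat.card_congr (Subgroup.subgroupOfEquivOfLe S.hPC).toEquiv, hP]
  have hpow : ∀ x : P.subgroupOf C, μ1 x ^ p = 1 := by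
    intro x
    have h1 := pow_card_eq_one' (G := P.subgroupOf C) (x := x)
    rw [hcardD] at h1
    rw [← map_pow, h1, map_one]
  have hp0 : (p : ℤ) ≠ 0 := by exact_mod_cast hp.pos.ne'
  obtain ⟨a, ha⟩ : ∃ a : ℕ, ∀ x : P.subgroupOf C, μ2 x = μ1 x ^ a := by
    refine ⟨(z % (p : ℤ)).toNat, fun x => ?_⟩
    rw [← zpow_natCast, Int.toNat_of_nonneg (Int.emod_nonneg z hp0), hz x]
    conv_lhs => rw [← Int.emod_add_mul_ediv z p]
    rw [zpow_add, zpow_mul, zpow_natCast, hpow, one_zpow, mul_one]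
  have hap : ¬ p ∣ a := by
    rintro ⟨j, rfl⟩
    apply hμ2
    ext x
    rw [ha x, pow_mul, hpow, one_pow]
    rfl
  obtain ⟨k, hk1, hk2⟩ := Nat.chineseRemainder hpq a 1
  have hkp : k.Coprime p := by
    have h1 : k.gcd p = a.gcd p := hk1.gcd_eq
    have h2 : a.gcd p = 1 := ((Nat.Prime.coprime_iff_not_dvd hp).mpr hap).symm
    rw [Nat.Coprime, h1, h2]
  have hkq : k.Coprime q := by
    have h1 : k.gcd q = (1 : ℕ).gcd q := hk2.gcd_eq
    rw [Nat.Coprime, h1]
    exact Nat.gcd_one_left q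
  have hk : k.Coprime (Nat.card G) := by
    rw [hG]
    exact Nat.Coprime.mul_right hkp hkq
  have hreg : ∀ g : G, ¬ p ∣ orderOf g → g ^ k = g := by
    intro g hg
    have h1 : orderOf g ∣ p * q := by
      rw [← hG]
      exact orderOf_dvd_natCard g
    have h2 : (orderOf g).Coprime p := ((Nat.Prime.coprime_iff_not_dvd hp).mpr hg).symm
    have h3 : orderOf g ∣ q := h2.dvd_of_dvd_mul_left h1
    have h4 : k ≡ 1 [MOD orderOf g] := Nat.ModEq.of_dvd h3 hk2
    have h5 := pow_eq_pow_iff_modEq.mpr h4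
    rwa [pow_one] at h5
  have hμk : ∀ x : P.subgroupOf C, μ1 x ^ k = μ2 x := by
    intro x
    rw [ha x]
    apply pow_eq_pow_iff_modEq.mpr
    exact Nat.ModEq.of_dvd (orderOf_dvd_of_pow_eq_one (hpow x)) hk1
  have key : ∀ c : C, tw S μ1 ϑ.1.1 (c ^ k) = tw S μ2 ϑ.1.1 c := by
    intro c
    simp only [tw]
    have e1 : μ1 (S.ρ (c ^ k)) = μ2 (S.ρ c) := by
      rw [map_pow, map_pow, hμk]
    rw [e1]
    congr 1
    obtain ⟨x, hx⟩ : ∃ x : P.subgroupOf C, x = S.ρ c := ⟨_, rfl⟩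
    obtain ⟨y, hy⟩ : ∃ y : C, y = (x : C)⁻¹ * c := ⟨_, rfl⟩
    have hy1 : S.ρ y = 1 := by
      rw [hy, map_mul, map_inv, S.hρ, hx, inv_mul_cancel]
    have hyreg : ¬ p ∣ orderOf (y : G) := (S.hreg y).mpr hy1
    have hyk : y ^ k = y := by
      apply Subtype.ext
      rw [Subgroup.coe_pow]
      exact hreg (y : G) hyreg
    have hc : c = (x : C) * y := by
      rw [hy, mul_inv_cancel_left]
    have hcomm : Commute (x : C) y := by
      apply Subtype.ext
      exact S.cent _ (Subgroup.mem_subgroupOf.mp x.2) _ y.2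
    have e2 : c ^ k = ((x ^ k : P.subgroupOf C) : C) * y := by
      rw [hc, hcomm.mul_pow, hyk, Subgroup.coe_pow]
    rw [e2, ϑ.2 (x ^ k) y, hc, ϑ.2 x y]
    simp only [MonoidHom.one_apply]
  refine ⟨⟨fun g => χ.1 (g ^ k), Cfsg.Agent.H79.isIrrCharacter_comp_pow k hk χ.2⟩, ?_, ?_⟩
  · funext c
    have h1 := congrFun hχ (c ^ k)
    simp only [Subgroup.coe_pow] at h1
    change χ.1 ((c : G) ^ k) = _
    rw [h1]
    simp only [trN]
    congr 1
    refine Finset.sum_congr rfl fun n _ => ?_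
    rw [map_pow, key]
  · intro g hg
    change χ.1 (g ^ k) = χ.1 g
    rw [hreg g hg]

end Cfsg.Agent.H82.P1
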