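import Cfsg.Agent.H82.P2D
import Cfsg.Agent.H82.IndDeg

/-!
# Sylow subgroups of prime order, part 2E: characters without `P`-trivial constituents (helper82)

The multiplicities of the linear characters `tw μ 1` in the restriction to `C` of a character
of `G` none of whose constituents on `C` is trivial on `P`, in terms of the lattice over the
trivial character.
-/

set_option autoImplicit false
set_option linter.style.haveILetI false
set_option linter.unusedSectionVars false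

namespace Cfsg.Agent.H82.P1

open Cfsg Cfsg.Agent.H4 Cfsg.Agent.H82 Cfsg.Agent.H82.BL Cfsg.Agent.Clifford
open scoped ComplexConjugate
open Classical

universe u

variable {G : Type u} [Group G] [Fintype G] {p : ℕ} {N C P : Subgroup G} [Fintype N] [Fintype C]
  (S : Setup p N C P)
  [Fintype (IrrCharacter G)] [Fintype (IrrCharacter N)] [Fintype (IrrCharacter C)]
  [Fintype (P.subgroupOf C)] [Fintype (P.subgroupOf C →* ℂˣ)]

/-- The sum over `P` of a function without `P`-trivial constituents vanishes. -/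
theorem sum_D_eq_zero (Ψ : C → ℂ) (hΨ : ∀ ϑ' : Irr0 S, classInner ϑ'.1.1 Ψ = 0) :
    ∑ x : P.subgroupOf C, Ψ (x : C) = 0 := by
  have hB : classInner (indD S) Ψ = 0 := by
    have hexp := classFunction_eq_finsum (isClassFunction_indD S)
    rw [finsum_eq_sum_of_fintype] at hexp
    rw [hexp, classInner_sum_left]
    refine Finset.sum_eq_zero fun β _ => ?_
    rw [classInner_smul_left]
    by_cases hβ : IsCen β.1 (1 : P.subgroupOf C →* ℂˣ)
    · rw [hΨ ⟨β, hβ⟩, mul_zero]
    · obtain ⟨ω, hω⟩ := exists_isCen S β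
      have hne : (1 : P.subgroupOf C →* ℂˣ) ≠ ω := by
        rintro rfl
        exact hβ hω
      rw [inner_cen_ne (isCen_indD S) hω hne, zero_mul]
  unfold classInner at hB
  have h2 := (mul_eq_zero.mp hB).resolve_left (inv_ne_zero (cardC_ne_zero C))
  have h3 : ∑ x : P.subgroupOf C, conj (Ψ (x : C)) = 0 := by
    rw [sum_coe_eq (P.subgroupOf C) (fun c : C => conj (Ψ c))]
    refine Eq.trans ?_ h2
    refine Finset.sum_congr rfl fun c _ => ?_
    simp only [indD]
    by_cases hc : c ∈ P.subgroupOf C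
    · rw [if_pos hc, if_pos hc, one_mul]
    · rw [if_neg hc, if_neg hc, zero_mul]
  have h4 := congrArg conj h3
  rw [map_sum, map_zero] at h4
  refine Eq.trans ?_ h4
  exact Finset.sum_congr rfl fun x _ => (Complex.conj_conj _).symm

omit [Fintype (IrrCharacter G)] [Fintype (IrrCharacter N)] [Fintype (IrrCharacter C)]
  [Fintype (P.subgroupOf C)] [Fintype (P.subgroupOf C →* ℂˣ)] in
/-- A constituent of a character without `P`-trivial constituents on `C` has none either. -/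
theorem no_triv_of_constituent {Ξ : G → ℂ} (hΞ : IsCharacter G Ξ)
    (h0 : ∀ ϑ' : Irr0 S, classInner ϑ'.1.1 (fun c : C => Ξ c) = 0) (ψ : IrrCharacter G)
    (hψ : classInner Ξ ψ.1 ≠ 0) (ϑ' : Irr0 S) :
    classInner ϑ'.1.1 (fun c : C => ψ.1 c) = 0 := by
  have hsub : IsCharacter G (Ξ - ψ.1) := isCharacter_sub_irr hΞ ψ hψ
  have h1 : IsCharacter C (fun c : C => (Ξ - ψ.1) c) := isCharacter_restrict C hsub
  have h2 : IsCharacter C (fun c : C => ψ.1 c) :=
    isCharacter_restrict C (isCharacter_of_isIrrCharacter ψ.2)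
  obtain ⟨a, ha⟩ := classInner_isCharacter_nat (isCharacter_of_isIrrCharacter ϑ'.1.2) h1
  obtain ⟨b, hb⟩ := classInner_isCharacter_nat (isCharacter_of_isIrrCharacter ϑ'.1.2) h2
  have e : (fun c : C => Ξ c) = (fun c : C => (Ξ - ψ.1) c) + (fun c : C => ψ.1 c) := by
    funext c
    simp
  have h3 := h0 ϑ'
  rw [e, classInner_add_right, ha, hb] at h3
  have h4 : a + b = 0 := by exact_mod_cast h3
  have h5 : b = 0 := by omega
  rw [hb, h5]
  simp

/-- The multiplicities of the `tw μ 1` in a character without `P`-trivial constituents. -/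
theorem b0_mult (w : IrrCharacter G → ℤ) (b : IrrCharacter N → IrrCharacter G) (s : ℤ)
    (hv : ∀ (μ : {μ : P.subgroupOf C →* ℂˣ // μ ≠ 1}) (χ' : IrrCharacter G),
      classInner (Gam S μ.1 (triv0 S).1.1) χ'.1 =
        ((w χ' + if χ' = b (LamN S μ (triv0 S)) then s else 0 : ℤ) : ℂ))
    (ψ : IrrCharacter G) (h0 : ∀ ϑ' : Irr0 S, classInner ϑ'.1.1 (fun c : C => ψ.1 c) = 0)
    (μ : {μ : P.subgroupOf C →* ℂˣ // μ ≠ 1}) :
    classInner (tw S μ.1 1) (fun c : C => ψ.1 c) =
      ((-(w ψ) - if ψ = b (LamN S μ (triv0 S)) then s else 0 : ℤ) : ℂ) := by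
  have h1 := hv μ ψ
  rw [inner_Gam S μ.1 _ (irr_isClassFunction ψ)] at h1
  simp only [Fm] at h1
  rw [classInner_sub_left, h0 (triv0 S)] at h1
  have h2 : classInner (tw S μ.1 1) (fun c : C => ψ.1 c) =
      classInner (tw S μ.1 (triv0 S).1.1) (fun c : C => ψ.1 c) := rfl
  rw [h2]
  push_cast at h1 ⊢
  linear_combination (-1 : ℂ) * h1

/-- The value on the `p`-singular elements of `C` of the characters with `w ≠ 0`. -/
theorem sing_value (hcyc : haveI := normal_CN S; IsCyclic (N ⧸ C.subgroupOf N))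
    (heq : Fintype.card (IrrCharacter N) ≤
      (Finset.univ.filter fun χ : IrrCharacter G => ¬ Nat.card P ∣ charDegree χ.1).card)
    (w : IrrCharacter G → ℤ) (b : IrrCharacter N → IrrCharacter G) (s : ℤ)
    (hwb : ∀ μ : {μ : P.subgroupOf C →* ℂˣ // μ ≠ 1}, w (b (LamN S μ (triv0 S))) = 0)
    (hv : ∀ (μ : {μ : P.subgroupOf C →* ℂˣ // μ ≠ 1}) (χ' : IrrCharacter G),
      classInner (Gam S μ.1 (triv0 S).1.1) χ'.1 =
        ((w χ' + if χ' = b (LamN S μ (triv0 S)) then s else 0 : ℤ) : ℂ))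
    (μ0 : {μ : P.subgroupOf C →* ℂˣ // μ ≠ 1})
    (χ : IrrCharacter G) (hwχ : w χ ≠ 0) (c : C) (hc : p ∣ orderOf (c : G)) :
    χ.1 c = w χ := by
  have hne : ∀ μ : {μ : P.subgroupOf C →* ℂˣ // μ ≠ 1}, χ ≠ b (LamN S μ (triv0 S)) :=
    fun μ h => hwχ (by rw [h]; exact hwb μ)
  have hz : ∀ μ : {μ : P.subgroupOf C →* ℂˣ // μ ≠ 1},
      classInner (Gam S μ.1 1) χ.1 = w χ := by
    intro μ
    have h1 := hv μ χ
    rw [if_neg (hne μ), add_zero] at h1
    exact h1
  have hmem : χ ∈ setX S (triv0 S) := by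
    simp only [setX, Finset.mem_filter, Finset.mem_univ, true_and]
    refine ⟨μ0, ?_⟩
    rw [triv0_val, hz μ0]
    exact_mod_cast hwχ
  have hdisj : ∀ ϑ : Irr0 S, ϑ ≠ triv0 S →
      ∀ μ : {μ : P.subgroupOf C →* ℂˣ // μ ≠ 1},
        classInner (Gam S μ.1 ϑ.1.1) χ.1 = 0 := by
    intro ϑ hϑ μ
    by_contra hne0
    have hd := (setX_triv_facts S hcyc heq).2 ϑ hϑ
    rw [Finset.disjoint_left] at hd
    apply hd _ hmem
    simp only [setX, Finset.mem_filter, Finset.mem_univ, true_and]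
    exact ⟨μ, hne0⟩
  exact value_sing S χ (w χ) hz hdisj c hc

/-- A character with `w ≠ 0` and without `P`-trivial constituents on `C` has `w = -1` and
degree `p - 1`. -/
theorem neg_of_no_triv (hp : p.Prime) (hP : Nat.card P = p)
    (hcyc : haveI := normal_CN S; IsCyclic (N ⧸ C.subgroupOf N))
    (heq : Fintype.card (IrrCharacter N) ≤
      (Finset.univ.filter fun χ : IrrCharacter G => ¬ Nat.card P ∣ charDegree χ.1).card)
    (w : IrrCharacter G → ℤ) (b : IrrCharacter N → IrrCharacter G) (s : ℤ)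
    (hw : ∀ χ, w χ = 0 ∨ w χ = 1 ∨ w χ = -1)
    (hwb : ∀ μ : {μ : P.subgroupOf C →* ℂˣ // μ ≠ 1}, w (b (LamN S μ (triv0 S))) = 0)
    (hv : ∀ (μ : {μ : P.subgroupOf C →* ℂˣ // μ ≠ 1}) (χ' : IrrCharacter G),
      classInner (Gam S μ.1 (triv0 S).1.1) χ'.1 =
        ((w χ' + if χ' = b (LamN S μ (triv0 S)) then s else 0 : ℤ) : ℂ))
    (μ0 : {μ : P.subgroupOf C →* ℂˣ // μ ≠ 1})
    (ψ : IrrCharacter G) (h0 : ∀ ϑ' : Irr0 S, classInner ϑ'.1.1 (fun c : C => ψ.1 c) = 0)
    (hwψ : w ψ ≠ 0) : w ψ = -1 ∧ charDegree ψ.1 = p - 1 := by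
  have hsum := sum_D_eq_zero S (fun c : C => ψ.1 c) h0
  have hcard : Nat.card (P.subgroupOf C) = p := by
    rw [Nat.card_congr (Subgroup.subgroupOfEquivOfLe S.hPC).toEquiv, hP]
  have h2 : ∑ x : P.subgroupOf C, ψ.1 ((x : C) : G) =
      (charDegree ψ.1 : ℂ) + ((p - 1 : ℕ) : ℂ) * (w ψ : ℂ) := by
    rw [← Finset.add_sum_erase Finset.univ _ (Finset.mem_univ (1 : P.subgroupOf C))]
    have e1 : ψ.1 (((1 : P.subgroupOf C) : C) : G) = (charDegree ψ.1 : ℂ) := by
      have : (((1 : P.subgroupOf C) : C) : G) = 1 := rfl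
      rw [this, irr_one_eq_charDegree]
    have e2 : ∀ x ∈ Finset.univ.erase (1 : P.subgroupOf C),
        ψ.1 ((x : C) : G) = (w ψ : ℂ) := by
      intro x hx
      have hx1 : x ≠ 1 := (Finset.mem_erase.mp hx).1
      have hsing : p ∣ orderOf ((x : C) : G) := by
        by_contra hreg
        have := (S.hreg (x : C)).mp hreg
        rw [S.hρ] at this
        exact hx1 this
      exact sing_value S hcyc heq w b s hwb hv μ0 ψ hwψ (x : C) hsing
    rw [e1, Finset.sum_congr rfl e2, Finset.sum_const, Finset.card_erase_of_mem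
      (Finset.mem_univ _), Finset.card_univ, ← Nat.card_eq_fintype_card, hcard, nsmul_eq_mul]
  rw [hsum] at h2
  have hp1 : 1 ≤ p := hp.one_le
  have h3 : (charDegree ψ.1 : ℤ) + ((p : ℤ) - 1) * w ψ = 0 := by
    have : (((charDegree ψ.1 : ℤ) + ((p : ℤ) - 1) * w ψ : ℤ) : ℂ) = 0 := by
      push_cast
      rw [h2]
      push_cast [Nat.cast_sub hp1]
      ring
    exact_mod_cast this
  have hd : (0 : ℤ) < (charDegree ψ.1 : ℤ) := by exact_mod_cast charDegree_pos ψ
  have hp2 : (2 : ℤ) ≤ p := by exact_mod_cast hp.two_le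
  rcases hw ψ with h | h | h
  · exact absurd h hwψ
  · rw [h] at h3
    exfalso
    linarith
  · refine ⟨h, ?_⟩
    rw [h] at h3
    have h4 : (charDegree ψ.1 : ℤ) = ((p - 1 : ℕ) : ℤ) := by
      rw [Nat.cast_sub hp1]
      push_cast
      linarith
    exact_mod_cast h4

/-- The multiplicities of the `tw μ 1` in the restriction to `C` of a character of `G` without
`P`-trivial constituents. -/
theorem b0_star (w : IrrCharacter G → ℤ) (b : IrrCharacter N → IrrCharacter G) (s : ℤ)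
    (hv : ∀ (μ : {μ : P.subgroupOf C →* ℂˣ // μ ≠ 1}) (χ' : IrrCharacter G),
      classInner (Gam S μ.1 (triv0 S).1.1) χ'.1 =
        ((w χ' + if χ' = b (LamN S μ (triv0 S)) then s else 0 : ℤ) : ℂ))
    {Ξ : G → ℂ} (hΞ : IsCharacter G Ξ)
    (h0 : ∀ ϑ' : Irr0 S, classInner ϑ'.1.1 (fun c : C => Ξ c) = 0) :
    ∃ mm : IrrCharacter G → ℕ, (∀ ψ : IrrCharacter G, classInner Ξ ψ.1 = mm ψ) ∧
      ∀ μ : {μ : P.subgroupOf C →* ℂˣ // μ ≠ 1},
        classInner (tw S μ.1 1) (fun c : C => Ξ c) =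
          ((-(∑ ψ : IrrCharacter G, (mm ψ : ℤ) * w ψ) -
            s * mm (b (LamN S μ (triv0 S))) : ℤ) : ℂ) := by
  obtain ⟨mm, hmm⟩ := isCharacter_iff.mp hΞ
  have hinner : ∀ ψ : IrrCharacter G, classInner Ξ ψ.1 = mm ψ := by
    intro ψ
    rw [hmm, classInner_finsum_irr]
  rw [finsum_eq_sum_of_fintype] at hmm
  refine ⟨mm, hinner, ?_⟩
  intro μ
  have hC : (fun c : C => Ξ c) =
      ∑ ψ : IrrCharacter G, (mm ψ : ℂ) • (fun c : C => ψ.1 c) := by
    funext c
    have h1 := congrFun hmm (c : G)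
    rw [Finset.sum_apply] at h1
    rw [h1, Finset.sum_apply]
    rfl
  have hterm : ∀ ψ : IrrCharacter G,
      conj (mm ψ : ℂ) * classInner (tw S μ.1 1) (fun c : C => ψ.1 c) =
        (((mm ψ : ℤ) * (-(w ψ) - if ψ = b (LamN S μ (triv0 S)) then s else 0) : ℤ) : ℂ) := by
    intro ψ
    by_cases hψ : mm ψ = 0
    · rw [hψ]
      simp
    · have hne : classInner Ξ ψ.1 ≠ 0 := by
        rw [hinner]
        exact_mod_cast hψ
      rw [b0_mult S w b s hv ψ (no_triv_of_constituent S hΞ h0 ψ hne) μ, Complex.conj_natCast]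
      push_cast
      rfl
  rw [hC, classInner_sum_right]
  simp only [classInner_smul_right, hterm]
  rw [← Int.cast_sum]
  congr 1
  simp only [mul_sub, Finset.sum_sub_distrib, mul_ite, mul_zero, Finset.sum_ite_eq',
    Finset.mem_univ, if_true, mul_neg, Finset.sum_neg_distrib]
  ring

/-- The exceptional characters without `P`-trivial constituents. -/
theorem exc_structure (hcyc : haveI := normal_CN S; IsCyclic (N ⧸ C.subgroupOf N))
    (heq : Fintype.card (IrrCharacter N) ≤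
      (Finset.univ.filter fun χ : IrrCharacter G => ¬ Nat.card P ∣ charDegree χ.1).card)
    (w : IrrCharacter G → ℤ) (b : IrrCharacter N → IrrCharacter G) (s : ℤ)
    (hs : s = 1 ∨ s = -1)
    (hwb : ∀ μ : {μ : P.subgroupOf C →* ℂˣ // μ ≠ 1}, w (b (LamN S μ (triv0 S))) = 0)
    (hb : ∀ μ μ' : {μ : P.subgroupOf C →* ℂˣ // μ ≠ 1},
      b (LamN S μ (triv0 S)) = b (LamN S μ' (triv0 S)) →
        LamN S μ (triv0 S) = LamN S μ' (triv0 S))
    (hv : ∀ (μ : {μ : P.subgroupOf C →* ℂˣ // μ ≠ 1}) (χ' : IrrCharacter G),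
      classInner (Gam S μ.1 (triv0 S).1.1) χ'.1 =
        ((w χ' + if χ' = b (LamN S μ (triv0 S)) then s else 0 : ℤ) : ℂ))
    (μ' : {μ : P.subgroupOf C →* ℂˣ // μ ≠ 1})
    (h0 : ∀ ϑ' : Irr0 S,
      classInner ϑ'.1.1 (fun c : C => (b (LamN S μ' (triv0 S))).1 c) = 0) :
    s = -1 ∧ (fun c : C => (b (LamN S μ' (triv0 S))).1 c) = trN S (tw S μ'.1 1) := by
  have h1 := b0_mult S w b s hv (b (LamN S μ' (triv0 S))) h0 μ'
  rw [if_pos rfl, hwb μ'] at h1
  have hres : IsCharacter C (fun c : C => (b (LamN S μ' (triv0 S))).1 c) :=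
    isCharacter_restrict C (isCharacter_of_isIrrCharacter (b (LamN S μ' (triv0 S))).2)
  have h1c : IsCharacter C (tw S μ'.1 (1 : C → ℂ)) :=
    isCharacter_tw S μ'.1 (isCharacter_of_isIrrCharacter (isIrr_one_fun C))
  obtain ⟨a, ha⟩ := classInner_isCharacter_nat h1c hres
  rw [ha] at h1
  have h2 : (a : ℤ) = -0 - s := by exact_mod_cast h1
  have hs1 : s = -1 := by
    rcases hs with h | h
    · rw [h] at h2
      omega
    · exact h
  subst hs1
  exact ⟨rfl, res_eq_trN_of S hcyc heq (b (LamN S μ' (triv0 S))) (triv0 S) w b hwb hb hv μ'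
    rfl h0⟩

end Cfsg.Agent.H82.P1
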