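import Cfsg.Agent.H82.P2E

/-!
# Sylow subgroups of prime order, part 2F: non-constancy (helper82)

For `ϑ` a character of `C` trivial on `P` and `α`, `β` characters of `P` in different
`N`-orbits, the multiplicity of `tw μ 1` in `trN (tw α ϑ) * conj (trN (tw β ϑ))` cannot be
independent of `μ ≠ 1` for all such pairs when there are at least three `N`-orbits.
-/

set_option autoImplicit false
set_option linter.style.haveILetI false
set_option linter.unusedSectionVars false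

namespace Cfsg.Agent.H82.P1

open Cfsg Cfsg.Agent.H4 Cfsg.Agent.H82 Cfsg.Agent.H82.BL Cfsg.Agent.Clifford
open scoped ComplexConjugate
open Classical

universe u

variable {G : Type u} [Group G] [Fintype G] {p : ℕ} {N C P : Subgroup G} [Fintype N] [Fintype C]
  (S : Setup p N C P)
  [Fintype (IrrCharacter G)] [Fintype (IrrCharacter N)] [Fintype (IrrCharacter C)]
  [Fintype (P.subgroupOf C)] [Fintype (P.subgroupOf C →* ℂˣ)]

omit [Fintype G] [Fintype N] [Fintype (IrrCharacter G)] [Fintype (IrrCharacter N)]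
  [Fintype (IrrCharacter C)] [Fintype (P.subgroupOf C →* ℂˣ)] in
/-- Sums over `C` of products of a function of `ρ c` and a `P`-invariant function. -/
theorem sum_rho_mul (g : P.subgroupOf C → ℂ) (k : C → ℂ)
    (hk : ∀ (x : P.subgroupOf C) (c : C), k ((x : C) * c) = k c) :
    (Nat.card (P.subgroupOf C) : ℂ) * ∑ c : C, g (S.ρ c) * k c =
      (∑ x : P.subgroupOf C, g x) * ∑ c : C, k c := by
  have h1 : ∀ x : P.subgroupOf C,
      ∑ c : C, g (S.ρ c) * k c = ∑ c : C, g (x * S.ρ c) * k c := by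
    intro x
    rw [← Equiv.sum_comp (Equiv.mulLeft (x : C)) (fun c => g (S.ρ c) * k c)]
    refine Finset.sum_congr rfl fun c _ => ?_
    rw [Equiv.coe_mulLeft, map_mul, S.hρ, hk]
  have h2 : (Nat.card (P.subgroupOf C) : ℂ) * ∑ c : C, g (S.ρ c) * k c =
      ∑ x : P.subgroupOf C, ∑ c : C, g (x * S.ρ c) * k c := by
    rw [← Finset.sum_congr rfl (fun x _ => h1 x), Finset.sum_const, Finset.card_univ,
      nsmul_eq_mul, Nat.card_eq_fintype_card]
  rw [h2, Finset.sum_comm, Finset.mul_sum]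
  refine Finset.sum_congr rfl fun c _ => ?_
  rw [← Finset.sum_mul]
  congr 1
  exact Equiv.sum_comp (Equiv.mulRight (S.ρ c)) g

/-- The orbit sum of a character of `P`. -/
noncomputable def Zs (α : P.subgroupOf C →* ℂˣ) (x : P.subgroupOf C) : ℂ :=
  ∑ n : N, ((α (cjP S n x) : ℂˣ) : ℂ)

omit [Fintype G] [Fintype (IrrCharacter G)] [Fintype (IrrCharacter N)]
  [Fintype (IrrCharacter C)] [Fintype (P.subgroupOf C)] [Fintype (P.subgroupOf C →* ℂˣ)] in
theorem Zs_one (α : P.subgroupOf C →* ℂˣ) : Zs S α 1 = (Nat.card N : ℂ) := by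
  simp only [Zs, map_one, Units.val_one, Finset.sum_const, Finset.card_univ, nsmul_eq_mul,
    mul_one]
  rw [Nat.card_eq_fintype_card]

omit [Fintype (IrrCharacter G)] [Fintype (IrrCharacter N)]
  [Fintype (IrrCharacter C)] [Fintype (P.subgroupOf C)] [Fintype (P.subgroupOf C →* ℂˣ)] in
theorem sum_trN_orbit (α : P.subgroupOf C →* ℂˣ) (f : C → ℂ) :
    ∑ m : N, trN S (tw S (α.comp (cjP S m)) f) = fun c => Zs S α (S.ρ c) * trN S f c := by
  funext c
  rw [Finset.sum_apply]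
  simp only [trN, tw, Zs, MonoidHom.comp_apply, rho_cj]
  rw [← Finset.mul_sum, Finset.sum_comm]
  have h : ∀ n : N, ∑ m : N, ((α (cjP S m (cjP S n (S.ρ c))) : ℂˣ) : ℂ) * f (cj S n c) =
      (∑ m : N, ((α (cjP S m (S.ρ c)) : ℂˣ) : ℂ)) * f (cj S n c) := by
    intro n
    rw [← Finset.sum_mul]
    congr 1
    rw [← Equiv.sum_comp (Equiv.mulRight n) (fun m : N => ((α (cjP S m (S.ρ c)) : ℂˣ) : ℂ))]
    refine Finset.sum_congr rfl fun m _ => ?_
    rw [Equiv.coe_mulRight, cjP_mul, MonoidHom.comp_apply]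
  rw [Finset.sum_congr rfl (fun n _ => h n), ← Finset.mul_sum]
  ring

omit [Fintype G] [Fintype N] [Fintype C] [Fintype (IrrCharacter G)] [Fintype (IrrCharacter N)]
  [Fintype (IrrCharacter C)] [Fintype (P.subgroupOf C)] [Fintype (P.subgroupOf C →* ℂˣ)] in
theorem not_conj_of (α β : P.subgroupOf C →* ℂˣ) (hαβ : ∀ n : N, β ≠ α.comp (cjP S n))
    (m m' n : N) : β.comp (cjP S m') ≠ (α.comp (cjP S m)).comp (cjP S n) := by
  intro h
  apply hαβ (m * n * m'⁻¹)
  ext x
  have h1 := DFunLike.congr_fun h (cjP S m'⁻¹ x)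
  simp only [MonoidHom.comp_apply] at h1
  rw [← MonoidHom.comp_apply (cjP S m'), ← cjP_mul, mul_inv_cancel, cjP_one_eq,
    MonoidHom.id_apply] at h1
  rw [h1, cjP_mul, cjP_mul]
  rfl

omit [Fintype G] [Fintype N] [Fintype C] [Fintype (IrrCharacter G)] [Fintype (IrrCharacter N)]
  [Fintype (IrrCharacter C)] [Fintype (P.subgroupOf C)] [Fintype (P.subgroupOf C →* ℂˣ)] in
theorem not_conj_of' (α β : P.subgroupOf C →* ℂˣ) (hαβ : ∀ n : N, β ≠ α.comp (cjP S n))
    (m m' : N) : β.comp (cjP S m') ≠ α.comp (cjP S m) := by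
  have h := not_conj_of S α β hαβ m m' 1
  rwa [cjP_one_eq, MonoidHom.comp_id] at h

/-- Under the constancy hypothesis, the orbit sums of two non-conjugate characters of `P`
have a fixed negative product. -/
theorem zs_key (hp : p.Prime) (hP : Nat.card P = p) (ϑ : Irr0 S)
    (hconst : ∀ α β : P.subgroupOf C →* ℂˣ, α ≠ 1 → β ≠ 1 →
      (∀ n : N, β ≠ α.comp (cjP S n)) →
      ∀ μ μ' : P.subgroupOf C →* ℂˣ, μ ≠ 1 → μ' ≠ 1 →
        classInner (tw S μ 1)
            (fun c => trN S (tw S α ϑ.1.1) c * conj (trN S (tw S β ϑ.1.1) c)) =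
          classInner (tw S μ' 1)
            (fun c => trN S (tw S α ϑ.1.1) c * conj (trN S (tw S β ϑ.1.1) c)))
    (α β : P.subgroupOf C →* ℂˣ) (hα : α ≠ 1) (hβ : β ≠ 1)
    (hαβ : ∀ n : N, β ≠ α.comp (cjP S n)) (x0 : P.subgroupOf C) (hx0 : x0 ≠ 1) :
    conj (Zs S α x0) * Zs S β x0 * ((p : ℂ) - 1) = -((Nat.card N : ℂ) ^ 2) := by
  have hΛ := card_dual S hP
  have hcardD : Nat.card (P.subgroupOf C) = p := by
    rw [Nat.card_congr (Subgroup.subgroupOfEquivOfLe S.hPC).toEquiv, hP]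
  have hp0 : (p : ℂ) ≠ 0 := by exact_mod_cast hp.pos.ne'
  have hD0 : (Nat.card (P.subgroupOf C) : ℂ) ≠ 0 := by rw [hcardD]; exact hp0
  have hC0 : (Nat.card C : ℂ) ≠ 0 := cardC_ne_zero C
  obtain ⟨T, hT⟩ : ∃ T : C → ℂ, T = trN S ϑ.1.1 := ⟨_, rfl⟩
  have hTinv : ∀ (x : P.subgroupOf C) (c : C), T ((x : C) * c) = T c := by
    intro x c
    rw [hT]
    simp only [trN]
    congr 1
    refine Finset.sum_congr rfl fun n _ => ?_
    rw [map_mul, ← cjP_coe, ϑ.2]
    simp
  obtain ⟨E, hE⟩ : ∃ E : ℂ, E = ∑ c : C, conj (T c) * T c := ⟨_, rfl⟩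
  have hE0 : E ≠ 0 := by
    intro h0
    have h1 : classInner T T = 0 := by
      unfold classInner
      have : ∑ c : C, T c * conj (T c) = E := by
        rw [hE]
        exact Finset.sum_congr rfl fun c _ => mul_comm _ _
      rw [this, h0, mul_zero]
    have h2 := congrFun (eq_zero_of_inner_self h1) 1
    rw [hT, trN_one] at h2
    have hN0 : (Nat.card N : ℂ) ≠ 0 := by
      have : 0 < Nat.card N := Nat.card_pos
      exact_mod_cast this.ne'
    simp only [Pi.zero_apply] at h2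
    exact irr_one_ne_zero ϑ.1
      ((mul_eq_zero.mp h2).resolve_left (mul_ne_zero (inv_ne_zero hC0) hN0))
  -- the function `hh` and its transforms
  obtain ⟨hh, hhh⟩ : ∃ hh : P.subgroupOf C → ℂ, hh = fun x => conj (Zs S α x) * Zs S β x :=
    ⟨_, rfl⟩
  obtain ⟨q, hq⟩ : ∃ q : (P.subgroupOf C →* ℂˣ) → ℂ,
      q = fun μ => ∑ x : P.subgroupOf C, ((μ x : ℂˣ) : ℂ) * hh x := ⟨_, rfl⟩
  obtain ⟨Q, hQ⟩ : ∃ Q : (P.subgroupOf C →* ℂˣ) → ℂ,
      Q = fun μ => classInner (tw S μ 1)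
        (fun c => (Zs S α (S.ρ c) * T c) * conj (Zs S β (S.ρ c) * T c)) := ⟨_, rfl⟩
  have hfun : (fun c => (Zs S α (S.ρ c) * T c) * conj (Zs S β (S.ρ c) * T c)) =
      ∑ m : N, ∑ m' : N, (fun c => trN S (tw S (α.comp (cjP S m)) ϑ.1.1) c *
        conj (trN S (tw S (β.comp (cjP S m')) ϑ.1.1) c)) := by
    funext c
    have e1 := congrFun (sum_trN_orbit S α ϑ.1.1) c
    have e2 := congrFun (sum_trN_orbit S β ϑ.1.1) c
    rw [Finset.sum_apply] at e1 e2
    rw [hT, ← e1, ← e2, map_sum, Finset.sum_mul_sum, Finset.sum_apply]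
    refine Finset.sum_congr rfl fun m _ => ?_
    rw [Finset.sum_apply]
  have hQc : ∀ μ μ' : P.subgroupOf C →* ℂˣ, μ ≠ 1 → μ' ≠ 1 → Q μ = Q μ' := by
    intro μ μ' hμ hμ'
    rw [hQ]
    simp only
    rw [hfun, classInner_sum_right, classInner_sum_right]
    refine Finset.sum_congr rfl fun m _ => ?_
    rw [classInner_sum_right, classInner_sum_right]
    refine Finset.sum_congr rfl fun m' _ => ?_
    exact hconst _ _ (comp_cjP_ne_one S hα m) (comp_cjP_ne_one S hβ m')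
      (not_conj_of S α β hαβ m m') μ μ' hμ hμ'
  have hprod : ∀ μ : P.subgroupOf C →* ℂˣ,
      Q μ = (Nat.card C : ℂ)⁻¹ * ((Nat.card (P.subgroupOf C) : ℂ)⁻¹ * (q μ * E)) := by
    intro μ
    rw [hQ, hq]
    simp only
    unfold classInner
    congr 1
    have h1 := sum_rho_mul S (fun x => ((μ x : ℂˣ) : ℂ) * hh x) (fun c => conj (T c) * T c)
      (fun x c => by rw [hTinv])
    rw [← hE] at h1
    rw [← h1, ← mul_assoc, inv_mul_cancel₀ hD0, one_mul]
    refine Finset.sum_congr rfl fun c _ => ?_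
    rw [hhh]
    simp only [tw, Pi.one_apply, mul_one, map_mul, Complex.conj_conj]
    ring
  have hqc : ∀ μ μ' : P.subgroupOf C →* ℂˣ, μ ≠ 1 → μ' ≠ 1 → q μ = q μ' := by
    intro μ μ' hμ hμ'
    have h1 := hQc μ μ' hμ hμ'
    rw [hprod, hprod] at h1
    have h2 := mul_left_cancel₀ (inv_ne_zero hD0) (mul_left_cancel₀ (inv_ne_zero hC0) h1)
    exact mul_right_cancel₀ hE0 h2
  have hq1 : q 1 = 0 := by
    rw [hq, hhh]
    simp only
    have e : ∀ x : P.subgroupOf C,
        (((1 : P.subgroupOf C →* ℂˣ) x : ℂˣ) : ℂ) * (conj (Zs S α x) * Zs S β x) =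
          ∑ n : N, ∑ n' : N, (((β.comp (cjP S n')) x : ℂˣ) : ℂ) *
            conj (((α.comp (cjP S n)) x : ℂˣ) : ℂ) := by
      intro x
      simp only [Zs, MonoidHom.one_apply, Units.val_one, one_mul, map_sum, Finset.sum_mul_sum,
        MonoidHom.comp_apply]
      exact Finset.sum_congr rfl fun n _ => Finset.sum_congr rfl fun n' _ => mul_comm _ _
    rw [Finset.sum_congr rfl (fun x _ => e x), Finset.sum_comm]
    refine Finset.sum_eq_zero fun n _ => ?_
    rw [Finset.sum_comm]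
    refine Finset.sum_eq_zero fun n' _ => ?_
    rw [sum_hom_mul_conj, if_neg (not_conj_of' S α β hαβ n n')]
  -- Fourier inversion
  have hF : ∀ y : P.subgroupOf C,
      ∑ μ : P.subgroupOf C →* ℂˣ, q μ * conj ((μ y : ℂˣ) : ℂ) = (p : ℂ) * hh y := by
    intro y
    calc ∑ μ : P.subgroupOf C →* ℂˣ, q μ * conj ((μ y : ℂˣ) : ℂ)
        = ∑ μ : P.subgroupOf C →* ℂˣ, ∑ x : P.subgroupOf C,
            ((μ x : ℂˣ) : ℂ) * hh x * conj ((μ y : ℂˣ) : ℂ) := by
          rw [hq]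
          simp only [Finset.sum_mul]
      _ = ∑ x : P.subgroupOf C, ∑ μ : P.subgroupOf C →* ℂˣ,
            ((μ x : ℂˣ) : ℂ) * hh x * conj ((μ y : ℂˣ) : ℂ) := Finset.sum_comm
      _ = (p : ℂ) * hh y := by
          have hμsum : ∀ x : P.subgroupOf C, ∑ μ : P.subgroupOf C →* ℂˣ,
              ((μ x : ℂˣ) : ℂ) * hh x * conj ((μ y : ℂˣ) : ℂ) =
                hh x * ∑ μ : P.subgroupOf C →* ℂˣ, ((μ (x * y⁻¹) : ℂˣ) : ℂ) := by
            intro x
            rw [Finset.mul_sum]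
            refine Finset.sum_congr rfl fun μ _ => ?_
            rw [conj_hom, MonoidHom.inv_apply, map_mul, map_inv, Units.val_mul]
            ring
          rw [Finset.sum_eq_single y]
          · rw [hμsum, sum_hom_apply (comm_sub S), if_pos (mul_inv_cancel y), hΛ]
            ring
          · intro x _ hx
            rw [hμsum, sum_hom_apply (comm_sub S),
              if_neg (fun h => hx (mul_inv_eq_one.mp h)), mul_zero]
          · intro h
            exact absurd (Finset.mem_univ _) h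
  obtain ⟨μ_, hμ_⟩ := Fintype.exists_ne_of_one_lt_card (by rw [hΛ]; exact hp.one_lt)
    (1 : P.subgroupOf C →* ℂˣ)
  obtain ⟨q0, hq0⟩ : ∃ q0 : ℂ, q0 = q μ_ := ⟨_, rfl⟩
  have hF2 : ∀ y : P.subgroupOf C,
      ∑ μ : P.subgroupOf C →* ℂˣ, q μ * conj ((μ y : ℂˣ) : ℂ) =
        q0 * conj (∑ μ : P.subgroupOf C →* ℂˣ, ((μ y : ℂˣ) : ℂ)) - q0 := by
    intro y
    have e : ∀ μ : P.subgroupOf C →* ℂˣ, q μ * conj ((μ y : ℂˣ) : ℂ) =
        q0 * conj ((μ y : ℂˣ) : ℂ) - (if μ = 1 then q0 else 0) := by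
      intro μ
      by_cases hμ : μ = 1
      · rw [if_pos hμ, hμ, hq1]
        simp
      · rw [if_neg hμ, hq0, hqc μ μ_ hμ hμ_, sub_zero]
    rw [Finset.sum_congr rfl (fun μ _ => e μ), Finset.sum_sub_distrib, ← Finset.mul_sum,
      Finset.sum_ite_eq' Finset.univ (1 : P.subgroupOf C →* ℂˣ), if_pos (Finset.mem_univ _),
      ← map_sum]
  have hA := hF x0
  rw [hF2 x0, sum_hom_apply (comm_sub S), if_neg hx0, map_zero, mul_zero] at hA
  have hB := hF 1
  rw [hF2 1, sum_hom_apply (comm_sub S), if_pos rfl, hΛ, Complex.conj_natCast] at hB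
  have hh1 : hh 1 = (Nat.card N : ℂ) ^ 2 := by
    rw [hhh]
    simp only [Zs_one, Complex.conj_natCast]
    ring
  rw [hh1] at hB
  have hfin : (p : ℂ) * (hh x0 * ((p : ℂ) - 1) + (Nat.card N : ℂ) ^ 2) = 0 := by
    linear_combination (-((p : ℂ) - 1)) * hA - hB
  have h3 := (mul_eq_zero.mp hfin).resolve_left hp0
  rw [hhh] at h3
  simp only at h3
  linear_combination h3

end Cfsg.Agent.H82.P1
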