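import Cfsg.Agent.H82.P2F

/-!
# Sylow subgroups of prime order, part 2G: the minimal exceptional character (helper82)

If some irreducible character restricts to `C` as `trN (tw μ₁ ϑ)` and there are at least three
`N`-orbits of characters of `P`, then the sign of the lattice over the trivial character is
`-1` and some exceptional character restricts to `C` as `trN (tw ν 1)`.
-/

set_option autoImplicit false
set_option linter.style.haveILetI false
set_option linter.unusedSectionVars false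

namespace Cfsg.Agent.H82.P1

open Cfsg Cfsg.Agent.H4 Cfsg.Agent.H82 Cfsg.Agent.H82.BL Cfsg.Agent.Clifford
open scoped ComplexConjugate
open Classical

universe u

variable {G : Type u} [Group G] [Fintype G] {p : ℕ} {N C P : Subgroup G} [Fintype N] [Fintype C]
  (S : Setup p N C P)
  [Fintype (IrrCharacter G)] [Fintype (IrrCharacter N)] [Fintype (IrrCharacter C)]
  [Fintype (P.subgroupOf C)] [Fintype (P.subgroupOf C →* ℂˣ)]

theorem exists_off_two (hf : 2 * ind S + 1 < Fintype.card (P.subgroupOf C →* ℂˣ))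
    (α1 α2 : P.subgroupOf C →* ℂˣ) (h1 : α1 ≠ 1) (h2 : α2 ≠ 1) :
    ∃ α3 : P.subgroupOf C →* ℂˣ, α3 ≠ 1 ∧ (∀ n : N, α3 ≠ α1.comp (cjP S n)) ∧
      (∀ n : N, α3 ≠ α2.comp (cjP S n)) := by
  by_contra hcon
  push Not at hcon
  have hsub : (Finset.univ : Finset (P.subgroupOf C →* ℂˣ)) ⊆
      insert 1 (Finset.univ.image (fun n : N => α1.comp (cjP S n)) ∪
        Finset.univ.image (fun n : N => α2.comp (cjP S n))) := by
    intro μ _
    by_cases hμ : μ = 1
    · rw [hμ]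
      exact Finset.mem_insert_self _ _
    · apply Finset.mem_insert_of_mem
      by_cases h : ∃ n : N, μ = α1.comp (cjP S n)
      · obtain ⟨n, hn⟩ := h
        exact Finset.mem_union_left _ (Finset.mem_image.mpr ⟨n, Finset.mem_univ _, hn.symm⟩)
      · push Not at h
        obtain ⟨n, hn⟩ := hcon μ hμ h
        exact Finset.mem_union_right _ (Finset.mem_image.mpr ⟨n, Finset.mem_univ _, hn.symm⟩)
  have hc := Finset.card_le_card hsub
  have hc2 := Finset.card_insert_le (1 : P.subgroupOf C →* ℂˣ)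
    (Finset.univ.image (fun n : N => α1.comp (cjP S n)) ∪
      Finset.univ.image (fun n : N => α2.comp (cjP S n)))
  have hc3 := Finset.card_union_le (Finset.univ.image (fun n : N => α1.comp (cjP S n)))
    (Finset.univ.image (fun n : N => α2.comp (cjP S n)))
  rw [card_orbit_eq S h1, card_orbit_eq S h2] at hc3
  rw [Finset.card_univ] at hc
  omega

/-- Non-constancy. -/
theorem ne_const (hp : p.Prime) (hP : Nat.card P = p) (ϑ : Irr0 S) (hf : 2 * ind S + 1 < p)
    (hconst : ∀ α β : P.subgroupOf C →* ℂˣ, α ≠ 1 → β ≠ 1 →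
      (∀ n : N, β ≠ α.comp (cjP S n)) →
      ∀ μ μ' : P.subgroupOf C →* ℂˣ, μ ≠ 1 → μ' ≠ 1 →
        classInner (tw S μ 1)
            (fun c => trN S (tw S α ϑ.1.1) c * conj (trN S (tw S β ϑ.1.1) c)) =
          classInner (tw S μ' 1)
            (fun c => trN S (tw S α ϑ.1.1) c * conj (trN S (tw S β ϑ.1.1) c))) :
    False := by
  have hΛ := card_dual S hP
  have hcardD : Nat.card (P.subgroupOf C) = p := by
    rw [Nat.card_congr (Subgroup.subgroupOfEquivOfLe S.hPC).toEquiv, hP]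
  obtain ⟨α1, h1⟩ := Fintype.exists_ne_of_one_lt_card (by rw [hΛ]; exact hp.one_lt)
    (1 : P.subgroupOf C →* ℂˣ)
  obtain ⟨α2, h2, h12⟩ := exists_off_orbit S α1 (by rw [hP]; omega) (by rw [hΛ, hP])
  obtain ⟨α3, h3, h13, h23⟩ := exists_off_two S (by rw [hΛ]; exact hf) α1 α2 h1 h2
  obtain ⟨x0, hx0⟩ := Fintype.exists_ne_of_one_lt_card
    (by rw [← Nat.card_eq_fintype_card, hcardD]; exact hp.one_lt) (1 : P.subgroupOf C)
  have e12 := zs_key S hp hP ϑ hconst α1 α2 h1 h2 h12 x0 hx0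
  have e13 := zs_key S hp hP ϑ hconst α1 α3 h1 h3 h13 x0 hx0
  have e23 := zs_key S hp hP ϑ hconst α2 α3 h2 h3 h23 x0 hx0
  obtain ⟨z1, hz1⟩ : ∃ z1 : ℂ, z1 = Zs S α1 x0 := ⟨_, rfl⟩
  obtain ⟨z2, hz2⟩ : ∃ z2 : ℂ, z2 = Zs S α2 x0 := ⟨_, rfl⟩
  obtain ⟨z3, hz3⟩ : ∃ z3 : ℂ, z3 = Zs S α3 x0 := ⟨_, rfl⟩
  rw [← hz1, ← hz2] at e12
  rw [← hz1, ← hz3] at e13
  rw [← hz2, ← hz3] at e23
  have hN0 : (0 : ℝ) < (Nat.card N : ℝ) := by
    have : 0 < Nat.card N := Nat.card_pos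
    exact_mod_cast this
  have hNc : (Nat.card N : ℂ) ^ 2 ≠ 0 := by
    have : (Nat.card N : ℂ) ≠ 0 := by
      have : 0 < Nat.card N := Nat.card_pos
      exact_mod_cast this.ne'
    exact pow_ne_zero 2 this
  have hp1 : (p : ℂ) - 1 ≠ 0 := by
    have : (p : ℂ) ≠ 1 := by exact_mod_cast hp.one_lt.ne'
    exact sub_ne_zero.mpr this
  have hc1 : conj z1 ≠ 0 := by
    intro h
    rw [h, zero_mul, zero_mul] at e12
    exact hNc (neg_eq_zero.mp e12.symm)
  have h23eq : z2 = z3 := by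
    have h : conj z1 * (z2 - z3) * ((p : ℂ) - 1) = 0 := by linear_combination e12 - e13
    rcases mul_eq_zero.mp h with h' | h'
    · rcases mul_eq_zero.mp h' with h'' | h''
      · exact absurd h'' hc1
      · exact sub_eq_zero.mp h''
    · exact absurd h' hp1
  rw [h23eq] at e23
  have e : (Complex.normSq z3 : ℂ) * ((p : ℂ) - 1) = -((Nat.card N : ℂ) ^ 2) := by
    rw [Complex.normSq_eq_conj_mul_self]
    exact e23
  have e' : Complex.normSq z3 * ((p : ℝ) - 1) = -((Nat.card N : ℝ) ^ 2) := by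
    exact_mod_cast e
  have hp2 : (2 : ℝ) ≤ p := by exact_mod_cast hp.two_le
  nlinarith [Complex.normSq_nonneg z3, mul_nonneg (Complex.normSq_nonneg z3)
    (by linarith : (0 : ℝ) ≤ (p : ℝ) - 1), sq_pos_of_pos hN0]

omit [Fintype G] [Fintype N] [Fintype C] [Fintype (IrrCharacter G)] [Fintype (IrrCharacter N)]
  [Fintype (IrrCharacter C)] [Fintype (P.subgroupOf C)] [Fintype (P.subgroupOf C →* ℂˣ)] in
theorem isCen_mul_conj [Finite G] {f g : C → ℂ} {ω ω' : P.subgroupOf C →* ℂˣ} (hf : IsCen f ω)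
    (hg : IsCen g ω') : IsCen (fun c => f c * conj (g c)) (ω * ω'⁻¹) := by
  haveI : Finite (P.subgroupOf C) := Finite.of_injective _ Subtype.val_injective
  intro x c
  simp only
  rw [hf x c, hg x c, map_mul, conj_hom, MonoidHom.mul_apply, Units.val_mul]
  ring

/-- A product `trN f * conj (trN g)` with `f`, `g` of non-conjugate central characters has no
`P`-trivial constituent. -/
theorem inner_cen_trN_mul {f g : C → ℂ} {α β : P.subgroupOf C →* ℂˣ} (hf : IsCen f α)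
    (hg : IsCen g β) (hαβ : ∀ n n' : N, β.comp (cjP S n') ≠ α.comp (cjP S n))
    (ϑ' : C → ℂ) (hϑ' : IsCen ϑ' (1 : P.subgroupOf C →* ℂˣ)) :
    classInner ϑ' (fun c => trN S f c * conj (trN S g c)) = 0 := by
  have hexp : (fun c => trN S f c * conj (trN S g c)) =
      ((Nat.card C : ℂ)⁻¹ * (Nat.card C : ℂ)⁻¹) •
        ∑ n : N, ∑ n' : N, (fun c => f (cj S n c) * conj (g (cj S n' c))) := by
    funext c
    simp only [trN, Pi.smul_apply, Finset.sum_apply, smul_eq_mul, map_mul, map_inv₀,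
      Complex.conj_natCast, map_sum]
    rw [← Finset.sum_mul_sum]
    ring
  rw [hexp, classInner_smul_right, classInner_sum_right]
  rw [Finset.sum_eq_zero, mul_zero]
  intro n _
  rw [classInner_sum_right]
  refine Finset.sum_eq_zero fun n' _ => ?_
  have h1 : IsCen (fun c => f (cj S n c) * conj (g (cj S n' c)))
      (α.comp (cjP S n) * (β.comp (cjP S n'))⁻¹) :=
    isCen_mul_conj (hf.comp_cj S n) (hg.comp_cj S n')
  apply inner_cen_ne hϑ' h1
  intro h
  apply hαβ n n'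
  exact (mul_inv_eq_one.mp h.symm).symm

/-- The minimal exceptional character. -/
theorem exists_min_exc (hp : p.Prime) (hP : Nat.card P = p)
    (hcyc : haveI := normal_CN S; IsCyclic (N ⧸ C.subgroupOf N))
    (heq : Fintype.card (IrrCharacter N) ≤
      (Finset.univ.filter fun χ : IrrCharacter G => ¬ Nat.card P ∣ charDegree χ.1).card)
    (q : ℕ) (hG : Nat.card G = p * q) (hpq : p.Coprime q)
    (w : IrrCharacter G → ℤ) (b : IrrCharacter N → IrrCharacter G) (s : ℤ)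
    (hs : s = 1 ∨ s = -1)
    (hwb : ∀ μ : {μ : P.subgroupOf C →* ℂˣ // μ ≠ 1}, w (b (LamN S μ (triv0 S))) = 0)
    (hb : ∀ μ μ' : {μ : P.subgroupOf C →* ℂˣ // μ ≠ 1},
      b (LamN S μ (triv0 S)) = b (LamN S μ' (triv0 S)) →
        LamN S μ (triv0 S) = LamN S μ' (triv0 S))
    (hv : ∀ (μ : {μ : P.subgroupOf C →* ℂˣ // μ ≠ 1}) (χ' : IrrCharacter G),
      classInner (Gam S μ.1 (triv0 S).1.1) χ'.1 =
        ((w χ' + if χ' = b (LamN S μ (triv0 S)) then s else 0 : ℤ) : ℂ))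
    (χ : IrrCharacter G) (ϑ : Irr0 S) (μ1 : P.subgroupOf C →* ℂˣ) (hμ1 : μ1 ≠ 1)
    (hχ : (fun c : C => χ.1 c) = trN S (tw S μ1 ϑ.1.1))
    (hf : 2 * ind S + 1 < p) :
    s = -1 ∧ ∃ ν : {μ : P.subgroupOf C →* ℂˣ // μ ≠ 1},
      (fun c : C => (b (LamN S ν (triv0 S))).1 c) = trN S (tw S ν.1 1) := by
  by_contra hcon
  apply ne_const S hp hP ϑ hf
  intro α β hα hβ hαβ μ μ' hμ hμ'
  obtain ⟨θα, hθα, -⟩ := galois S hp hP q hG hpq χ ϑ μ1 α hμ1 hα hχ
  obtain ⟨θβ, hθβ, -⟩ := galois S hp hP q hG hpq χ ϑ μ1 β hμ1 hβ hχ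
  obtain ⟨Ξ, hΞdef⟩ : ∃ Ξ : G → ℂ, Ξ = θα.1 * (fun g => conj (θβ.1 g)) := ⟨_, rfl⟩
  have hΞ : IsCharacter G Ξ := by
    rw [hΞdef]
    exact isCharacter_mul (isCharacter_of_isIrrCharacter θα.2)
      (isCharacter_conj (isCharacter_of_isIrrCharacter θβ.2))
  have hΞC : (fun c : C => Ξ c) =
      fun c => trN S (tw S α ϑ.1.1) c * conj (trN S (tw S β ϑ.1.1) c) := by
    funext c
    rw [← hθα, ← hθβ, hΞdef]
    rfl
  have h0 : ∀ ϑ' : Irr0 S, classInner ϑ'.1.1 (fun c : C => Ξ c) = 0 := by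
    intro ϑ'
    rw [hΞC]
    exact inner_cen_trN_mul S (isCen_tw S α ϑ.2) (isCen_tw S β ϑ.2)
      (fun n n' => not_conj_of' S α β hαβ n n') ϑ'.1.1 ϑ'.2
  obtain ⟨mm, hmm, hstar⟩ := b0_star S w b s hv hΞ h0
  have hzero : ∀ ν : {μ : P.subgroupOf C →* ℂˣ // μ ≠ 1}, mm (b (LamN S ν (triv0 S))) = 0 := by
    intro ν
    by_contra hne
    apply hcon
    have hne' : classInner Ξ (b (LamN S ν (triv0 S))).1 ≠ 0 := by
      rw [hmm]
      exact_mod_cast hne
    obtain ⟨hs1, hres⟩ := exc_structure S hcyc heq w b s hs hwb hb hv ν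
      (no_triv_of_constituent S hΞ h0 _ hne')
    exact ⟨hs1, ν, hres⟩
  rw [← hΞC, hstar ⟨μ, hμ⟩, hstar ⟨μ', hμ'⟩, hzero, hzero]

end Cfsg.Agent.H82.P1
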