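import Cfsg.Agent.H82.P2G

/-!
# Sylow subgroups of prime order, part 2H: the final count (helper82)

If `G` is the normal closure of `P`, the sign of the lattice over the trivial character is
`-1`, an exceptional character restricts to `C` as `trN (tw ν 1)` and
`2 ≤ |N : C| < (p - 1) / 2`, we reach a contradiction.
-/

set_option autoImplicit false
set_option linter.style.haveILetI false
set_option linter.unusedSectionVars false

namespace Cfsg.Agent.H82.P1

open Cfsg Cfsg.Agent.H4 Cfsg.Agent.H82 Cfsg.Agent.H82.BL Cfsg.Agent.Clifford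
open scoped ComplexConjugate
open Classical

universe u

theorem arith_final (p f t n : ℕ) (hp : p.Prime) (hf2 : 2 ≤ f) (hfp : 2 * f + 1 < p)
    (ht : t * f = p - 1) (h1 : (p - 1) * n ≤ f * f) (h2 : f ≤ 2 * n + 1) : False := by
  have hp1 : 1 ≤ p := hp.one_le
  have ht3 : 3 ≤ t := by
    by_contra h
    have h' : t ≤ 2 := by omega
    have := Nat.mul_le_mul_right f h'
    omega
  have htn : t * n ≤ f := by
    have h3 : (t * n) * f ≤ f * f := by
      calc (t * n) * f = (t * f) * n := by ring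
        _ = (p - 1) * n := by rw [ht]
        _ ≤ f * f := h1
    exact Nat.le_of_mul_le_mul_right h3 (by omega)
  have hn1 : 1 ≤ n := by omega
  have h3n : 3 * n ≤ t * n := Nat.mul_le_mul_right n ht3
  have hn : n = 1 := by omega
  subst hn
  have hf3 : f = 3 := by omega
  subst hf3
  have ht' : t = 3 := by omega
  subst ht'
  have h10 : p = 10 := by omega
  subst h10
  exact absurd hp (by norm_num)

variable {G : Type u} [Group G] [Fintype G] {p : ℕ} {N C P : Subgroup G} [Fintype N] [Fintype C]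
  (S : Setup p N C P)
  [Fintype (IrrCharacter G)] [Fintype (IrrCharacter N)] [Fintype (IrrCharacter C)]
  [Fintype (P.subgroupOf C)] [Fintype (P.subgroupOf C →* ℂˣ)]

theorem final_count (hp : p.Prime) (hP : Nat.card P = p)
    (hcyc : haveI := normal_CN S; IsCyclic (N ⧸ C.subgroupOf N))
    (heq : Fintype.card (IrrCharacter N) ≤
      (Finset.univ.filter fun χ : IrrCharacter G => ¬ Nat.card P ∣ charDegree χ.1).card)
    (q : ℕ) (hG : Nat.card G = p * q) (hpq : p.Coprime q)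
    (hcl : ∀ Φ : IrrCharacter G, (∀ x ∈ P, Φ.1 x = Φ.1 1) → Φ.1 = fun _ => 1)
    (hf2 : 2 ≤ ind S) (hf : 2 * ind S + 1 < p)
    (w : IrrCharacter G → ℤ) (b : IrrCharacter N → IrrCharacter G)
    (hw : ∀ χ, w χ = 0 ∨ w χ = 1 ∨ w χ = -1)
    (hwc : (Finset.univ.filter fun χ => w χ ≠ 0).card = ind S)
    (hwb : ∀ μ : {μ : P.subgroupOf C →* ℂˣ // μ ≠ 1}, w (b (LamN S μ (triv0 S))) = 0)
    (hv : ∀ (μ : {μ : P.subgroupOf C →* ℂˣ // μ ≠ 1}) (χ' : IrrCharacter G),
      classInner (Gam S μ.1 (triv0 S).1.1) χ'.1 =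
        ((w χ' + if χ' = b (LamN S μ (triv0 S)) then (-1) else 0 : ℤ) : ℂ))
    (ν1 : {μ : P.subgroupOf C →* ℂˣ // μ ≠ 1})
    (hθ : (fun c : C => (b (LamN S ν1 (triv0 S))).1 c) = trN S (tw S ν1.1 1)) : False := by
  have hΛ := card_dual S hP
  have hcardD : Nat.card (P.subgroupOf C) = p := by
    rw [Nat.card_congr (Subgroup.subgroupOfEquivOfLe S.hPC).toEquiv, hP]
  have hp0 : (p : ℂ) ≠ 0 := by exact_mod_cast hp.pos.ne'
  have hp1 : 1 ≤ p := hp.one_le
  have hC0 : (Nat.card C : ℂ) ≠ 0 := cardC_ne_zero C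
  have hN0 : (Nat.card N : ℂ) ≠ 0 := by
    have : 0 < Nat.card N := Nat.card_pos
    exact_mod_cast this.ne'
  have hG0 : (Nat.card G : ℂ) ≠ 0 := by
    have : 0 < Nat.card G := Nat.card_pos
    exact_mod_cast this.ne'
  have h1ne : ¬ p ∣ orderOf (1 : G) := by
    rw [orderOf_one]
    exact fun h => hp.ne_one (Nat.dvd_one.mp h)
  obtain ⟨θ1, hθ1⟩ : ∃ θ1 : IrrCharacter G, θ1 = b (LamN S ν1 (triv0 S)) := ⟨_, rfl⟩
  rw [← hθ1] at hθ
  have hdeg1 : θ1.1 1 = (ind S : ℂ) := by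
    have h1 := congrFun hθ 1
    rw [trN_one, cinv_mul_cardN] at h1
    simp only [tw, map_one, Units.val_one, Pi.one_apply, mul_one, OneMemClass.coe_one] at h1
    exact h1
  -- a Galois conjugate off the orbit
  obtain ⟨ν2, hν2, h12⟩ := exists_off_orbit S ν1.1 (by rw [hP]; omega) (by rw [hΛ, hP])
  obtain ⟨θ2, hθ2, hreg2⟩ := galois S hp hP q hG hpq θ1 (triv0 S) ν1.1 ν2 ν1.2 hν2 hθ
  have hnc : ∀ n n' : N, ν2.comp (cjP S n') ≠ ν1.1.comp (cjP S n) :=
    fun n n' => not_conj_of' S ν1.1 ν2 h12 n n'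
  obtain ⟨A1, hA1⟩ : ∃ A1 : C → ℂ, A1 = trN S (tw S ν1.1 1) := ⟨_, rfl⟩
  obtain ⟨A2, hA2⟩ : ∃ A2 : C → ℂ, A2 = trN S (tw S ν2 1) := ⟨_, rfl⟩
  have hθ' : ∀ c : C, θ1.1 c = A1 c := fun c => by rw [hA1]; exact congrFun hθ c
  have hθ2' : ∀ c : C, θ2.1 c = A2 c := fun c => by rw [hA2]; exact congrFun hθ2 c
  have hc1 : IsCen (tw S ν1.1 (1 : C → ℂ)) ν1.1 := isCen_tw S ν1.1 (triv0 S).2
  have hc2 : IsCen (tw S ν2 (1 : C → ℂ)) ν2 := isCen_tw S ν2 (triv0 S).2
  have hθ1c : IsCharacter G θ1.1 := isCharacter_of_isIrrCharacter θ1.2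
  have hθ2c : IsCharacter G θ2.1 := isCharacter_of_isIrrCharacter θ2.2
  obtain ⟨Ξ, hΞdef⟩ : ∃ Ξ : G → ℂ, Ξ = θ1.1 * (fun g => conj (θ2.1 g)) := ⟨_, rfl⟩
  have hΞ : IsCharacter G Ξ := by
    rw [hΞdef]
    exact isCharacter_mul hθ1c (isCharacter_conj hθ2c)
  have hΞC : (fun c : C => Ξ c) = fun c => A1 c * conj (A2 c) := by
    funext c
    rw [← hθ', ← hθ2', hΞdef]
    rfl
  have h0 : ∀ ϑ' : Irr0 S, classInner ϑ'.1.1 (fun c : C => Ξ c) = 0 := by
    intro ϑ'
    rw [hΞC, hA1, hA2]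
    exact inner_cen_trN_mul S hc1 hc2 hnc ϑ'.1.1 ϑ'.2
  obtain ⟨mm, hmm, hstar⟩ := b0_star S w b (-1) hv hΞ h0
  -- the sum of the multiplicities of the `tw μ 1`
  have hAform : ∀ (ν : P.subgroupOf C →* ℂˣ) (c : C),
      trN S (tw S ν 1) c = (Nat.card C : ℂ)⁻¹ * Zs S ν (S.ρ c) := by
    intro ν c
    simp only [trN, tw, Zs, rho_cj, Pi.one_apply, mul_one]
  obtain ⟨Gf, hGf⟩ : ∃ Gf : P.subgroupOf C → ℂ, Gf = fun x =>
      ((Nat.card C : ℂ)⁻¹ * Zs S ν1.1 x) * conj ((Nat.card C : ℂ)⁻¹ * Zs S ν2 x) := ⟨_, rfl⟩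
  have hΞG : ∀ c : C, Ξ c = Gf (S.ρ c) := by
    intro c
    have h1 : Ξ c = A1 c * conj (A2 c) := congrFun hΞC c
    rw [h1, hA1, hA2, hAform, hAform, hGf]
  have hGf1 : Gf 1 = (ind S : ℂ) ^ 2 := by
    rw [hGf]
    simp only [Zs_one, map_mul, map_inv₀, Complex.conj_natCast]
    rw [cinv_mul_cardN S]
    ring
  have hsumall : ∑ μ : P.subgroupOf C →* ℂˣ, classInner (tw S μ 1) (fun c : C => Ξ c) =
      (ind S : ℂ) ^ 2 := by
    have hstep1 : ∀ μ : P.subgroupOf C →* ℂˣ, classInner (tw S μ 1) (fun c : C => Ξ c) =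
        (Nat.card C : ℂ)⁻¹ * ∑ c : C, ((μ (S.ρ c) : ℂˣ) : ℂ) * conj (Gf (S.ρ c)) := by
      intro μ
      unfold classInner
      congr 1
      refine Finset.sum_congr rfl fun c _ => ?_
      simp only [tw, Pi.one_apply, mul_one]
      rw [hΞG c]
    have hstep2 : ∑ μ : P.subgroupOf C →* ℂˣ, classInner (tw S μ 1) (fun c : C => Ξ c) =
        (Nat.card C : ℂ)⁻¹ * ∑ c : C,
          (∑ μ : P.subgroupOf C →* ℂˣ, ((μ (S.ρ c) : ℂˣ) : ℂ)) * conj (Gf (S.ρ c)) := by
      rw [Finset.sum_congr rfl (fun μ _ => hstep1 μ), ← Finset.mul_sum, Finset.sum_comm]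
      congr 1
      refine Finset.sum_congr rfl fun c _ => ?_
      rw [Finset.sum_mul]
    have hrm := sum_rho_mul S
      (fun x => (∑ μ : P.subgroupOf C →* ℂˣ, ((μ x : ℂˣ) : ℂ)) * conj (Gf x))
      (fun _ => (1 : ℂ)) (fun _ _ => rfl)
    have hsx : ∑ x : P.subgroupOf C,
        (∑ μ : P.subgroupOf C →* ℂˣ, ((μ x : ℂˣ) : ℂ)) * conj (Gf x) =
          (p : ℂ) * conj (Gf 1) := by
      rw [Finset.sum_eq_single 1]
      · rw [sum_hom_apply (comm_sub S), if_pos rfl, hΛ]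
      · intro x _ hx
        rw [sum_hom_apply (comm_sub S), if_neg hx, zero_mul]
      · intro h
        exact absurd (Finset.mem_univ _) h
    have hs1 : ∑ _c : C, (1 : ℂ) = (Nat.card C : ℂ) := by
      rw [Finset.sum_const, Finset.card_univ, nsmul_eq_mul, mul_one, Nat.card_eq_fintype_card]
    rw [hsx, hs1, hcardD] at hrm
    simp only [mul_one] at hrm
    have hsum' : ∑ c : C,
        (∑ μ : P.subgroupOf C →* ℂˣ, ((μ (S.ρ c) : ℂˣ) : ℂ)) * conj (Gf (S.ρ c)) =
          conj (Gf 1) * (Nat.card C : ℂ) := by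
      apply mul_left_cancel₀ hp0
      rw [hrm]
      ring
    rw [hstep2, hsum', hGf1, map_pow, Complex.conj_natCast, mul_comm, mul_assoc,
      mul_inv_cancel₀ hC0, mul_one]
  -- the F-identity
  have hsumA : ∀ A B : C → ℂ, ∑ c : C, A c * conj (B c) = (Nat.card C : ℂ) * classInner A B := by
    intro A B
    unfold classInner
    rw [← mul_assoc, mul_inv_cancel₀ hC0, one_mul]
  have hn1 : classInner A1 A1 = (ind S : ℂ) := by
    rw [hA1]
    exact norm_trN S (twI S ν1.1 (triv0 S).1) hc1 ν1.2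
  have hn2 : classInner A1 A2 = 0 := by
    rw [hA1, hA2, inner_trN_ninv S (ninv_trN S _)]
    have h3 : classInner (twI S ν1.1 (triv0 S).1).1 (trN S (twI S ν2 (triv0 S).1).1) = 0 := by
      apply inner_trN_of_not
      intro n hn
      have c1 : IsCen (fun c => (twI S ν2 (triv0 S).1).1 (cj S n c)) (ν2.comp (cjP S n)) :=
        hc2.comp_cj S n
      rw [hn] at c1
      have c2 := IsCen.eq_of c1 hc1 (irr_one_ne_zero (twI S ν1.1 (triv0 S).1))
      have c3 := hnc 1 n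
      rw [cjP_one_eq, MonoidHom.comp_id] at c3
      exact c3 c2
    have h4 : classInner (tw S ν1.1 (1 : C → ℂ)) (trN S (tw S ν2 1)) = 0 := h3
    rw [h4, mul_zero]
  have hFid : ∀ ψ : IrrCharacter G, w ψ ≠ 0 →
      classInner (θ1.1 * fun g => conj (θ1.1 g)) ψ.1 - classInner Ξ ψ.1 = w ψ := by
    intro ψ hwψ
    obtain ⟨Fd, hFd⟩ : ∃ Fd : G → ℂ,
        Fd = fun g => θ1.1 g * conj (θ1.1 g) - θ1.1 g * conj (θ2.1 g) := ⟨_, rfl⟩
    have hFd0 : ∀ g : G, ¬ p ∣ orderOf g → Fd g = 0 := by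
      intro g hg
      rw [hFd]
      simp only
      rw [hreg2 g hg, sub_self]
    have hcf : IsClassFunction G (fun g => Fd g * conj (ψ.1 g)) := by
      intro g h
      rw [hFd]
      simp only
      rw [irr_isClassFunction θ1 g h, irr_isClassFunction θ2 g h, irr_isClassFunction ψ g h]
    have hs := sum_sing S hcf
    have e1 : (∑ g : G, if p ∣ orderOf g then Fd g * conj (ψ.1 g) else 0) =
        ∑ g : G, Fd g * conj (ψ.1 g) := by
      refine Finset.sum_congr rfl fun g _ => ?_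
      by_cases hg : p ∣ orderOf g
      · rw [if_pos hg]
      · rw [if_neg hg, hFd0 g hg, zero_mul]
    have e2 : (∑ c : C, if p ∣ orderOf (c : G) then Fd c * conj (ψ.1 c) else 0) =
        (w ψ : ℂ) * ∑ c : C, Fd c := by
      rw [Finset.mul_sum]
      refine Finset.sum_congr rfl fun c _ => ?_
      by_cases hc : p ∣ orderOf (c : G)
      · rw [if_pos hc, sing_value S hcyc heq w b (-1) hwb hv ν1 ψ hwψ c hc, map_intCast]
        ring
      · rw [if_neg hc, hFd0 (c : G) hc, mul_zero]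
    have e3 : ∑ c : C, Fd c = (Nat.card C : ℂ) * (ind S : ℂ) := by
      have e4 : ∀ c : C, Fd c = A1 c * conj (A1 c) - A1 c * conj (A2 c) := by
        intro c
        rw [hFd]
        simp only
        rw [hθ', hθ2']
      rw [Finset.sum_congr rfl (fun c _ => e4 c), Finset.sum_sub_distrib, hsumA, hsumA, hn1, hn2]
      ring
    rw [e1, e2, e3, cardN_cast S] at hs
    have hfd : classInner Fd ψ.1 = w ψ := by
      unfold classInner
      have hi0 : (ind S : ℂ) ≠ 0 := by exact_mod_cast (ind_pos S).ne'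
      have h5 : (∑ g : G, Fd g * conj (ψ.1 g)) = (Nat.card G : ℂ) * (w ψ : ℂ) := by
        apply mul_right_cancel₀ (mul_ne_zero hi0 hC0)
        rw [hs]
        ring
      rw [h5, ← mul_assoc, inv_mul_cancel₀ hG0, one_mul]
    have e5 : Fd = (θ1.1 * fun g => conj (θ1.1 g)) - Ξ := by
      rw [hFd, hΞdef]
      rfl
    rw [← classInner_sub_left, ← e5, hfd]
  have hmm_neg : ∀ ψ : IrrCharacter G, w ψ = -1 → 1 ≤ mm ψ := by
    intro ψ hψ
    have h1 := hFid ψ (by rw [hψ]; norm_num)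
    obtain ⟨a, ha⟩ := classInner_isCharacter_nat
      (isCharacter_mul hθ1c (isCharacter_conj hθ1c)) (isCharacter_of_isIrrCharacter ψ.2)
    rw [ha, hmm, hψ] at h1
    have h2 : (a : ℤ) - (mm ψ : ℤ) = -1 := by exact_mod_cast h1
    omega
  have hneg : ∀ ψ : IrrCharacter G, mm ψ ≠ 0 → w ψ ≠ 0 →
      w ψ = -1 ∧ charDegree ψ.1 = p - 1 := by
    intro ψ hψ hwψ
    have hne : classInner Ξ ψ.1 ≠ 0 := by
      rw [hmm]
      exact_mod_cast hψ
    exact neg_of_no_triv S hp hP hcyc heq w b (-1) hw hwb hv ν1 ψ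
      (no_triv_of_constituent S hΞ h0 ψ hne) hwψ
  have hdeg_neg : ∀ ψ : IrrCharacter G, w ψ = -1 → charDegree ψ.1 = p - 1 := by
    intro ψ hψ
    have h1 := hmm_neg ψ hψ
    exact (hneg ψ (by omega) (by rw [hψ]; norm_num)).2
  have hpos_mm : ∀ ψ : IrrCharacter G, w ψ = 1 → mm ψ = 0 := by
    intro ψ hψ
    by_contra hne
    have h1 := (hneg ψ hne (by rw [hψ]; norm_num)).1
    rw [hψ] at h1
    norm_num at h1
  -- the counts
  obtain ⟨nm, hnm⟩ : ∃ nm : ℕ, nm = (Finset.univ.filter fun ψ : IrrCharacter G => w ψ = -1).card :=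
    ⟨_, rfl⟩
  have hnm' : (nm : ℤ) = ∑ ψ : IrrCharacter G, if w ψ = -1 then (1 : ℤ) else 0 := by
    rw [hnm, Finset.card_filter]
    push_cast
    rfl
  obtain ⟨Y, hY⟩ : ∃ Y : ℤ, Y = -(∑ ψ : IrrCharacter G, (mm ψ : ℤ) * w ψ) := ⟨_, rfl⟩
  have hYge : (nm : ℤ) ≤ Y := by
    rw [hY, hnm', ← Finset.sum_neg_distrib]
    refine Finset.sum_le_sum fun ψ _ => ?_
    rcases hw ψ with h | h | h
    · rw [h]
      simp
    · rw [h, hpos_mm ψ h]
      simp
    · rw [h, if_pos rfl]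
      have := hmm_neg ψ h
      have h2 : (1 : ℤ) ≤ (mm ψ : ℤ) := by exact_mod_cast this
      linarith
  have hbound1 : ((p : ℤ) - 1) * Y ≤ (ind S : ℤ) ^ 2 := by
    have hs := hsumall
    rw [← Finset.sum_filter_add_sum_filter_not Finset.univ
      (fun μ : P.subgroupOf C →* ℂˣ => μ ≠ 1)] at hs
    have e1 : ∑ μ ∈ Finset.univ.filter (fun μ : P.subgroupOf C →* ℂˣ => ¬ μ ≠ 1),
        classInner (tw S μ 1) (fun c : C => Ξ c) = 0 := by
      apply Finset.sum_eq_zero
      intro μ hμ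
      have : μ = 1 := not_not.mp (Finset.mem_filter.mp hμ).2
      rw [this, tw_one]
      exact h0 (triv0 S)
    rw [e1, add_zero] at hs
    rw [Finset.sum_subtype (Finset.univ.filter fun μ : P.subgroupOf C →* ℂˣ => μ ≠ 1)
      (p := fun μ => μ ≠ 1) (by simp) (fun μ => classInner (tw S μ 1) (fun c : C => Ξ c))] at hs
    simp only [hstar] at hs
    rw [← hY, ← Int.cast_sum] at hs
    have hs' : ∑ μ : {μ : P.subgroupOf C →* ℂˣ // μ ≠ 1},
        (Y - (-1) * (mm (b (LamN S μ (triv0 S))) : ℤ)) = (ind S : ℤ) ^ 2 := by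
      exact_mod_cast hs
    rw [← hs']
    have hcard : (Finset.univ : Finset {μ : P.subgroupOf C →* ℂˣ // μ ≠ 1}).card = p - 1 := by
      rw [Finset.card_univ, Fintype.card_subtype_compl, Fintype.card_subtype_eq, hΛ]
    have h3 : ((p : ℤ) - 1) * Y = ∑ _μ : {μ : P.subgroupOf C →* ℂˣ // μ ≠ 1}, Y := by
      rw [Finset.sum_const, hcard, nsmul_eq_mul, Nat.cast_sub hp1]
      push_cast
      ring
    rw [h3]
    refine Finset.sum_le_sum fun μ _ => ?_
    have : (0 : ℤ) ≤ (mm (b (LamN S μ (triv0 S))) : ℤ) := Int.natCast_nonneg _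
    linarith
  -- the degree equation
  have hdegeq : ∑ χ : IrrCharacter G, w χ * (charDegree χ.1 : ℤ) = (ind S : ℤ) := by
    have h1 := reg_identity S hv ν1 1 h1ne
    rw [← hθ1, hdeg1] at h1
    have h2 : ((∑ χ : IrrCharacter G, w χ * (charDegree χ.1 : ℤ) : ℤ) : ℂ) =
        ((ind S : ℤ) : ℂ) := by
      push_cast
      have h3 : ∑ χ : IrrCharacter G, (w χ : ℂ) * (charDegree χ.1 : ℂ) =
          ∑ χ : IrrCharacter G, (w χ : ℂ) * χ.1 1 :=
        Finset.sum_congr rfl fun χ _ => by rw [irr_one_eq_charDegree]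
      rw [h3]
      push_cast at h1
      linear_combination h1
    exact_mod_cast h2
  -- the trivial character
  obtain ⟨ψ0, hψ0⟩ : ∃ ψ0 : IrrCharacter G, ψ0 = ⟨1, isIrr_one_fun G⟩ := ⟨_, rfl⟩
  have hψ0v : ψ0.1 = 1 := by rw [hψ0]
  have hw0 : w ψ0 = 1 := by
    have h1 := hv ν1 ψ0
    have h2 : classInner (Gam S ν1.1 (triv0 S).1.1) ψ0.1 = 1 := by
      rw [hψ0v]
      exact inner_Gam_one S ν1.1 ν1.2
    rw [h2] at h1
    by_cases h : ψ0 = b (LamN S ν1 (triv0 S))
    · rw [if_pos h, h, hwb] at h1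
      norm_num at h1
    · rw [if_neg h, add_zero] at h1
      exact_mod_cast h1.symm
  have hd0 : charDegree ψ0.1 = 1 := by
    apply charDegree_of_natCast
    rw [hψ0v]
    simp
  have hdeg_pos : ∀ ψ : IrrCharacter G, w ψ = 1 → ψ ≠ ψ0 → p + 1 ≤ charDegree ψ.1 := by
    intro ψ hψ hne
    have hval : ∀ c : C, p ∣ orderOf (c : G) → ψ.1 c = ((1 : ℤ) : ℂ) := by
      intro c hc
      have := sing_value S hcyc heq w b (-1) hwb hv ν1 ψ (by rw [hψ]; norm_num) c hc
      rw [hψ] at this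
      exact this
    have hmod := deg_modEq S hP ψ 1 hval
    by_contra hlt
    push Not at hlt
    obtain ⟨k, hk⟩ := Int.modEq_iff_dvd.mp hmod
    have hdpos : (1 : ℤ) ≤ (charDegree ψ.1 : ℤ) := by exact_mod_cast charDegree_pos ψ
    have hdlt : (charDegree ψ.1 : ℤ) ≤ p := by
      have : charDegree ψ.1 ≤ p := by omega
      exact_mod_cast this
    have hpz : (2 : ℤ) ≤ p := by exact_mod_cast hp.two_le
    have hk0 : k = 0 := by
      rcases lt_trichotomy k 0 with h | h | h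
      · exfalso
        have : (p : ℤ) * k ≤ (p : ℤ) * (-1) :=
          mul_le_mul_of_nonneg_left (by omega) (by linarith)
        linarith
      · exact h
      · exfalso
        have : (p : ℤ) * 1 ≤ (p : ℤ) * k :=
          mul_le_mul_of_nonneg_left (by omega) (by linarith)
        linarith
    rw [hk0, mul_zero] at hk
    have hd1 : charDegree ψ.1 = 1 := by
      have : (charDegree ψ.1 : ℤ) = 1 := by linarith
      exact_mod_cast this
    have hψ1 : ψ.1 1 = 1 := by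
      rw [irr_one_eq_charDegree, hd1]
      simp
    apply hne
    apply Subtype.ext
    rw [hψ0v, hcl ψ]
    · rfl
    · intro x hx
      by_cases hx1 : x = 1
      · rw [hx1]
      · have hxC : x ∈ C := S.hPC hx
        have hsing : p ∣ orderOf x := by
          by_contra hreg
          have h3 := (S.hreg ⟨x, hxC⟩).mp hreg
          have h4 := S.hρ ⟨⟨x, hxC⟩, Subgroup.mem_subgroupOf.mpr hx⟩
          rw [h3] at h4
          apply hx1
          have h5 := congrArg (fun z : P.subgroupOf C => ((z : C) : G)) h4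
          exact h5.symm
        have h6 := hval ⟨x, hxC⟩ hsing
        rw [hψ1]
        simpa using h6
  -- the final inequality
  obtain ⟨np, hnp⟩ : ∃ np : ℤ, np = ∑ ψ : IrrCharacter G, if w ψ = 1 then (1 : ℤ) else 0 :=
    ⟨_, rfl⟩
  have hnpm : np + (nm : ℤ) = (ind S : ℤ) := by
    rw [hnp, hnm', ← hwc, Finset.card_filter, ← Finset.sum_add_distrib]
    push_cast
    refine Finset.sum_congr rfl fun ψ _ => ?_
    rcases hw ψ with h | h | h <;> rw [h] <;> norm_num
  have hterm : ∀ χ : IrrCharacter G,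
      (if w χ = 1 then ((p : ℤ) + 1) else 0) - (if χ = ψ0 then (p : ℤ) else 0) -
        (if w χ = -1 then ((p : ℤ) - 1) else 0) ≤ w χ * (charDegree χ.1 : ℤ) := by
    intro χ
    have hpz : (2 : ℤ) ≤ p := by exact_mod_cast hp.two_le
    rcases hw χ with h | h | h
    · have hne : χ ≠ ψ0 := by
        intro h'
        rw [h', hw0] at h
        norm_num at h
      rw [h, if_neg hne]
      norm_num
    · by_cases hχ : χ = ψ0
      · rw [h, if_pos rfl, if_pos hχ, hχ, hd0]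
        norm_num
      · have h2 := hdeg_pos χ h hχ
        have h3 : ((p : ℤ) + 1) ≤ (charDegree χ.1 : ℤ) := by exact_mod_cast h2
        rw [h, if_pos rfl, if_neg hχ]
        norm_num
        linarith
    · have hne : χ ≠ ψ0 := by
        intro h'
        rw [h', hw0] at h
        norm_num at h
      rw [h, if_neg hne, if_pos rfl, hdeg_neg χ h, Nat.cast_sub hp1]
      norm_num
  have hsumterm : ((p : ℤ) + 1) * np - (p : ℤ) - ((p : ℤ) - 1) * (nm : ℤ) ≤ (ind S : ℤ) := by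
    rw [← hdegeq]
    have e : ((p : ℤ) + 1) * np - (p : ℤ) - ((p : ℤ) - 1) * (nm : ℤ) =
        ∑ χ : IrrCharacter G, ((if w χ = 1 then ((p : ℤ) + 1) else 0) -
          (if χ = ψ0 then (p : ℤ) else 0) - (if w χ = -1 then ((p : ℤ) - 1) else 0)) := by
      rw [Finset.sum_sub_distrib, Finset.sum_sub_distrib, Finset.sum_ite_eq' Finset.univ ψ0,
        if_pos (Finset.mem_univ _), hnp, hnm', Finset.mul_sum, Finset.mul_sum]
      simp only [mul_ite, mul_one, mul_zero]
    rw [e]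
    exact Finset.sum_le_sum fun χ _ => hterm χ
  have hpz : (2 : ℤ) ≤ p := by exact_mod_cast hp.two_le
  have h2z : (ind S : ℤ) ≤ 2 * (nm : ℤ) + 1 := by
    by_contra hcon
    push Not at hcon
    have h5 : (1 : ℤ) ≤ (ind S : ℤ) - 2 * (nm : ℤ) - 1 := by omega
    have h6 : (p : ℤ) * 1 ≤ (p : ℤ) * ((ind S : ℤ) - 2 * (nm : ℤ) - 1) :=
      mul_le_mul_of_nonneg_left h5 (by linarith)
    have h7 : np = (ind S : ℤ) - (nm : ℤ) := by linarith
    rw [h7] at hsumterm
    nlinarith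
  have h1z : ((p : ℤ) - 1) * (nm : ℤ) ≤ (ind S : ℤ) ^ 2 := by
    have : ((p : ℤ) - 1) * (nm : ℤ) ≤ ((p : ℤ) - 1) * Y :=
      mul_le_mul_of_nonneg_left hYge (by linarith)
    linarith
  have ht := card_setB_triv S
  rw [hΛ] at ht
  apply arith_final p (ind S) (setB S (triv0 S)).card nm hp hf2 hf ht
  · have : (((p - 1) * nm : ℕ) : ℤ) ≤ ((ind S * ind S : ℕ) : ℤ) := by
      push_cast [Nat.cast_sub hp1]
      linarith
    exact_mod_cast this
  · exact_mod_cast h2z

end Cfsg.Agent.H82.P1
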