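import Cfsg.Agent.H82.P2H
import Cfsg.Agent.H81.GagChar

/-!
# Sylow subgroups of prime order, part 2I: small irreducible characters (helper82)

In a local setup with `|P| = p`, `N / C` cyclic and `k_{p'}(G) ≥ k(N)`:
* `small_irr_false`: if `G` is the normal closure of `P` and `|N : C| ≥ 2`, every irreducible
  character of degree less than `(p - 1) / 2` has `P` in its kernel;
* `comm_of_ind_one`: if `N = C`, a faithful character of degree less than `(p - 1) / 2` forces
  `P` to be central.
-/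

set_option autoImplicit false
set_option linter.style.haveILetI false
set_option linter.unusedSectionVars false

namespace Cfsg.Agent.H82.P1

open Cfsg Cfsg.Agent.H4 Cfsg.Agent.H82 Cfsg.Agent.H82.BL Cfsg.Agent.Clifford
open scoped ComplexConjugate
open Classical

universe u

variable {G : Type u} [Group G] [Fintype G] {p : ℕ} {N C P : Subgroup G} [Fintype N] [Fintype C]
  (S : Setup p N C P)
  [Fintype (IrrCharacter G)] [Fintype (IrrCharacter N)] [Fintype (IrrCharacter C)]
  [Fintype (P.subgroupOf C)] [Fintype (P.subgroupOf C →* ℂˣ)]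

omit [Fintype (IrrCharacter G)] [Fintype (IrrCharacter N)] [Fintype (IrrCharacter C)]
  [Fintype (P.subgroupOf C)] [Fintype (P.subgroupOf C →* ℂˣ)] in
theorem trN_eq_self_of_ind_one (hind : ind S = 1) {f : C → ℂ} (hf : IsClassFunction C f) :
    trN S f = f := by
  have h1 := ind_mul S
  rw [hind, one_mul] at h1
  have h2 : C = N := Subgroup.eq_of_le_of_card_ge S.hCN (by rw [h1])
  have hle : N ≤ C := by rw [h2]
  have hNC : ∀ n : N, (n : G) ∈ C := fun n => hle n.2
  funext c
  simp only [trN]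
  have h3 : ∀ n : N, f (cj S n c) = f c := fun n => congrFun (comp_cj_of_mem S hf n (hNC n)) c
  rw [Finset.sum_congr rfl (fun n _ => h3 n), Finset.sum_const, Finset.card_univ, nsmul_eq_mul,
    ← Nat.card_eq_fintype_card, ← h1, ← mul_assoc, inv_mul_cancel₀ (cardC_ne_zero C), one_mul]

/-- The main case: `G` is the normal closure of `P` and `|N : C| ≥ 2`. -/
theorem small_irr_false (hp : p.Prime) (hP : Nat.card P = p)
    (hcyc : haveI := normal_CN S; IsCyclic (N ⧸ C.subgroupOf N))
    (heq : Fintype.card (IrrCharacter N) ≤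
      (Finset.univ.filter fun χ : IrrCharacter G => ¬ Nat.card P ∣ charDegree χ.1).card)
    (q : ℕ) (hG : Nat.card G = p * q) (hpq : p.Coprime q)
    (hcl : ∀ Φ : IrrCharacter G, (∀ x ∈ P, Φ.1 x = Φ.1 1) → Φ.1 = fun _ => 1)
    (hf2 : 2 ≤ ind S)
    (χ : IrrCharacter G) (hdeg : 2 * charDegree χ.1 + 1 < p)
    (x : G) (hx : x ∈ P) (hne : χ.1 x ≠ χ.1 1) : False := by
  obtain ⟨ϑ, μ1, hχ⟩ := shape S hp hP hcyc heq χ hdeg x hx hne
  have hdeg' : ind S ≤ charDegree χ.1 := by
    have h1 := congrFun hχ 1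
    rw [trN_one, cinv_mul_cardN] at h1
    simp only [tw, map_one, Units.val_one, one_mul, OneMemClass.coe_one] at h1
    rw [irr_one_eq_charDegree χ, irr_one_eq_charDegree ϑ.1] at h1
    have h2 : charDegree χ.1 = ind S * charDegree ϑ.1.1 := by exact_mod_cast h1
    rw [h2]
    exact Nat.le_mul_of_pos_right _ (charDegree_pos ϑ.1)
  have hf : 2 * ind S + 1 < p := by omega
  obtain ⟨w, b, s, hw, hwc, hwb, hs, hb, hv⟩ := exists_wbs_gen S hp hcyc heq (triv0 S) μ1
  rw [card_setA_triv S hcyc] at hwc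
  obtain ⟨hs1, ν, hν⟩ := exists_min_exc S hp hP hcyc heq q hG hpq w b s hs hwb hb hv χ ϑ
    μ1.1 μ1.2 hχ hf
  subst hs1
  exact final_count S hp hP hcyc heq q hG hpq hcl hf2 hf w b hw hwc hwb hv ν hν

/-- The case `N = C`. -/
theorem comm_of_ind_one (hp : p.Prime) (hP : Nat.card P = p)
    (hcyc : haveI := normal_CN S; IsCyclic (N ⧸ C.subgroupOf N))
    (heq : Fintype.card (IrrCharacter N) ≤
      (Finset.univ.filter fun χ : IrrCharacter G => ¬ Nat.card P ∣ charDegree χ.1).card)
    (hind : ind S = 1) (χ : G → ℂ) (hχ : IsCharacter G χ)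
    (hfaith : ∀ g : G, χ g = χ 1 → g = 1) (hdeg : 2 * charDegree χ + 1 < p)
    (x : G) (hx : x ∈ P) (g : G) : x * g = g * x := by
  have h5 : x * g * x⁻¹ * g⁻¹ = 1 := by
    apply hfaith
    obtain ⟨mm, hmm⟩ := isCharacter_iff.mp hχ
    have hinner : ∀ ψ : IrrCharacter G, classInner χ ψ.1 = mm ψ := by
      intro ψ
      rw [hmm, classInner_finsum_irr]
    rw [finsum_eq_sum_of_fintype] at hmm
    rw [hmm, Finset.sum_apply, Finset.sum_apply]
    refine Finset.sum_congr rfl fun ψ _ => ?_
    rw [Pi.smul_apply, Pi.smul_apply]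
    by_cases h0 : mm ψ = 0
    · rw [h0]
      simp
    · congr 1
      have hψne : classInner χ ψ.1 ≠ 0 := by
        rw [hinner]
        exact_mod_cast h0
      obtain ⟨r, hr, -⟩ := constituent_degree hχ ψ hψne
      have hdψ : charDegree ψ.1 ≤ charDegree χ := by
        have h2 : χ 1 = ((charDegree ψ.1 + r : ℕ) : ℂ) := by
          rw [hr, irr_one_eq_charDegree]
          push_cast
          rfl
        rw [charDegree_of_natCast h2]
        omega
      have hmemker : x * g * x⁻¹ * g⁻¹ ∈ irrKer ψ := by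
        by_cases hker : ∀ y ∈ P, ψ.1 y = ψ.1 1
        · have hxk : x ∈ irrKer ψ := (mem_irrKer ψ x).mpr (hker x hx)
          have h1 : g * x⁻¹ * g⁻¹ ∈ irrKer ψ :=
            (inferInstance : (irrKer ψ).Normal).conj_mem _ ((irrKer ψ).inv_mem hxk) g
          have h2 : x * g * x⁻¹ * g⁻¹ = x * (g * x⁻¹ * g⁻¹) := by group
          rw [h2]
          exact (irrKer ψ).mul_mem hxk h1
        · push Not at hker
          obtain ⟨y, hy, hyne⟩ := hker
          obtain ⟨ϑ, μ, hres⟩ := shape S hp hP hcyc heq ψ (by omega) y hy hyne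
          rw [trN_eq_self_of_ind_one S hind (show IsClassFunction C (tw S μ.1 ϑ.1.1) from
            irr_isClassFunction (twI S μ.1 ϑ.1))] at hres
          have hxC : x ∈ C := S.hPC hx
          obtain ⟨xD, hxD⟩ : ∃ xD : P.subgroupOf C,
              xD = ⟨⟨x, hxC⟩, Subgroup.mem_subgroupOf.mpr hx⟩ := ⟨_, rfl⟩
          have e1 : ψ.1 x = ((μ.1 xD : ℂˣ) : ℂ) * ψ.1 1 := by
            have h1 : ψ.1 x = tw S μ.1 ϑ.1.1 (xD : C) := by
              have := congrFun hres (xD : C)
              rw [hxD] at this ⊢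
              exact this
            have h2 : ψ.1 1 = tw S μ.1 ϑ.1.1 1 := congrFun hres 1
            have h3 := isCen_tw S μ.1 ϑ.2 xD 1
            rw [mul_one] at h3
            rw [h1, h3, ← h2]
          have e2 : Complex.normSq (ψ.1 x) = Complex.normSq (ψ.1 1) := by
            rw [e1, map_mul, Complex.normSq_eq_norm_sq, norm_hom_eq_one μ.1 xD]
            simp
          have hcen := Cfsg.Agent.H81.Gag.mem_irrCen_of_normSq ψ e2
          exact (Cfsg.Agent.H16.mem_irrCen ψ x).mp hcen g
      exact (mem_irrKer ψ _).mp hmemker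
  calc x * g = (x * g * x⁻¹ * g⁻¹) * g * x := by group
    _ = g * x := by rw [h5, one_mul]

end Cfsg.Agent.H82.P1
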