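import Cfsg.Agent.H82.P2I
import Cfsg.Agent.H82.BL12
import Cfsg.Agent.H82.MdP
import Cfsg.Agent.S4502

/-!
# Sylow subgroups of prime order, part 2J: Brauer's theorem (helper82)

`sylow_normal_of_small`: if a Sylow `p`-subgroup `P` of `G` has order `p` and `G` has a
faithful character of degree less than `(p - 1) / 2`, then `P` is normal.
-/

set_option autoImplicit false
set_option linter.style.haveILetI false
set_option linter.unusedSectionVars false

namespace Cfsg.Agent.H82.P1

open Cfsg Cfsg.Agent.H4 Cfsg.Agent.H82 Cfsg.Agent.H82.BL Cfsg.Agent.Clifford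
open scoped ComplexConjugate

universe u

/-- The case where `G` is the normal closure of `P`. -/
theorem normal_of_closure {G : Type u} [Group G] [Finite G] {p : ℕ} [Fact p.Prime]
    (P : Sylow p G) (hP : Nat.card P = p)
    (hcl : ∀ K : Subgroup G, K.Normal → (P : Subgroup G) ≤ K → K = ⊤)
    (χ : G → ℂ) (hχ : IsCharacter G χ) (hfaith : ∀ g : G, χ g = χ 1 → g = 1)
    (hdeg : 2 * charDegree χ + 1 < p) : (P : Subgroup G).Normal := by
  classical
  have hp : p.Prime := Fact.out
  letI : Fintype G := Fintype.ofFinite G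
  obtain ⟨S⟩ := exists_setup_of_card P hP
  letI : Fintype ↥(NN P) := Fintype.ofFinite _
  letI : Fintype ↥(CC P) := Fintype.ofFinite _
  letI : Fintype (IrrCharacter G) := Cfsg.Agent.H4.fintypeIrr G
  letI : Fintype (IrrCharacter ↥(NN P)) := Cfsg.Agent.H4.fintypeIrr _
  letI : Fintype (IrrCharacter ↥(CC P)) := Cfsg.Agent.H4.fintypeIrr _
  letI : Fintype ↥((P : Subgroup G).subgroupOf (CC P)) := Fintype.ofFinite _
  have hcomm : ∀ a b : ↥((P : Subgroup G).subgroupOf (CC P)), a * b = b * a := by
    intro a b
    apply Subtype.ext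
    apply Subtype.ext
    have := S.cent (a : G) (Subgroup.mem_subgroupOf.mp a.2) (b : G) (b : ↥(CC P)).2
    simpa using this
  haveI : Finite (↥((P : Subgroup G).subgroupOf (CC P)) →* ℂˣ) := (card_hom_units hcomm).1
  letI : Fintype (↥((P : Subgroup G).subgroupOf (CC P)) →* ℂˣ) := Fintype.ofFinite _
  have hP' : Nat.card ↥(P : Subgroup G) = p := hP
  have hG : Nat.card G = p * (P : Subgroup G).index := Cfsg.Agent.H82.Md.sylp_card P hP
  have hndvd : ¬ p ∣ (P : Subgroup G).index := Cfsg.Agent.H82.Md.sylp_not_dvd_index P hP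
  have hpq : p.Coprime (P : Subgroup G).index := (Nat.Prime.coprime_iff_not_dvd hp).mpr hndvd
  have hdiv : p ∣ Nat.card G := by
    rw [hG]
    exact dvd_mul_right _ _
  have hsq : ¬ p ^ 2 ∣ Nat.card G := by
    rw [hG, pow_two]
    intro h
    exact hndvd ((Nat.mul_dvd_mul_iff_left hp.pos).mp h)
  have hcount := Cfsg.Agent.S4502.result p hdiv hsq P
  have heq : Fintype.card (IrrCharacter ↥(NN P)) ≤
      (Finset.univ.filter fun χ : IrrCharacter G =>
        ¬ Nat.card ↥(P : Subgroup G) ∣ charDegree χ.1).card := by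
    rw [hP']
    have h := hcount
    rw [← Cfsg.Agent.H4.card_irr_eq_card_conjClasses, Nat.card_eq_fintype_card,
      Nat.card_eq_fintype_card, Fintype.card_subtype] at h
    exact h.symm.le
  have hcyc := isCyclic_norm_mod_cent P hP S
  by_cases hind : ind S = 1
  · constructor
    intro y hy g
    have h1 := comm_of_ind_one S hp hP' hcyc heq hind χ hχ hfaith hdeg y hy g
    have h6 : g * y * g⁻¹ = y := by rw [← h1, mul_inv_cancel_right]
    rw [h6]
    exact hy
  · exfalso
    have hf2 : 2 ≤ ind S := by
      have := ind_pos S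
      omega
    obtain ⟨x, hx, hx1⟩ := exists_ne_one_of_card P (by rw [hP]; exact hp.one_lt)
    have hχx : χ x ≠ χ 1 := fun h => hx1 (hfaith x h)
    obtain ⟨mm, hmm⟩ := isCharacter_iff.mp hχ
    have hinner : ∀ ψ : IrrCharacter G, classInner χ ψ.1 = mm ψ := by
      intro ψ
      rw [hmm, classInner_finsum_irr]
    rw [finsum_eq_sum_of_fintype] at hmm
    have hex : ∃ ψ : IrrCharacter G, mm ψ ≠ 0 ∧ ψ.1 x ≠ ψ.1 1 := by
      by_contra hcon
      push Not at hcon
      apply hχx
      rw [hmm, Finset.sum_apply, Finset.sum_apply]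
      refine Finset.sum_congr rfl fun ψ _ => ?_
      rw [Pi.smul_apply, Pi.smul_apply]
      by_cases h0 : mm ψ = 0
      · rw [h0]
        simp
      · rw [hcon ψ h0]
    obtain ⟨ψ, hψ0, hψx⟩ := hex
    have hψne : classInner χ ψ.1 ≠ 0 := by
      rw [hinner]
      exact_mod_cast hψ0
    obtain ⟨r, hr, -⟩ := constituent_degree hχ ψ hψne
    have hdψ : charDegree ψ.1 ≤ charDegree χ := by
      have h2 : χ 1 = ((charDegree ψ.1 + r : ℕ) : ℂ) := by
        rw [hr, irr_one_eq_charDegree]
        push_cast
        rfl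
      rw [charDegree_of_natCast h2]
      omega
    exact small_irr_false S hp hP' hcyc heq _ hG hpq (ker_hyp P hcl) hf2 ψ (by omega) x hx hψx

/-- **Brauer**: a faithful character of degree less than `(p - 1) / 2` forces a Sylow
`p`-subgroup of order `p` to be normal. -/
theorem sylow_normal_of_small : ∀ (m : ℕ) (G : Type u) [Group G] [Finite G], Nat.card G = m →
    ∀ (p : ℕ) [Fact p.Prime] (P : Sylow p G), Nat.card P = p →
      ∀ (χ : G → ℂ), IsCharacter G χ → (∀ g : G, χ g = χ 1 → g = 1) →
        2 * charDegree χ + 1 < p → (P : Subgroup G).Normal := by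
  intro m
  induction m using Nat.strong_induction_on with
  | _ m ih =>
    intro G _ _ hm p _ P hP χ hχ hfaith hdeg
    classical
    set G₁ := Subgroup.normalClosure ((P : Subgroup G) : Set G) with hG₁
    have hle : (P : Subgroup G) ≤ G₁ := Subgroup.le_normalClosure
    by_cases htop : G₁ = ⊤
    · have hcl : ∀ K : Subgroup G, K.Normal → (P : Subgroup G) ≤ K → K = ⊤ := by
        intro K hK hPK
        have h1 : G₁ ≤ K := Subgroup.normalClosure_le_normal hPK
        rw [htop] at h1
        exact top_le_iff.mp h1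
      exact normal_of_closure P hP hcl χ hχ hfaith hdeg
    · have hlt : Nat.card G₁ < m := by
        rw [← hm]
        have h1 : Nat.card G₁ ≤ Nat.card G := Subgroup.card_le_card_group G₁
        have h2 : Nat.card G₁ ≠ Nat.card G := fun h => htop ((Subgroup.card_eq_iff_eq_top G₁).mp h)
        omega
      let P₁ : Sylow p G₁ := P.subtype hle
      have hχ₁ : IsCharacter G₁ (fun g : G₁ => χ g) := isCharacter_restrict G₁ hχ
      have hfaith₁ : ∀ g : G₁, (fun g : G₁ => χ g) g = (fun g : G₁ => χ g) 1 → g = 1 := by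
        intro g hg
        apply Subtype.ext
        exact hfaith g hg
      have hcard₁ : Nat.card P₁ = Nat.card P :=
        Nat.card_congr (Subgroup.subgroupOfEquivOfLe hle).toEquiv
      have hP₁ : Nat.card P₁ = p := by rw [hcard₁, hP]
      have hdeg₁ : 2 * charDegree (fun g : G₁ => χ g) + 1 < p := hdeg
      have hnorm₁ : (P₁ : Subgroup G₁).Normal :=
        ih (Nat.card G₁) hlt G₁ rfl p P₁ hP₁ _ hχ₁ hfaith₁ hdeg₁
      haveI : G₁.Normal := Subgroup.normalClosure_normal
      haveI hchar : (P₁ : Subgroup G₁).Characteristic := Sylow.characteristic_of_normal P₁ hnorm₁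
      have hmap : ((P₁ : Subgroup G₁).map G₁.subtype).Normal :=
        ConjAct.normal_of_characteristic_of_normal
      have heq : (P₁ : Subgroup G₁).map G₁.subtype = (P : Subgroup G) := by
        change ((P : Subgroup G).subgroupOf G₁).map G₁.subtype = _
        rw [Subgroup.subgroupOf_map_subtype]
        exact inf_eq_left.mpr hle
      rw [← heq]
      exact hmap

end Cfsg.Agent.H82.P1
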