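import Cfsg.Agent.H82.BrLibE
import Cfsg.Agent.H82.BL12
import Cfsg.Agent.H82.MdP
import Cfsg.Agent.S4502
import Cfsg.Agent.H26.P2Defs
import Cfsg.Agent.H8.P2Scal

/-!
# P2-LIB (helper82 for helper26, S4705): the local analysis for a faithful irreducible character
of degree `p - 2` when a Sylow `p`-subgroup `P` has order `p` and is not normal

`lib : Cfsg.Agent.H26.P2.StLib`: the `p`-regular elements of `C_G(P)` are central,
`|N_G(P)| = 2 |C_G(P)|`, and `ζ(x) = -(μ(x) + μ(x)⁻¹)` on `P ∖ 1` for a nontrivial character `μ`.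

The character is exceptional in its block (the other cases contradict the degree), so its
values on `P ∖ 1` are `-s ϑ(1) ∑_{μ ∈ O} μ(x)` for an orbit `O` of `N_G(P)` on the characters of
`P`; the multiplicities of the trivial character and of a character of `O` in the restriction
to `P` give `s = 1`, `ϑ(1) = 1`, `|O| = 2` (the other solutions contradict faithfulness).
-/

set_option autoImplicit false
set_option linter.style.haveILetI false
set_option linter.unusedSectionVars false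

namespace Cfsg.Agent.H82.P2

open Cfsg Cfsg.Agent.H4 Cfsg.Agent.H82 Cfsg.Agent.H82.BL Cfsg.Agent.Clifford Cfsg.Agent.H82.P1
  Cfsg.Agent.H82.BrLib
open scoped ComplexConjugate

universe u

/-- The arithmetic of the two multiplicities. -/
theorem p2_arith (p n d ind k a : ℕ) (s : ℤ) (hs : s = 1 ∨ s = -1) (hn : n + 2 = p) (hp5 : 5 < p)
    (hd1 : 1 ≤ d) (hind1 : 1 ≤ ind) (hdvd : ind ∣ p - 1)
    (hK : (p : ℤ) * k = n + s * ind * d)
    (hA : (p : ℤ) * a = n - s * d * p + s * ind * d) :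
    (s = -1 ∧ ind = 1 ∧ d = n) ∨ (s = 1 ∧ ind = n + 1 ∧ d = n) ∨ (s = 1 ∧ ind = 2 ∧ d = 1) := by
  subst hn
  rcases hs with rfl | rfl
  · right
    have hK' : (n + 2) * k = n + ind * d := by
      have : ((n + 2 : ℕ) : ℤ) * k = n + ind * d := by linarith
      exact_mod_cast this
    have hA' : (n + 2) * a + d * (n + 2) = n + ind * d := by
      have : ((n + 2 : ℕ) : ℤ) * a + d * ((n + 2 : ℕ) : ℤ) = n + ind * d := by linarith
      exact_mod_cast this
    have hkd : a + d = k := by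
      have h1 : (n + 2) * (a + d) = (n + 2) * k := by rw [hK', ← hA']; ring
      exact Nat.eq_of_mul_eq_mul_left (by omega) h1
    obtain ⟨j, hj⟩ := hdvd
    have hj' : n + 1 = ind * j := by omega
    subst hkd
    rcases Nat.lt_or_ge j 2 with hj2 | hj2
    · have hj1 : j = 1 := by
        rcases Nat.eq_zero_or_pos j with h0 | h0
        · rw [h0] at hj'; omega
        · omega
      rw [hj1, mul_one] at hj'
      left
      rw [← hj'] at hK'
      have ha0 : a = 0 := by
        by_contra h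
        have h1 : 1 ≤ a := Nat.one_le_iff_ne_zero.mpr h
        nlinarith
      subst ha0
      refine ⟨rfl, hj'.symm, ?_⟩
      nlinarith
    · right
      have h2 : ind * 2 ≤ n + 1 := by rw [hj']; exact Nat.mul_le_mul_left _ hj2
      have hd_le : d ≤ 1 := by
        by_contra h
        push Not at h
        nlinarith
      have hd_eq : d = 1 := by omega
      subst hd_eq
      have ha0 : a = 0 := by
        by_contra h
        have h1 : 1 ≤ a := Nat.one_le_iff_ne_zero.mpr h
        nlinarith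
      subst ha0
      refine ⟨rfl, ?_, rfl⟩
      nlinarith
  · left
    have hK' : (n + 2) * k + ind * d = n := by
      have : ((n + 2 : ℕ) : ℤ) * k + ind * d = n := by linarith
      exact_mod_cast this
    have hk0 : k = 0 := by
      by_contra h
      have h1 : 1 ≤ k := Nat.one_le_iff_ne_zero.mpr h
      nlinarith
    subst hk0
    have hid : ind * d = n := by simpa using hK'
    have h1 : ind ∣ n := Dvd.intro _ hid
    have h2 : ind ∣ n + 1 := by
      have : n + 2 - 1 = n + 1 := by omega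
      rw [this] at hdvd; exact hdvd
    have h3 : ind ∣ 1 := (Nat.dvd_add_right h1).mp h2
    have h4 : ind = 1 := Nat.dvd_one.mp h3
    subst h4
    refine ⟨rfl, rfl, ?_⟩
    omega

/-- An irreducible character of degree one has absolute value one. -/
theorem p2_norm_one {A : Type u} [Group A] [Fintype A] (ϑ : IrrCharacter A) (h1 : ϑ.1 1 = 1)
    (c : A) : ϑ.1 c * conj (ϑ.1 c) = 1 := by
  classical
  have hle : ∀ a : A, Complex.normSq (ϑ.1 a) ≤ 1 := by
    intro a
    have h := Cfsg.Agent.H83.IsIrrCharacter.norm_le ϑ.2 a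
    rw [h1, norm_one] at h
    rw [Complex.normSq_eq_norm_sq]
    nlinarith [norm_nonneg (ϑ.1 a)]
  have hA0 : (Nat.card A : ℂ) ≠ 0 := by
    have : 0 < Nat.card A := Nat.card_pos
    exact_mod_cast this.ne'
  have hsum : ∑ a : A, Complex.normSq (ϑ.1 a) = (Nat.card A : ℝ) := by
    have h := irr_inner_self ϑ
    unfold classInner at h
    have h2 : ∑ a : A, ϑ.1 a * conj (ϑ.1 a) = (Nat.card A : ℂ) := by
      field_simp at h
      exact h
    have h3 : ((∑ a : A, Complex.normSq (ϑ.1 a) : ℝ) : ℂ) = ((Nat.card A : ℝ) : ℂ) := by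
      push_cast
      rw [← h2]
      refine Finset.sum_congr rfl fun a _ => ?_
      rw [Complex.mul_conj]
    exact_mod_cast h3
  have heq : Complex.normSq (ϑ.1 c) = 1 := by
    by_contra hne
    have hlt : Complex.normSq (ϑ.1 c) < 1 := lt_of_le_of_ne (hle c) hne
    have h4 : ∑ a : A, Complex.normSq (ϑ.1 a) < ∑ _a : A, (1 : ℝ) :=
      Finset.sum_lt_sum (fun a _ => hle a) ⟨c, Finset.mem_univ c, hlt⟩
    rw [hsum, Finset.sum_const, Finset.card_univ, Nat.card_eq_fintype_card] at h4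
    simp at h4
  rw [Complex.mul_conj, heq]
  simp

section Local

open Classical

variable {G : Type u} [Group G] [Fintype G] {p : ℕ} {N C P : Subgroup G} [Fintype N] [Fintype C]
  (S : Setup p N C P)
  [Fintype (IrrCharacter G)] [Fintype (IrrCharacter N)] [Fintype (IrrCharacter C)]
  [Fintype (P.subgroupOf C)] [Fintype (P.subgroupOf C →* ℂˣ)]

/-- A character with as many distinct constituents as its degree is their sum. -/
theorem p2_eq_sum {ψ : C → ℂ} (hψ : IsCharacter C ψ) (d : ℕ) (hd : ψ 1 = d)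
    (T : Finset (IrrCharacter C)) (hT : ∀ β ∈ T, classInner ψ β.1 ≠ 0) (hcard : d ≤ T.card) :
    ψ = fun c => ∑ β ∈ T, β.1 c := by
  obtain ⟨mm, hmm⟩ := isCharacter_iff.mp hψ
  have hinner : ∀ β : IrrCharacter C, classInner ψ β.1 = mm β := by
    intro β
    rw [hmm, classInner_finsum_irr]
  rw [finsum_eq_sum_of_fintype] at hmm
  have h1 : ψ 1 = ((∑ β : IrrCharacter C, mm β * charDegree β.1 : ℕ) : ℂ) := by
    rw [hmm, Finset.sum_apply]
    push_cast
    refine Finset.sum_congr rfl fun β _ => ?_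
    rw [Pi.smul_apply, irr_one_eq_charDegree, smul_eq_mul]
  rw [hd] at h1
  have h2 : d = ∑ β : IrrCharacter C, mm β * charDegree β.1 := by exact_mod_cast h1
  have h3 : ∀ β ∈ T, 1 ≤ mm β * charDegree β.1 := by
    intro β hβ
    have h3 : mm β ≠ 0 := by
      intro h0
      apply hT β hβ
      rw [hinner, h0]
      simp
    have h4 := charDegree_pos β
    exact Nat.one_le_iff_ne_zero.mpr (Nat.mul_ne_zero h3 h4.ne')
  have h4 : ∑ β : IrrCharacter C, mm β * charDegree β.1 =
      ∑ β ∈ T, mm β * charDegree β.1 + ∑ β ∈ Tᶜ, mm β * charDegree β.1 :=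
    (Finset.sum_add_sum_compl T _).symm
  have h5 : T.card ≤ ∑ β ∈ T, mm β * charDegree β.1 := by
    rw [Finset.card_eq_sum_ones]
    exact Finset.sum_le_sum h3
  have h6 : ∑ β ∈ Tᶜ, mm β * charDegree β.1 = 0 := by omega
  have h7 : ∑ β ∈ T, mm β * charDegree β.1 = T.card := by omega
  have h8 : ∀ β ∈ T, mm β * charDegree β.1 = 1 := by
    by_contra hcon
    push Not at hcon
    obtain ⟨β0, hβ0, hne⟩ := hcon
    have h9 : T.card < ∑ β ∈ T, mm β * charDegree β.1 := by
      rw [Finset.card_eq_sum_ones]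
      exact Finset.sum_lt_sum h3 ⟨β0, hβ0, by have := h3 β0 hβ0; omega⟩
    omega
  have h9 : ∀ β ∈ T, mm β = 1 := fun β hβ => Nat.eq_one_of_mul_eq_one_right (h8 β hβ)
  have h10 : ∀ β, β ∉ T → mm β = 0 := by
    intro β hβ
    have h11 := Finset.sum_eq_zero_iff.mp h6 β (Finset.mem_compl.mpr hβ)
    rcases Nat.mul_eq_zero.mp h11 with h | h
    · exact h
    · exact absurd h (charDegree_pos β).ne'
  rw [hmm]
  funext c
  rw [Finset.sum_apply, ← Finset.sum_subset (Finset.subset_univ T)]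
  · refine Finset.sum_congr rfl fun β hβ => ?_
    rw [Pi.smul_apply, h9 β hβ]
    simp
  · intro β _ hβ
    rw [Pi.smul_apply, h10 β hβ]
    simp

/-- The sum over `P` of a character of `P` against the conjugate of an orbit sum. -/
theorem p2_sum_conj_Zs (μ lam : P.subgroupOf C →* ℂˣ) :
    ∑ y : P.subgroupOf C, ((lam y : ℂˣ) : ℂ) * conj (Zs S μ y) =
      ∑ n : N, if lam = μ.comp (cjP S n) then (Nat.card (P.subgroupOf C) : ℂ) else 0 := by
  have h1 : ∀ y : P.subgroupOf C, ((lam y : ℂˣ) : ℂ) * conj (Zs S μ y) =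
      ∑ n : N, ((lam y : ℂˣ) : ℂ) * conj ((((μ.comp (cjP S n)) y : ℂˣ) : ℂ)) := by
    intro y
    simp only [Zs, map_sum, Finset.mul_sum, MonoidHom.comp_apply]
  rw [Finset.sum_congr rfl (fun y _ => h1 y), Finset.sum_comm]
  refine Finset.sum_congr rfl fun n _ => ?_
  exact sum_hom_mul_conj lam (μ.comp (cjP S n))

/-- The exceptional shape: a character of degree at most `p - 2` which is not trivial on `P` is
exceptional for some `ϑ`. -/
theorem p2_exc_shape (hp : p.Prime) (hP : Nat.card P = p)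
    (hcyc : haveI := normal_CN S; IsCyclic (N ⧸ C.subgroupOf N))
    (heq : Fintype.card (IrrCharacter N) ≤
      (Finset.univ.filter fun χ : IrrCharacter G => ¬ Nat.card P ∣ charDegree χ.1).card)
    (χ : IrrCharacter G) (hdeg : charDegree χ.1 + 2 ≤ p)
    (x : G) (hx : x ∈ P) (hne : χ.1 x ≠ χ.1 1) :
    ∃ (ϑ : Irr0 S) (μF : {μ : P.subgroupOf C →* ℂˣ // μ ≠ 1}) (s : ℤ), (s = 1 ∨ s = -1) ∧
      (∀ c : C, p ∣ orderOf (c : G) → χ.1 c = -(s : ℂ) * trN S (tw S μF.1 ϑ.1.1) c) ∧
      (s = 1 → ∀ μ : P.subgroupOf C →* ℂˣ,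
        classInner (tw S μ ϑ.1.1) (fun c : C => χ.1 c) = 0 →
          μ ∈ Finset.univ.image (fun n : N => μF.1.comp (cjP S n))) := by
  have hΛ := card_dual S hP
  obtain ⟨β0, ω0, hcen0, hω0, hne0⟩ :=
    exists_constituent S (isCharacter_of_isIrrCharacter χ.2) x hx hne
  obtain ⟨χC, hχC⟩ : ∃ χC : C → ℂ, χC = fun c : C => χ.1 c := ⟨_, rfl⟩
  rw [← hχC] at hne0 ⊢
  have hres : IsCharacter C χC := by
    rw [hχC]
    exact isCharacter_restrict C (isCharacter_of_isIrrCharacter χ.2)
  have hd : χC 1 = (charDegree χ.1 : ℂ) := by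
    rw [hχC]
    exact irr_one_eq_charDegree χ
  obtain ⟨ω, ϑ, hcenβ, hβ⟩ := exists_tw_eq S β0
  have hωeq : ω = ω0 := IsCen.eq_of hcenβ hcen0 (irr_one_ne_zero β0)
  have hω : ω ≠ 1 := by
    rw [hωeq]
    exact hω0
  obtain ⟨w, b, s, hw, -, hwb, hs, hb, hv⟩ := exists_wbs_gen S hp hcyc heq ϑ ⟨ω, hω⟩
  have hex : ∀ μ : P.subgroupOf C →* ℂˣ, ∃ a : ℕ, classInner (tw S μ ϑ.1.1) χC = a :=
    fun μ => classInner_isCharacter_nat
      (isCharacter_tw S μ (isCharacter_of_isIrrCharacter ϑ.1.2)) hres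
  choose m hm using hex
  have hm1 : classInner ϑ.1.1 χC = m 1 := by
    have := hm 1
    rwa [tw_one] at this
  have hmω : m ω ≠ 0 := by
    intro h0
    apply hne0
    rw [← classInner_conj_symm, ← hβ, hm ω, h0]
    simp
  have hG : ∀ (μ : P.subgroupOf C →* ℂˣ) (ϑ' : Irr0 S),
      classInner (Gam S μ ϑ'.1.1) χ.1 =
        classInner ϑ'.1.1 χC - classInner (tw S μ ϑ'.1.1) χC := by
    intro μ ϑ'
    rw [inner_Gam S μ ϑ'.1.1 (irr_isClassFunction χ), ← hχC]
    simp only [Fm]
    rw [classInner_sub_left]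
  have hvm : ∀ μ : {μ : P.subgroupOf C →* ℂˣ // μ ≠ 1},
      (m 1 : ℤ) - m μ.1 = w χ + if χ = b (LamN S μ ϑ) then s else 0 := by
    intro μ
    have h1 := hv μ χ
    rw [hG, hm1, hm μ.1] at h1
    exact_mod_cast h1
  have hbound : ∀ M : Finset (P.subgroupOf C →* ℂˣ), (∀ μ ∈ M, m μ ≠ 0) →
      M.card ≤ charDegree χ.1 := by
    intro M hM
    apply card_le_deg_cen hres _ hd M
    intro μ hμ
    refine ⟨twI S μ ϑ.1, isCen_tw S μ ϑ.2, ?_⟩
    rw [twI_val, ← classInner_conj_symm, hm μ]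
    simp only [map_natCast]
    exact_mod_cast hM μ hμ
  have hall : (∀ μ : P.subgroupOf C →* ℂˣ, m μ ≠ 0) → False := by
    intro h
    have h1 := hbound Finset.univ (fun μ _ => h μ)
    rw [Finset.card_univ, hΛ] at h1
    omega
  have hall' : (∀ μ : P.subgroupOf C →* ℂˣ, μ ≠ 1 → m μ ≠ 0) → False := by
    intro h
    have h1 := hbound (Finset.univ.erase 1) (fun μ hμ => h μ (Finset.mem_erase.mp hμ).1)
    rw [Finset.card_erase_of_mem (Finset.mem_univ _), Finset.card_univ, hΛ] at h1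
    have := hp.two_le
    omega
  rcases hw χ with hw0 | hw1 | hw1
  · by_cases hF : ∃ μ : {μ : P.subgroupOf C →* ℂˣ // μ ≠ 1}, χ = b (LamN S μ ϑ)
    · obtain ⟨μF, hμF⟩ := hF
      have hs0 : (s : ℂ) ≠ 0 := by
        rcases hs with h | h <;> rw [h] <;> norm_num
      have hmem : χ ∈ setX S ϑ := by
        simp only [setX, Finset.mem_filter, Finset.mem_univ, true_and]
        refine ⟨μF, ?_⟩
        rw [hv μF χ, hw0, if_pos hμF]
        simpa using hs0
      have hdisj : ∀ ϑ' : Irr0 S, ¬ relN S ϑ ϑ' →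
          ∀ μ : {μ : P.subgroupOf C →* ℂˣ // μ ≠ 1}, classInner (Gam S μ.1 ϑ'.1.1) χ.1 = 0 := by
        intro ϑ' hrel μ
        have hrel' : ¬ relN S ϑ' ϑ := fun h => hrel (relN_symm S h)
        have hd' := (setX_facts S hcyc heq ϑ).2 ϑ' hrel'
        rw [Finset.disjoint_right] at hd'
        have h1 := hd' hmem
        simp only [setX, Finset.mem_filter, Finset.mem_univ, true_and] at h1
        push Not at h1
        exact h1 μ
      have hz : ∀ μ : {μ : P.subgroupOf C →* ℂˣ // μ ≠ 1},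
          classInner (Gam S μ.1 ϑ.1.1) χ.1 =
            if LamN S μ ϑ = LamN S μF ϑ then (s : ℂ) else 0 := by
        intro μ
        rw [hv μ χ, hw0]
        by_cases h : LamN S μ ϑ = LamN S μF ϑ
        · rw [if_pos h, if_pos (by rw [hμF, h])]
          simp
        · rw [if_neg h, if_neg (fun h' => h (hb μ μF (by rw [← h', ← hμF])))]
          simp
      refine ⟨ϑ, μF, s, hs, value_sing_exc S ϑ μF χ s hz hdisj, ?_⟩
      intro hs1 μ hμ0
      have hμ0' : m μ = 0 := by
        have := hm μ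
        rw [hμ0] at this
        exact_mod_cast this.symm
      have hF1 := hvm μF
      rw [hw0, if_pos hμF, hs1] at hF1
      by_cases hμ1 : μ = 1
      · exfalso
        rw [hμ1] at hμ0'
        omega
      · have h2 := hvm ⟨μ, hμ1⟩
        rw [hw0, hs1] at h2
        have h3 : χ = b (LamN S ⟨μ, hμ1⟩ ϑ) := by
          by_contra hcon
          rw [if_neg hcon] at h2
          simp only [hμ0'] at h2
          omega
        have h4 : LamN S ⟨μ, hμ1⟩ ϑ = LamN S μF ϑ := by
          apply hb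
          rw [← h3, ← hμF]
        obtain ⟨n, hn⟩ := LamN_eq_imp S μF ⟨μ, hμ1⟩ ϑ h4
        rw [tw_comp_cj] at hn
        have c1 : IsCen (tw S (μF.1.comp (cjP S n)) (fun c => ϑ.1.1 (cj S n c)))
            (μF.1.comp (cjP S n)) := isCen_tw S _ (isCen_one_comp_cj S ϑ.2 n)
        rw [hn] at c1
        have c2 : IsCen (tw S μ ϑ.1.1) μ := isCen_tw S μ ϑ.2
        have c3 := IsCen.eq_of c1 c2 (irr_one_ne_zero (twI S μ ϑ.1))
        exact Finset.mem_image.mpr ⟨n, Finset.mem_univ _, c3⟩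
    · exfalso
      push Not at hF
      apply hall
      intro μ
      by_cases hμ : μ = 1
      · rw [hμ]
        have h2 := hvm ⟨ω, hω⟩
        rw [hw0, if_neg (hF _)] at h2
        simp only at h2
        omega
      · have h2 := hvm ⟨μ, hμ⟩
        rw [hw0, if_neg (hF _)] at h2
        have h3 := hvm ⟨ω, hω⟩
        rw [hw0, if_neg (hF _)] at h3
        simp only at h2 h3
        omega
  · exfalso
    have hnb : ∀ μ : {μ : P.subgroupOf C →* ℂˣ // μ ≠ 1}, χ ≠ b (LamN S μ ϑ) := by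
      intro μ h
      have := hwb μ
      rw [← h, hw1] at this
      exact one_ne_zero this
    apply hall
    intro μ
    have h3 := hvm ⟨ω, hω⟩
    rw [hw1, if_neg (hnb _)] at h3
    simp only at h3
    by_cases hμ : μ = 1
    · rw [hμ]
      omega
    · have h2 := hvm ⟨μ, hμ⟩
      rw [hw1, if_neg (hnb _)] at h2
      simp only at h2
      omega
  · exfalso
    have hnb : ∀ μ : {μ : P.subgroupOf C →* ℂˣ // μ ≠ 1}, χ ≠ b (LamN S μ ϑ) := by
      intro μ h
      have := hwb μ
      rw [← h, hw1] at this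
      norm_num at this
    apply hall'
    intro μ hμ
    have h2 := hvm ⟨μ, hμ⟩
    rw [hw1, if_neg (hnb _)] at h2
    simp only at h2
    omega

end Local

/-- **P2-LIB**. -/
theorem lib : Cfsg.Agent.H26.P2.StLib.{u} := by
  intro G _ _ p _ P hp5 hP hnn ζ hirr hfaith hdeg
  classical
  have hp : p.Prime := Fact.out
  letI : Fintype G := Fintype.ofFinite G
  obtain ⟨S⟩ := exists_setup_of_card P hP
  letI : Fintype ↥(NN P) := Fintype.ofFinite _
  letI : Fintype ↥(CC P) := Fintype.ofFinite _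
  letI : Fintype (IrrCharacter G) := Cfsg.Agent.H4.fintypeIrr G
  letI : Fintype (IrrCharacter ↥(NN P)) := Cfsg.Agent.H4.fintypeIrr _
  letI : Fintype (IrrCharacter ↥(CC P)) := Cfsg.Agent.H4.fintypeIrr _
  letI : Fintype ↥((P : Subgroup G).subgroupOf (CC P)) := Fintype.ofFinite _
  have hcomm : ∀ a b : ↥((P : Subgroup G).subgroupOf (CC P)), a * b = b * a := by
    intro a b
    apply Subtype.ext
    apply Subtype.ext
    have := S.cent (a : G) (Subgroup.mem_subgroupOf.mp a.2) (b : G) (b : ↥(CC P)).2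
    simpa using this
  haveI : Finite (↥((P : Subgroup G).subgroupOf (CC P)) →* ℂˣ) := (card_hom_units hcomm).1
  letI : Fintype (↥((P : Subgroup G).subgroupOf (CC P)) →* ℂˣ) := Fintype.ofFinite _
  have hP' : Nat.card ↥(P : Subgroup G) = p := hP
  have hG : Nat.card G = p * (P : Subgroup G).index := Cfsg.Agent.H82.Md.sylp_card P hP
  have hndvd : ¬ p ∣ (P : Subgroup G).index := Cfsg.Agent.H82.Md.sylp_not_dvd_index P hP
  have hdiv : p ∣ Nat.card G := by
    rw [hG]
    exact dvd_mul_right _ _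
  have hsq : ¬ p ^ 2 ∣ Nat.card G := by
    rw [hG, pow_two]
    intro h
    exact hndvd ((Nat.mul_dvd_mul_iff_left hp.pos).mp h)
  have hcount := Cfsg.Agent.S4502.result p hdiv hsq P
  have heq : Fintype.card (IrrCharacter ↥(NN P)) ≤
      (Finset.univ.filter fun χ : IrrCharacter G =>
        ¬ Nat.card ↥(P : Subgroup G) ∣ charDegree χ.1).card := by
    rw [hP']
    have h := hcount
    rw [← Cfsg.Agent.H4.card_irr_eq_card_conjClasses, Nat.card_eq_fintype_card,
      Nat.card_eq_fintype_card, Fintype.card_subtype] at h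
    exact h.symm.le
  have hcyc := isCyclic_norm_mod_cent P hP S
  have hΛ := card_dual S hP'
  have hscal : ∀ g : G, ζ g * conj (ζ g) = ζ 1 * ζ 1 → g ∈ Subgroup.center G :=
    Cfsg.Agent.H8.P2.scal ζ hirr hfaith
  obtain ⟨x0, hx0, hx01⟩ := exists_ne_one_of_card P (by rw [hP]; exact hp.one_lt)
  have hζx : ζ x0 ≠ ζ 1 := fun h => hx01 (hfaith x0 h)
  obtain ⟨n, hn⟩ : ∃ n : ℕ, n = charDegree ζ := ⟨_, rfl⟩
  have hn2 : n + 2 = p := by rw [hn]; exact hdeg
  obtain ⟨ϑ, μF, s, hs, hval, hΛ0⟩ := p2_exc_shape S hp hP' hcyc heq ⟨ζ, hirr⟩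
    (by show charDegree ζ + 2 ≤ p; omega) x0 hx0 hζx
  have hζ1 : ζ 1 = (n : ℂ) := by rw [hn]; exact irr_one_eq_charDegree ⟨ζ, hirr⟩
  have hC0 : (Nat.card ↥(CC P) : ℂ) ≠ 0 := cardC_ne_zero (CC P)
  have hcardD : Nat.card ↥((P : Subgroup G).subgroupOf (CC P)) = p := by
    rw [Nat.card_congr (Subgroup.subgroupOfEquivOfLe S.hPC).toEquiv, hP']
  have hp0 : (p : ℂ) ≠ 0 := by exact_mod_cast hp.ne_zero
  obtain ⟨d, hd⟩ : ∃ d : ℕ, d = charDegree ϑ.1.1 := ⟨_, rfl⟩
  have hd1 : 1 ≤ d := by rw [hd]; exact charDegree_pos ϑ.1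
  have hϑ1 : ϑ.1.1 1 = (d : ℂ) := by rw [hd]; exact irr_one_eq_charDegree ϑ.1
  -- the values on `P ∖ 1`
  have hχD : ∀ y : ↥((P : Subgroup G).subgroupOf (CC P)), y ≠ 1 →
      ζ ((y : ↥(CC P)) : G) =
        -(s : ℂ) * ((Nat.card ↥(CC P) : ℂ)⁻¹ * Zs S μF.1 y * (d : ℂ)) := by
    intro y hy
    have h1 := hval (y : ↥(CC P)) (sing_of_ne_one S y hy)
    rw [trN_tw_apply_P, hϑ1] at h1
    exact h1
  have hresC : IsCharacter ↥(CC P) (fun c : ↥(CC P) => ζ c) :=
    isCharacter_restrict (CC P) (isCharacter_of_isIrrCharacter hirr)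
  have hresD : IsCharacter ↥((P : Subgroup G).subgroupOf (CC P))
      (fun y : ↥((P : Subgroup G).subgroupOf (CC P)) => ζ ((y : ↥(CC P)) : G)) :=
    isCharacter_restrict ((P : Subgroup G).subgroupOf (CC P)) hresC
  -- the sum of a linear character against the conjugate of `ζ`
  have hform : ∀ lam : ↥((P : Subgroup G).subgroupOf (CC P)) →* ℂˣ,
      ∑ y : ↥((P : Subgroup G).subgroupOf (CC P)),
        ((lam y : ℂˣ) : ℂ) * conj (ζ ((y : ↥(CC P)) : G)) =
      (n : ℂ) + (s : ℂ) * (ind S : ℂ) * (d : ℂ) -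
        (s : ℂ) * (Nat.card ↥(CC P) : ℂ)⁻¹ * (d : ℂ) *
          ∑ y : ↥((P : Subgroup G).subgroupOf (CC P)),
            ((lam y : ℂˣ) : ℂ) * conj (Zs S μF.1 y) := by
    intro lam
    have h1 : ∀ y : ↥((P : Subgroup G).subgroupOf (CC P)),
        ((lam y : ℂˣ) : ℂ) * conj (ζ ((y : ↥(CC P)) : G)) =
          -((s : ℂ) * (Nat.card ↥(CC P) : ℂ)⁻¹ * (d : ℂ)) *
            (((lam y : ℂˣ) : ℂ) * conj (Zs S μF.1 y)) +
          (if y = 1 then (n : ℂ) + (s : ℂ) * (ind S : ℂ) * (d : ℂ) else 0) := by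
      intro y
      by_cases hy : y = 1
      · rw [if_pos hy, hy]
        have e1 : (((1 : ↥((P : Subgroup G).subgroupOf (CC P))) : ↥(CC P)) : G) = 1 := rfl
        rw [e1, hζ1, map_one, Units.val_one, one_mul, one_mul, Zs_one, Complex.conj_natCast,
          Complex.conj_natCast]
        have h2 := cinv_mul_cardN S
        linear_combination (s : ℂ) * (d : ℂ) * h2
      · rw [if_neg hy, add_zero, hχD y hy]
        simp only [map_mul, map_neg, map_inv₀, Complex.conj_natCast, map_intCast]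
        ring
    rw [Finset.sum_congr rfl (fun y _ => h1 y), Finset.sum_add_distrib, ← Finset.mul_sum]
    simp only [Finset.sum_ite_eq', Finset.mem_univ, if_true]
    ring
  -- the multiplicity of the trivial character
  obtain ⟨k, hk⟩ := classInner_isCharacter_nat
    (Cfsg.Agent.H4.isCharacter_of_hom (1 : ↥((P : Subgroup G).subgroupOf (CC P)) →* ℂˣ)) hresD
  obtain ⟨a, ha⟩ := classInner_isCharacter_nat
    (Cfsg.Agent.H4.isCharacter_of_hom μF.1) hresD
  have hK : (p : ℤ) * k = n + s * ind S * d := by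
    unfold classInner at hk
    rw [hcardD, hform 1, p2_sum_conj_Zs S μF.1 1] at hk
    have h0 : ∑ m : ↥(NN P), (if (1 : ↥((P : Subgroup G).subgroupOf (CC P)) →* ℂˣ) =
        μF.1.comp (cjP S m) then
          (Nat.card ↥((P : Subgroup G).subgroupOf (CC P)) : ℂ) else 0) = 0 := by
      apply Finset.sum_eq_zero
      intro m _
      rw [if_neg (fun h => comp_cjP_ne_one S μF.2 m h.symm)]
    rw [h0, mul_zero, sub_zero] at hk
    have h2 : (p : ℂ) * (k : ℂ) = (n : ℂ) + (s : ℂ) * (ind S : ℂ) * (d : ℂ) := by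
      rw [← hk]
      field_simp
    exact_mod_cast h2
  have hA : (p : ℤ) * a = n - s * d * p + s * ind S * d := by
    unfold classInner at ha
    rw [hcardD, hform μF.1, p2_sum_conj_Zs S μF.1 μF.1] at ha
    have h0 : ∑ m : ↥(NN P), (if μF.1 = μF.1.comp (cjP S m) then
          (Nat.card ↥((P : Subgroup G).subgroupOf (CC P)) : ℂ) else 0) =
        (Nat.card ↥(CC P) : ℂ) * (p : ℂ) := by
      rw [← sum_ite_coset S 1 (p : ℂ)]
      refine Finset.sum_congr rfl fun m _ => ?_
      have e : μF.1.comp (cjP S 1) = μF.1 := by rw [cjP_one_eq]; rfl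
      have h3 := comp_cjP_eq_iff S μF.2 m 1
      rw [e] at h3
      by_cases hm : ((m * 1⁻¹ : ↥(NN P)) : G) ∈ CC P
      · rw [if_pos hm, if_pos (h3.mpr hm).symm, hcardD]
      · rw [if_neg hm, if_neg (fun h => hm (h3.mp h.symm))]
    rw [h0] at ha
    have h2 : (p : ℂ) * (a : ℂ) = (n : ℂ) - (s : ℂ) * (d : ℂ) * (p : ℂ) +
        (s : ℂ) * (ind S : ℂ) * (d : ℂ) := by
      rw [← ha]
      field_simp
      ring
    exact_mod_cast h2
  have hdvd : ind S ∣ p - 1 := by
    have h1 := card_setB_triv S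
    rw [hΛ] at h1
    exact Dvd.intro_left _ h1
  -- the orbit of `μF`
  obtain ⟨O, hO⟩ : ∃ O : Finset (↥((P : Subgroup G).subgroupOf (CC P)) →* ℂˣ),
      O = Finset.univ.image (fun m : ↥(NN P) => μF.1.comp (cjP S m)) := ⟨_, rfl⟩
  have hOcard : O.card = ind S := by rw [hO]; exact card_orbit_eq S μF.2
  have hμFO : μF.1 ∈ O := by
    rw [hO]
    refine Finset.mem_image.mpr ⟨1, Finset.mem_univ _, ?_⟩
    rw [cjP_one_eq]
    rfl
  have hZO : ∀ y : ↥((P : Subgroup G).subgroupOf (CC P)), Zs S μF.1 y =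
      (Nat.card ↥(CC P) : ℂ) * ∑ μ ∈ O, ((μ y : ℂˣ) : ℂ) := by
    intro y
    rw [hO]
    exact Zs_eq_sum_orbit S μF.1 μF.2 y
  rcases p2_arith p n d (ind S) k a s hs hn2 hp5 hd1 (ind_pos S) hdvd hK hA with
    ⟨hs1, hind, hdn⟩ | ⟨hs1, hind, hdn⟩ | ⟨hs1, hind, hd1'⟩
  · -- `s = -1`, `N = C`: `P` would be central
    exfalso
    have hO1 : O.card = 1 := by rw [hOcard, hind]
    obtain ⟨a0, ha0⟩ := Finset.card_eq_one.mp hO1
    have hμa : μF.1 = a0 := by
      have h1 := hμFO
      rw [ha0] at h1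
      exact Finset.mem_singleton.mp h1
    have hcen : ∀ y : ↥((P : Subgroup G).subgroupOf (CC P)), y ≠ 1 →
        ((y : ↥(CC P)) : G) ∈ Subgroup.center G := by
      intro y hy
      apply hscal
      have h1 := hχD y hy
      rw [hZO, ha0, Finset.sum_singleton, ← hμa, hs1, hdn] at h1
      have h2 : ζ ((y : ↥(CC P)) : G) = (n : ℂ) * ((μF.1 y : ℂˣ) : ℂ) := by
        rw [h1]
        push_cast
        field_simp
      rw [h2, hζ1, map_mul, Complex.conj_natCast, conj_hom, MonoidHom.inv_apply]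
      have h3 : ((μF.1 y : ℂˣ) : ℂ) * (((μF.1 y)⁻¹ : ℂˣ) : ℂ) = 1 := by
        rw [← Units.val_mul, mul_inv_cancel, Units.val_one]
      linear_combination (n : ℂ) * (n : ℂ) * h3
    apply hnn
    constructor
    intro x hx g
    by_cases hx1 : x = 1
    · rw [hx1]
      simp
    · have hy : (⟨⟨x, S.hPC hx⟩, Subgroup.mem_subgroupOf.mpr hx⟩ :
          ↥((P : Subgroup G).subgroupOf (CC P))) ≠ 1 := by
        intro h
        apply hx1
        exact congrArg (fun y : ↥((P : Subgroup G).subgroupOf (CC P)) => ((y : ↥(CC P)) : G)) h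
      have h1 := hcen _ hy
      have h2 : g * x = x * g := Subgroup.mem_center_iff.mp h1 g
      have h3 : g * x * g⁻¹ = x := by rw [h2, mul_inv_cancel_right]
      rw [h3]
      exact hx
  · -- `|N : C| = p - 1`: `P` would be in the kernel
    exfalso
    have hOeq : O = Finset.univ.erase (1 : ↥((P : Subgroup G).subgroupOf (CC P)) →* ℂˣ) := by
      apply Finset.eq_of_subset_of_card_le
      · intro μ hμ
        rw [Finset.mem_erase]
        refine ⟨?_, Finset.mem_univ _⟩
        rw [hO] at hμ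
        obtain ⟨m, -, rfl⟩ := Finset.mem_image.mp hμ
        exact comp_cjP_ne_one S μF.2 m
      · rw [Finset.card_erase_of_mem (Finset.mem_univ _), Finset.card_univ, hΛ, hOcard, hind]
        omega
    obtain ⟨y0, hy0⟩ : ∃ y0 : ↥((P : Subgroup G).subgroupOf (CC P)),
        y0 = ⟨⟨x0, S.hPC hx0⟩, Subgroup.mem_subgroupOf.mpr hx0⟩ := ⟨_, rfl⟩
    have hy0c : ((y0 : ↥(CC P)) : G) = x0 := by rw [hy0]
    have hy01 : y0 ≠ 1 := by
      intro h
      apply hx01
      rw [← hy0c, h]
      rfl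
    have h1 := hχD y0 hy01
    have hsum := sum_hom_apply hcomm y0
    rw [if_neg hy01, ← Finset.add_sum_erase Finset.univ _
      (Finset.mem_univ (1 : ↥((P : Subgroup G).subgroupOf (CC P)) →* ℂˣ)), ← hOeq] at hsum
    simp only [MonoidHom.one_apply, Units.val_one] at hsum
    have h4 : ∑ μ ∈ O, ((μ y0 : ℂˣ) : ℂ) = -1 := by linear_combination hsum
    rw [hZO, h4, hs1, hdn, hy0c] at h1
    apply hζx
    rw [h1, hζ1]
    push_cast
    field_simp
  · -- the case `s = 1`, `ϑ(1) = 1`, `|N : C| = 2`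
    have hNC : Nat.card ↥(NN P) = 2 * Nat.card ↥(CC P) := by
      have h1 := ind_mul S
      rw [hind] at h1
      exact h1.symm
    have hidx : ((CC P).subgroupOf (NN P)).index = 2 := by
      have h1 := Subgroup.card_mul_index ((CC P).subgroupOf (NN P))
      rw [Nat.card_congr (Subgroup.subgroupOfEquivOfLe S.hCN).toEquiv, hNC] at h1
      have hCpos : 0 < Nat.card ↥(CC P) := Nat.card_pos
      exact Nat.eq_of_mul_eq_mul_left hCpos (by rw [h1]; ring)
    have hsqN : ∀ m : ↥(NN P), ((m * m : ↥(NN P)) : G) ∈ CC P := by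
      intro m
      have h1 := Subgroup.mul_self_mem_of_index_two hidx m
      exact Subgroup.mem_subgroupOf.mp h1
    have hinvn : ∀ m : ↥(NN P), (m : G) ∉ CC P → μF.1.comp (cjP S m) = μF.1⁻¹ := by
      intro m hm
      have h1 : (μF.1 * μF.1.comp (cjP S m)).comp (cjP S m) = μF.1 * μF.1.comp (cjP S m) := by
        ext y
        simp only [MonoidHom.comp_apply, MonoidHom.mul_apply]
        have h2 : cjP S m (cjP S m y) = y := by
          rw [← MonoidHom.comp_apply, ← cjP_mul, cjP_of_mem S (m * m) (hsqN m)]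
          rfl
        rw [h2, mul_comm]
      have h3 := dual_semireg S m hm _ h1
      apply MonoidHom.ext
      intro y
      have h4 := congrArg (fun f : ↥((P : Subgroup G).subgroupOf (CC P)) →* ℂˣ => f y) h3
      simp only [MonoidHom.mul_apply, MonoidHom.comp_apply, MonoidHom.one_apply] at h4
      rw [MonoidHom.comp_apply, MonoidHom.inv_apply, eq_inv_of_mul_eq_one_right h4]
    have hZ3 : ∀ y : ↥((P : Subgroup G).subgroupOf (CC P)), Zs S μF.1 y =
        (Nat.card ↥(CC P) : ℂ) * (((μF.1 y : ℂˣ) : ℂ) + (((μF.1 y)⁻¹ : ℂˣ) : ℂ)) := by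
      intro y
      have h1 : ∀ m : ↥(NN P), ((μF.1 (cjP S m y) : ℂˣ) : ℂ) =
          (if ((m * 1⁻¹ : ↥(NN P)) : G) ∈ CC P then
            (((μF.1 y : ℂˣ) : ℂ) - (((μF.1 y)⁻¹ : ℂˣ) : ℂ)) else 0) +
            (((μF.1 y)⁻¹ : ℂˣ) : ℂ) := by
        intro m
        have e : (m * 1⁻¹ : ↥(NN P)) = m := by simp
        rw [e]
        by_cases hm : (m : G) ∈ CC P
        · rw [if_pos hm, cjP_of_mem S m hm]
          simp
        · rw [if_neg hm, zero_add]
          have h2 : μF.1 (cjP S m y) = (μF.1⁻¹) y := by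
            rw [← hinvn m hm]
            rfl
          rw [h2, MonoidHom.inv_apply]
      simp only [Zs]
      rw [Finset.sum_congr rfl (fun m _ => h1 m), Finset.sum_add_distrib, sum_ite_coset S 1,
        Finset.sum_const, Finset.card_univ, nsmul_eq_mul, ← Nat.card_eq_fintype_card, hNC]
      push_cast
      ring
    refine ⟨?_, hNC, ?_⟩
    · -- the `p`-regular elements of `C` are central
      intro c hc hcreg
      have hinjT : Set.InjOn (fun μ : ↥((P : Subgroup G).subgroupOf (CC P)) →* ℂˣ =>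
          twI S μ ϑ.1) ((Oᶜ : Finset _) : Set (↥((P : Subgroup G).subgroupOf (CC P)) →* ℂˣ)) := by
        intro μ _ μ' _ h
        have h1 : IsCen (twI S μ ϑ.1).1 μ := isCen_tw S μ ϑ.2
        have h2 : IsCen (twI S μ' ϑ.1).1 μ' := isCen_tw S μ' ϑ.2
        have h' : twI S μ ϑ.1 = twI S μ' ϑ.1 := h
        rw [h'] at h1
        exact IsCen.eq_of h1 h2 (irr_one_ne_zero (twI S μ' ϑ.1))
      have hOc : (Oᶜ : Finset (↥((P : Subgroup G).subgroupOf (CC P)) →* ℂˣ)).card = n := by
        rw [Finset.card_compl, hΛ, hOcard, hind]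
        omega
      obtain ⟨T, hT⟩ : ∃ T : Finset (IrrCharacter ↥(CC P)),
          T = Oᶜ.image (fun μ : ↥((P : Subgroup G).subgroupOf (CC P)) →* ℂˣ => twI S μ ϑ.1) :=
        ⟨_, rfl⟩
      have hTcard : T.card = n := by
        rw [hT, Finset.card_image_of_injOn hinjT, hOc]
      have hTne : ∀ β ∈ T, classInner (fun c : ↥(CC P) => ζ c) β.1 ≠ 0 := by
        intro β hβ
        rw [hT] at hβ
        obtain ⟨μ, hμ, rfl⟩ := Finset.mem_image.mp hβ
        have hμO : μ ∉ O := Finset.mem_compl.mp hμ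
        intro h0
        apply hμO
        rw [hO]
        apply hΛ0 hs1 μ
        rw [← classInner_conj_symm, ← twI_val]
        have h0' : classInner (fun c : ↥(CC P) => (⟨ζ, hirr⟩ : IrrCharacter G).1 c)
            (twI S μ ϑ.1).1 = 0 := h0
        rw [h0', map_zero]
      have hζ1' : (fun c : ↥(CC P) => ζ c) 1 = (n : ℂ) := hζ1
      have hdecomp := p2_eq_sum hresC n hζ1' T hTne (by rw [hTcard])
      have hρ1 : S.ρ ⟨c, hc⟩ = 1 := (S.hreg ⟨c, hc⟩).mp hcreg
      have hval_c : ζ c = (n : ℂ) * ϑ.1.1 ⟨c, hc⟩ := by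
        have h1 := congrFun hdecomp ⟨c, hc⟩
        have h1' : ζ c = ∑ β ∈ T, β.1 ⟨c, hc⟩ := h1
        rw [hT, Finset.sum_image hinjT] at h1'
        rw [h1']
        have h2 : ∀ μ ∈ (Oᶜ : Finset (↥((P : Subgroup G).subgroupOf (CC P)) →* ℂˣ)),
            (twI S μ ϑ.1).1 ⟨c, hc⟩ = ϑ.1.1 ⟨c, hc⟩ := by
          intro μ _
          rw [twI_val, tw_apply, hρ1, map_one, Units.val_one, one_mul]
        rw [Finset.sum_congr rfl h2, Finset.sum_const, hOc, nsmul_eq_mul]
      have hϑ11 : ϑ.1.1 1 = 1 := by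
        rw [hϑ1, hd1']
        simp
      have hnorm := p2_norm_one ϑ.1 hϑ11 ⟨c, hc⟩
      apply hscal
      rw [hval_c, hζ1, map_mul, Complex.conj_natCast]
      linear_combination (n : ℂ) * (n : ℂ) * hnorm
    · -- the values on `P`
      obtain ⟨e, he⟩ : ∃ e : ↥((P : Subgroup G).subgroupOf (CC P)) ≃* ↥(P : Subgroup G),
          e = Subgroup.subgroupOfEquivOfLe S.hPC := ⟨_, rfl⟩
      have hecoe : ∀ y : ↥((P : Subgroup G).subgroupOf (CC P)),
          ((e y : ↥(P : Subgroup G)) : G) = ((y : ↥(CC P)) : G) := by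
        intro y
        rw [he]
        rfl
      refine ⟨μF.1.comp e.symm.toMonoidHom, ?_, ?_⟩
      · intro h
        apply μF.2
        ext y
        have h1 := congrArg (fun f : ↥(P : Subgroup G) →* ℂˣ => f (e y)) h
        simp only [MonoidHom.comp_apply, MulEquiv.coe_toMonoidHom, MulEquiv.symm_apply_apply,
          MonoidHom.one_apply] at h1
        rw [h1]
        rfl
      · intro x hx
        have hy1 : e.symm x ≠ 1 := by
          intro h
          apply hx
          have h2 := congrArg e h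
          simpa using h2
        have hcoe : (((e.symm x : ↥((P : Subgroup G).subgroupOf (CC P))) : ↥(CC P)) : G) =
            (x : G) := by
          rw [← hecoe, e.apply_symm_apply]
        have h3 := hχD (e.symm x) hy1
        rw [hcoe, hZ3, hs1, hd1'] at h3
        rw [h3]
        simp only [MonoidHom.comp_apply, MulEquiv.coe_toMonoidHom]
        push_cast
        field_simp

example : Cfsg.Agent.H26.P2.StLib.{u} := lib

end Cfsg.Agent.H82.P2
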