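import Cfsg.Agent.H82.P2A

/-!
# Sylow subgroups of prime order, part 3A: stabilizers and fibres (helper82)

For an irreducible character `ϑ` of `C` trivial on `P`: the stabilizer `stabT ϑ` of `ϑ` in `N`,
the number of characters of `N` over `ϑ`, and the fibres of `μ ↦ (tw μ ϑ)^N`.
-/

set_option autoImplicit false
set_option linter.style.haveILetI false
set_option linter.unusedSectionVars false

namespace Cfsg.Agent.H82.P1

open Cfsg Cfsg.Agent.H4 Cfsg.Agent.H82 Cfsg.Agent.H82.BL Cfsg.Agent.Clifford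
open scoped ComplexConjugate
open Classical

universe u

variable {G : Type u} [Group G] [Fintype G] {p : ℕ} {N C P : Subgroup G} [Fintype N] [Fintype C]
  (S : Setup p N C P)
  [Fintype (IrrCharacter G)] [Fintype (IrrCharacter N)] [Fintype (IrrCharacter C)]
  [Fintype (P.subgroupOf C)] [Fintype (P.subgroupOf C →* ℂˣ)]

/-- The stabilizer in `N` of a character of `C`. -/
noncomputable def stabT (ϑ : IrrCharacter C) : Finset N :=
  Finset.univ.filter fun n : N => (fun c => ϑ.1 (cj S n c)) = ϑ.1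

theorem mem_stabT (ϑ : IrrCharacter C) (n : N) :
    n ∈ stabT S ϑ ↔ (fun c => ϑ.1 (cj S n c)) = ϑ.1 := by
  simp [stabT]

/-- The number of characters of `N` over `ϑ` is the index of `C` in the stabilizer. -/
theorem card_setA_mul (hcyc : haveI := normal_CN S; IsCyclic (N ⧸ C.subgroupOf N))
    (ϑ : IrrCharacter C) : (setA S ϑ).card * Nat.card C = (stabT S ϑ).card := by
  have h1 := card_setA S hcyc ϑ
  rw [inner_irr_trN S ϑ ϑ] at h1
  have hC : (Nat.card C : ℂ) ≠ 0 := cardC_ne_zero C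
  have h2 : (((setA S ϑ).card * Nat.card C : ℕ) : ℂ) = ((stabT S ϑ).card : ℂ) := by
    push_cast
    rw [← h1]
    unfold stabT
    field_simp
  exact_mod_cast h2

/-- The fibres of `μ ↦ (tw μ ϑ)^N` are the orbits of the stabilizer of `ϑ`. -/
theorem LamN_eq_iff (μ μ' : {μ : P.subgroupOf C →* ℂˣ // μ ≠ 1}) (ϑ : Irr0 S) :
    LamN S μ' ϑ = LamN S μ ϑ ↔ ∃ n : N, n ∈ stabT S ϑ.1 ∧ μ'.1 = μ.1.comp (cjP S n) := by
  constructor
  · intro h
    obtain ⟨n, hn⟩ := LamN_eq_imp S μ μ' ϑ h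
    rw [tw_comp_cj] at hn
    have hc : IsCen (fun c => ϑ.1.1 (cj S n c)) (1 : P.subgroupOf C →* ℂˣ) := by
      have := ϑ.2.comp_cj S n
      rwa [MonoidHom.one_comp] at this
    have e1 : IsCen (tw S (μ.1.comp (cjP S n)) (fun c => ϑ.1.1 (cj S n c)))
        (μ.1.comp (cjP S n)) := isCen_tw S _ hc
    have e2 : IsCen (tw S μ'.1 ϑ.1.1) μ'.1 := isCen_tw S _ ϑ.2
    rw [hn] at e1
    have hμ : μ'.1 = μ.1.comp (cjP S n) :=
      IsCen.eq_of e2 e1 (irr_one_ne_zero (twI S μ'.1 ϑ.1))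
    refine ⟨n, ?_, hμ⟩
    rw [mem_stabT]
    funext c
    have h3 := congrFun hn c
    rw [← hμ] at h3
    simp only [tw] at h3
    exact mul_left_cancel₀ (Units.ne_zero _) h3
  · rintro ⟨n, hn, hμ⟩
    rw [mem_stabT] at hn
    apply Subtype.ext
    rw [LamN_val, LamN_val, hμ]
    have e4 := tw_comp_cj S μ.1 ϑ.1.1 n
    rw [hn] at e4
    rw [← e4]
    funext x
    simp only [indN]
    by_cases hx : (x : G) ∈ C
    · rw [dif_pos hx, dif_pos hx, trN_comp_cj]
    · rw [dif_neg hx, dif_neg hx]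

/-- Each fibre of `μ ↦ (tw μ ϑ)^N` has `|T : C|` elements, `T` the stabilizer of `ϑ`. -/
theorem card_fibre_LamN_gen (μ : {μ : P.subgroupOf C →* ℂˣ // μ ≠ 1}) (ϑ : Irr0 S) :
    (Finset.univ.filter fun μ' : {μ : P.subgroupOf C →* ℂˣ // μ ≠ 1} =>
      LamN S μ' ϑ = LamN S μ ϑ).card * Nat.card C = (stabT S ϑ.1).card := by
  set f : N → (P.subgroupOf C →* ℂˣ) := fun n => μ.1.comp (cjP S n) with hf
  have e : (stabT S ϑ.1).image f =
      (Finset.univ.filter fun μ' : {μ : P.subgroupOf C →* ℂˣ // μ ≠ 1} =>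
        LamN S μ' ϑ = LamN S μ ϑ).image Subtype.val := by
    ext ν
    simp only [Finset.mem_image, Finset.mem_filter, Finset.mem_univ, true_and]
    constructor
    · rintro ⟨n, hn, rfl⟩
      refine ⟨⟨μ.1.comp (cjP S n), comp_cjP_ne_one S μ.2 n⟩, ?_, rfl⟩
      exact (LamN_eq_iff S μ _ ϑ).mpr ⟨n, hn, rfl⟩
    · rintro ⟨μ', hμ', rfl⟩
      obtain ⟨n, hn, hn'⟩ := (LamN_eq_iff S μ μ' ϑ).mp hμ'
      exact ⟨n, hn, hn'.symm⟩
  have h1 := Finset.card_eq_sum_card_image f (stabT S ϑ.1)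
  have h2 : ∀ b ∈ (stabT S ϑ.1).image f,
      ((stabT S ϑ.1).filter fun n : N => f n = b).card = Nat.card C := by
    intro b hb
    obtain ⟨n₀, hn₀, rfl⟩ := Finset.mem_image.mp hb
    rw [mem_stabT] at hn₀
    rw [← card_filter_mem S.hCN]
    apply Finset.card_bij (fun n _ => n * n₀⁻¹)
    · intro n hn
      simp only [Finset.mem_filter, Finset.mem_univ, true_and] at hn ⊢
      exact (comp_cjP_eq_iff S μ.2 n n₀).mp hn.2
    · intro a _ b _ hab
      exact mul_right_cancel hab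
    · intro m hm
      simp only [Finset.mem_filter, Finset.mem_univ, true_and] at hm
      have hmm : (((m * n₀) * n₀⁻¹ : N) : G) ∈ C := by simpa using hm
      refine ⟨m * n₀, ?_, by simp⟩
      simp only [Finset.mem_filter]
      refine ⟨?_, (comp_cjP_eq_iff S μ.2 (m * n₀) n₀).mpr hmm⟩
      rw [mem_stabT]
      funext c
      rw [cj_eq_of_mem S (irr_isClassFunction ϑ.1) (m * n₀) n₀ hmm c]
      exact congrFun hn₀ c
  rw [Finset.sum_congr rfl h2, Finset.sum_const, smul_eq_mul, e,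
    Finset.card_image_of_injective _ Subtype.val_injective] at h1
  exact h1.symm

/-- The number of characters `(tw μ ϑ)^N`, `μ ≠ 1`. -/
theorem card_setB_gen (ϑ : Irr0 S) :
    (setB S ϑ).card * (stabT S ϑ.1).card =
      (Fintype.card (P.subgroupOf C →* ℂˣ) - 1) * Nat.card C := by
  have h1 := Finset.card_eq_sum_card_image
    (fun μ : {μ : P.subgroupOf C →* ℂˣ // μ ≠ 1} => LamN S μ ϑ) Finset.univ
  have h2 : ∀ b ∈ Finset.univ.image
      (fun μ : {μ : P.subgroupOf C →* ℂˣ // μ ≠ 1} => LamN S μ ϑ),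
      (Finset.univ.filter fun μ' : {μ : P.subgroupOf C →* ℂˣ // μ ≠ 1} =>
        LamN S μ' ϑ = b).card * Nat.card C = (stabT S ϑ.1).card := by
    intro b hb
    obtain ⟨μ, -, rfl⟩ := Finset.mem_image.mp hb
    exact card_fibre_LamN_gen S μ ϑ
  rw [Finset.card_univ, Fintype.card_subtype_compl, Fintype.card_subtype_eq] at h1
  rw [h1, Finset.sum_mul, Finset.sum_congr rfl h2, Finset.sum_const, smul_eq_mul]
  rfl

end Cfsg.Agent.H82.P1
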