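import Cfsg.Agent.H82.P3A
import Cfsg.Agent.H82.P2B

/-!
# Sylow subgroups of prime order, part 3B: values on the singular elements (helper82)

The values on the `p`-singular elements of `C` of the irreducible characters of `G` met by the
`Gam μ ϑ`, for an arbitrary `ϑ` trivial on `P`.
-/

set_option autoImplicit false
set_option linter.style.haveILetI false
set_option linter.unusedSectionVars false

namespace Cfsg.Agent.H82.P1

open Cfsg Cfsg.Agent.H4 Cfsg.Agent.H82 Cfsg.Agent.H82.BL Cfsg.Agent.Clifford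
open scoped ComplexConjugate
open Classical

universe u

variable {G : Type u} [Group G] [Fintype G] {p : ℕ} {N C P : Subgroup G} [Fintype N] [Fintype C]
  (S : Setup p N C P)
  [Fintype (IrrCharacter G)] [Fintype (IrrCharacter N)] [Fintype (IrrCharacter C)]
  [Fintype (P.subgroupOf C)] [Fintype (P.subgroupOf C →* ℂˣ)]

/-- Two class functions of `C` with the same inner products with all `ϑ - tw μ ϑ` agree on the
`p`-singular elements. -/
theorem sing_eq (A B : C → ℂ) (hA : IsClassFunction C A) (hB : IsClassFunction C B)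
    (h : ∀ (μ : {μ : P.subgroupOf C →* ℂˣ // μ ≠ 1}) (ϑ : Irr0 S),
      classInner (Fm S μ.1 ϑ.1.1) A = classInner (Fm S μ.1 ϑ.1.1) B)
    (c : C) (hc : p ∣ orderOf (c : G)) : A c = B c := by
  set f : C → ℂ := fun c => if p ∣ orderOf (c : G) then A c - B c else 0 with hf
  have hcl : IsClassFunction C f := by
    intro a h
    simp only [hf]
    have e1 : orderOf (((h * a * h⁻¹ : C)) : G) = orderOf (a : G) := by
      have : (((h * a * h⁻¹ : C)) : G) = (h : G) * (a : G) * (h : G)⁻¹ := by simp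
      rw [this]
      exact orderOf_conj_left _ _
    rw [e1, hA a h, hB a h]
  have hzero : ∀ (μ : P.subgroupOf C →* ℂˣ) (ϑ : Irr0 S),
      classInner (Fm S μ ϑ.1.1) f = 0 := by
    intro μ ϑ
    by_cases hμ : μ = 1
    · rw [hμ]
      simp only [Fm, tw_one, sub_self]
      exact classInner_zero_left _
    · have e1 : classInner (Fm S μ ϑ.1.1) f = classInner (Fm S μ ϑ.1.1) (A - B) := by
        unfold classInner
        congr 1
        refine Finset.sum_congr rfl fun c _ => ?_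
        by_cases hc : p ∣ orderOf (c : G)
        · simp only [hf, if_pos hc, Pi.sub_apply]
        · rw [Fm_reg S μ _ c hc, zero_mul, zero_mul]
      rw [e1, classInner_sub_right, h ⟨μ, hμ⟩ ϑ, sub_self]
  have h0 := complete S f hcl (fun c hc => by simp only [hf]; rw [if_neg hc]) hzero
  have h1 := congrFun h0 c
  simp only [hf, if_pos hc, Pi.zero_apply] at h1
  exact sub_eq_zero.mp h1

/-- Conjugating both the twist and the character by an element of `N`. -/
theorem inner_Fm_cj {A : C → ℂ} (hA : NInv S A) (μ : P.subgroupOf C →* ℂˣ) (f : C → ℂ)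
    (n : N) :
    classInner (Fm S (μ.comp (cjP S n)) (fun c => f (cj S n c))) A = classInner (Fm S μ f) A := by
  rw [← Fm_comp_cj]
  exact classInner_inv_left S hA (Fm S μ f) n

/-- Moving a conjugate of `ϑ` back to `ϑ`. -/
theorem inner_Fm_rel {A : C → ℂ} (hA : NInv S A) (μ : P.subgroupOf C →* ℂˣ) (hμ : μ ≠ 1)
    (ϑ ϑ' : Irr0 S) (h : relN S ϑ ϑ') :
    ∃ μ' : {μ : P.subgroupOf C →* ℂˣ // μ ≠ 1},
      classInner (Fm S μ ϑ'.1.1) A = classInner (Fm S μ'.1 ϑ.1.1) A ∧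
      LamN S ⟨μ, hμ⟩ ϑ' = LamN S μ' ϑ := by
  obtain ⟨n, hn⟩ := h
  have e : μ = (μ.comp (cjP S n⁻¹)).comp (cjP S n) := by
    rw [MonoidHom.comp_assoc, ← cjP_mul, inv_mul_cancel, cjP_one_eq, MonoidHom.comp_id]
  refine ⟨⟨μ.comp (cjP S n⁻¹), comp_cjP_ne_one S hμ n⁻¹⟩, ?_, ?_⟩
  · have h1 := inner_Fm_cj S hA (μ.comp (cjP S n⁻¹)) ϑ.1.1 n
    rw [← e, ← hn] at h1
    exact h1
  · apply Subtype.ext
    rw [LamN_val, LamN_val]
    have e4 := tw_comp_cj S (μ.comp (cjP S n⁻¹)) ϑ.1.1 n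
    rw [← e, ← hn] at e4
    show indN S (tw S μ ϑ'.1.1) = indN S (tw S (μ.comp (cjP S n⁻¹)) ϑ.1.1)
    rw [← e4]
    funext x
    simp only [indN]
    by_cases hx : (x : G) ∈ C
    · rw [dif_pos hx, dif_pos hx, trN_comp_cj]
    · rw [dif_neg hx, dif_neg hx]

/-- The values on the singular elements of a non-exceptional character. -/
theorem value_sing_gen (ϑ : Irr0 S) (e : ℕ) (he : classInner ϑ.1.1 (trN S ϑ.1.1) = e)
    (χ : IrrCharacter G) (z : ℤ)
    (hz : ∀ μ : {μ : P.subgroupOf C →* ℂˣ // μ ≠ 1}, classInner (Gam S μ.1 ϑ.1.1) χ.1 = z)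
    (hdisj : ∀ ϑ' : Irr0 S, ¬ relN S ϑ ϑ' → ∀ μ : {μ : P.subgroupOf C →* ℂˣ // μ ≠ 1},
      classInner (Gam S μ.1 ϑ'.1.1) χ.1 = 0)
    (c : C) (hc : p ∣ orderOf (c : G)) : (e : ℂ) * χ.1 c = z * trN S ϑ.1.1 c := by
  have hχcl : IsClassFunction C (fun c : C => χ.1 c) :=
    isClassFunction_of_isCharacter (isCharacter_restrict C (isCharacter_of_isIrrCharacter χ.2))
  have hχinv : NInv S (fun c : C => χ.1 c) := ninv_res S (irr_isClassFunction χ)
  have h := sing_eq S ((e : ℂ) • (fun c : C => χ.1 c)) ((z : ℂ) • trN S ϑ.1.1)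
    (isClassFunction_smul _ hχcl) (isClassFunction_smul _ (isClassFunction_trN S ϑ.1.1
      (irr_isClassFunction ϑ.1))) ?_ c hc
  · simpa using h
  · intro μ ϑ'
    rw [classInner_smul_right, classInner_smul_right, Complex.conj_natCast, map_intCast]
    have h2 : classInner (Fm S μ.1 ϑ'.1.1) (trN S ϑ.1.1) = classInner ϑ'.1.1 (trN S ϑ.1.1) := by
      simp only [Fm]
      rw [classInner_sub_left, inner_tw_trN_one S μ.1 μ.2 ϑ' ϑ, sub_zero]
    rw [h2]
    by_cases hr : relN S ϑ ϑ'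
    · obtain ⟨μ', h1, -⟩ := inner_Fm_rel S hχinv μ.1 μ.2 ϑ ϑ' hr
      rw [h1, ← inner_Gam S μ'.1 ϑ.1.1 (irr_isClassFunction χ), hz μ']
      obtain ⟨n, hn⟩ := hr
      rw [hn, classInner_inv_left S (ninv_trN S ϑ.1.1) ϑ.1.1 n, he]
      ring
    · rw [← inner_Gam S μ.1 ϑ'.1.1 (irr_isClassFunction χ), hdisj ϑ' hr μ]
      have h3 : classInner ϑ'.1.1 (trN S ϑ.1.1) = 0 := by
        apply inner_trN_of_not S ϑ'.1 ϑ.1
        intro n hn
        exact hr ⟨n, hn.symm⟩
      rw [h3]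
      ring

/-- The values on the singular elements of an exceptional character. -/
theorem value_sing_exc (ϑ : Irr0 S) (μ₁ : {μ : P.subgroupOf C →* ℂˣ // μ ≠ 1})
    (χ : IrrCharacter G) (s : ℤ)
    (hz : ∀ μ : {μ : P.subgroupOf C →* ℂˣ // μ ≠ 1}, classInner (Gam S μ.1 ϑ.1.1) χ.1 =
      if LamN S μ ϑ = LamN S μ₁ ϑ then (s : ℂ) else 0)
    (hdisj : ∀ ϑ' : Irr0 S, ¬ relN S ϑ ϑ' → ∀ μ : {μ : P.subgroupOf C →* ℂˣ // μ ≠ 1},
      classInner (Gam S μ.1 ϑ'.1.1) χ.1 = 0)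
    (c : C) (hc : p ∣ orderOf (c : G)) : χ.1 c = -(s : ℂ) * trN S (tw S μ₁.1 ϑ.1.1) c := by
  have hχcl : IsClassFunction C (fun c : C => χ.1 c) :=
    isClassFunction_of_isCharacter (isCharacter_restrict C (isCharacter_of_isIrrCharacter χ.2))
  have hχinv : NInv S (fun c : C => χ.1 c) := ninv_res S (irr_isClassFunction χ)
  have h := sing_eq S (fun c : C => χ.1 c) ((-(s : ℂ)) • trN S (tw S μ₁.1 ϑ.1.1))
    hχcl (isClassFunction_smul _ (isClassFunction_trN S _
      (irr_isClassFunction (twI S μ₁.1 ϑ.1)))) ?_ c hc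
  · simpa using h
  · intro μ ϑ'
    rw [classInner_smul_right, map_neg, map_intCast]
    have h2 : classInner (Fm S μ.1 ϑ'.1.1) (trN S (tw S μ₁.1 ϑ.1.1)) =
        -(if LamN S μ ϑ' = LamN S μ₁ ϑ then (1 : ℂ) else 0) := by
      simp only [Fm]
      rw [classInner_sub_left, inner_one_trN_tw S μ₁.1 μ₁.2 ϑ' ϑ, zero_sub,
        ← inner_indN_indN, ← LamN_val, ← LamN_val, irr_inner]
    rw [h2]
    by_cases hr : relN S ϑ ϑ'
    · obtain ⟨μ', h1, h3⟩ := inner_Fm_rel S hχinv μ.1 μ.2 ϑ ϑ' hr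
      rw [h1, ← inner_Gam S μ'.1 ϑ.1.1 (irr_isClassFunction χ), hz μ']
      have h4 : LamN S μ ϑ' = LamN S μ' ϑ := h3
      rw [h4]
      split_ifs <;> ring
    · rw [← inner_Gam S μ.1 ϑ'.1.1 (irr_isClassFunction χ), hdisj ϑ' hr μ]
      have h3 : LamN S μ ϑ' ≠ LamN S μ₁ ϑ := by
        intro h4
        have hd := setY_disjoint S hr
        rw [Finset.disjoint_left] at hd
        apply hd (a := LamN S μ₁ ϑ)
        · exact Finset.mem_union_right _ (Finset.mem_image.mpr ⟨μ₁, Finset.mem_univ _, rfl⟩)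
        · exact Finset.mem_union_right _ (Finset.mem_image.mpr ⟨μ, Finset.mem_univ _, h4⟩)
      rw [if_neg h3]
      ring

end Cfsg.Agent.H82.P1
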