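import Cfsg.Agent.H82.P3B

/-!
# Sylow subgroups of prime order, part 3C: regular elements and degrees (helper82)

The relation on the `p`-regular elements for an arbitrary `ϑ`, and the degrees modulo `p` of the
non-exceptional and the exceptional characters.
-/

set_option autoImplicit false
set_option linter.style.haveILetI false
set_option linter.unusedSectionVars false

namespace Cfsg.Agent.H82.P1

open Cfsg Cfsg.Agent.H4 Cfsg.Agent.H82 Cfsg.Agent.H82.BL Cfsg.Agent.Clifford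
open scoped ComplexConjugate
open Classical

universe u

variable {G : Type u} [Group G] [Fintype G] {p : ℕ} {N C P : Subgroup G} [Fintype N] [Fintype C]
  (S : Setup p N C P)
  [Fintype (IrrCharacter G)] [Fintype (IrrCharacter N)] [Fintype (IrrCharacter C)]
  [Fintype (P.subgroupOf C)] [Fintype (P.subgroupOf C →* ℂˣ)]

/-- The relation on `p`-regular elements, for an arbitrary `ϑ`. -/
theorem reg_identity_gen {w : IrrCharacter G → ℤ} {b : IrrCharacter N → IrrCharacter G} {s : ℤ}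
    (ϑ : Irr0 S)
    (hv : ∀ (μ : {μ : P.subgroupOf C →* ℂˣ // μ ≠ 1}) (χ : IrrCharacter G),
      classInner (Gam S μ.1 ϑ.1.1) χ.1 =
        ((w χ + if χ = b (LamN S μ ϑ) then s else 0 : ℤ) : ℂ))
    (μ : {μ : P.subgroupOf C →* ℂˣ // μ ≠ 1}) (g : G) (hg : ¬ p ∣ orderOf g) :
    ∑ χ : IrrCharacter G, (w χ : ℂ) * χ.1 g + (s : ℂ) * (b (LamN S μ ϑ)).1 g = 0 := by
  have h1 := Gam_expand_reg S μ.1 ϑ.1.1 g hg
  rw [← h1]
  simp only [hv]
  push_cast
  simp only [add_mul, Finset.sum_add_distrib, ite_mul, zero_mul, Finset.sum_ite_eq',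
    Finset.mem_univ, if_true]

/-- A non-identity element of `P` is `p`-singular. -/
theorem sing_of_ne_one (S' : Setup p N C P) (x : P.subgroupOf C) (hx : x ≠ 1) :
    p ∣ orderOf ((x : C) : G) := by
  by_contra hreg
  have := (S'.hreg (x : C)).mp hreg
  rw [S'.hρ] at this
  exact hx this

/-- The degree of an irreducible character from the sum of its values on `P ∖ 1`. -/
theorem deg_modEq_sum (S' : Setup p N C P) (hP : Nat.card P = p) (χ : IrrCharacter G) (t : ℤ)
    (hval : ∑ x ∈ Finset.univ.erase (1 : P.subgroupOf C), χ.1 ((x : C) : G) = (t : ℂ)) :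
    (charDegree χ.1 : ℤ) ≡ -t [ZMOD p] := by
  have hres : IsCharacter C (fun c : C => χ.1 c) :=
    isCharacter_restrict C (isCharacter_of_isIrrCharacter χ.2)
  have hresD : IsCharacter (P.subgroupOf C) (fun x : P.subgroupOf C => χ.1 ((x : C) : G)) :=
    isCharacter_restrict (P.subgroupOf C) hres
  obtain ⟨a, ha⟩ := classInner_isCharacter_nat hresD
    (isCharacter_of_isIrrCharacter (isIrr_one_fun (P.subgroupOf C)))
  unfold classInner at ha
  simp only [Pi.one_apply, map_one, mul_one] at ha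
  have hcard : Nat.card (P.subgroupOf C) = p := by
    rw [Nat.card_congr (Subgroup.subgroupOfEquivOfLe S'.hPC).toEquiv, hP]
  rw [hcard] at ha
  have hp0 : (p : ℂ) ≠ 0 := by
    have : 0 < Nat.card P := Nat.card_pos
    rw [hP] at this
    exact_mod_cast this.ne'
  have h1 : ∑ x : P.subgroupOf C, χ.1 ((x : C) : G) = (p : ℂ) * a := by
    rw [← ha, ← mul_assoc, mul_inv_cancel₀ hp0, one_mul]
  rw [← Finset.add_sum_erase Finset.univ _ (Finset.mem_univ (1 : P.subgroupOf C)), hval] at h1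
  have e1 : χ.1 (((1 : P.subgroupOf C) : C) : G) = (charDegree χ.1 : ℂ) := by
    have : (((1 : P.subgroupOf C) : C) : G) = 1 := rfl
    rw [this, irr_one_eq_charDegree]
  rw [e1] at h1
  have h3 : (charDegree χ.1 : ℤ) + t = (p : ℤ) * (a : ℤ) := by
    exact_mod_cast h1
  rw [Int.modEq_iff_dvd]
  refine ⟨-(a : ℤ), ?_⟩
  linarith

/-- The trace of a character trivial on `P`, at an element of `P`. -/
theorem trN_apply_P (ϑ : Irr0 S) (x : P.subgroupOf C) :
    trN S ϑ.1.1 (x : C) = (ind S : ℂ) * ϑ.1.1 1 := by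
  have h1 : ∀ n : N, ϑ.1.1 (cj S n (x : C)) = ϑ.1.1 1 := by
    intro n
    have h2 := ϑ.2 (cjP S n x) 1
    rw [mul_one, MonoidHom.one_apply, Units.val_one, one_mul, cjP_coe] at h2
    exact h2
  simp only [trN]
  rw [Finset.sum_congr rfl (fun n _ => h1 n), Finset.sum_const, Finset.card_univ,
    ← Nat.card_eq_fintype_card, nsmul_eq_mul, ← mul_assoc, cinv_mul_cardN]

/-- The degree of a non-exceptional character. -/
theorem deg_nonexc (hP : Nat.card P = p) (ϑ : Irr0 S) (e q : ℕ) (he0 : e ≠ 0)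
    (hq : e * q = ind S) (χ : IrrCharacter G) (z : ℤ)
    (hval : ∀ c : C, p ∣ orderOf (c : G) → (e : ℂ) * χ.1 c = z * trN S ϑ.1.1 c) :
    (charDegree χ.1 : ℤ) ≡ z * ((q * charDegree ϑ.1.1 : ℕ) : ℤ) [ZMOD p] := by
  have hcard : Nat.card (P.subgroupOf C) = p := by
    rw [Nat.card_congr (Subgroup.subgroupOfEquivOfLe S.hPC).toEquiv, hP]
  have hp1 : 1 ≤ p := by
    have : 0 < Nat.card P := Nat.card_pos
    rw [hP] at this
    exact this
  have he0' : (e : ℂ) ≠ 0 := by exact_mod_cast he0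
  have h1 : ∀ x ∈ Finset.univ.erase (1 : P.subgroupOf C),
      χ.1 ((x : C) : G) = ((z * ((q * charDegree ϑ.1.1 : ℕ) : ℤ) : ℤ) : ℂ) := by
    intro x hx
    have hx1 : x ≠ 1 := (Finset.mem_erase.mp hx).1
    have h2 := hval (x : C) (sing_of_ne_one S x hx1)
    rw [trN_apply_P S ϑ x, irr_one_eq_charDegree, ← hq] at h2
    apply mul_left_cancel₀ he0'
    rw [h2]
    push_cast
    ring
  have h3 := deg_modEq_sum S hP χ (((p : ℤ) - 1) * (z * ((q * charDegree ϑ.1.1 : ℕ) : ℤ))) (by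
    rw [Finset.sum_congr rfl h1, Finset.sum_const, Finset.card_erase_of_mem (Finset.mem_univ _),
      Finset.card_univ, ← Nat.card_eq_fintype_card, hcard, nsmul_eq_mul]
    push_cast [Nat.cast_sub hp1]
    ring)
  refine h3.trans ?_
  rw [Int.modEq_iff_dvd]
  refine ⟨z * ((q * charDegree ϑ.1.1 : ℕ) : ℤ), ?_⟩
  ring

/-- The sum over `P` of the trace of a nontrivial twist vanishes. -/
theorem sum_P_trN_tw (ϑ : Irr0 S) (μ₁ : {μ : P.subgroupOf C →* ℂˣ // μ ≠ 1}) :
    ∑ x : P.subgroupOf C, trN S (tw S μ₁.1 ϑ.1.1) (x : C) = 0 := by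
  simp only [trN]
  rw [← Finset.mul_sum, Finset.sum_comm]
  have h1 : ∀ n : N, ∑ x : P.subgroupOf C, tw S μ₁.1 ϑ.1.1 (cj S n (x : C)) = 0 := by
    intro n
    have h2 : ∑ x : P.subgroupOf C, tw S μ₁.1 ϑ.1.1 (cj S n (x : C)) =
        ∑ x : P.subgroupOf C, tw S μ₁.1 ϑ.1.1 ((cjPE S n x : P.subgroupOf C) : C) :=
      Finset.sum_congr rfl fun x _ => by rw [cjPE_apply, cjP_coe]
    rw [h2, Equiv.sum_comp (cjPE S n) (fun x : P.subgroupOf C => tw S μ₁.1 ϑ.1.1 (x : C))]
    have h3 : ∀ x : P.subgroupOf C, tw S μ₁.1 ϑ.1.1 (x : C) =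
        ((μ₁.1 x : ℂˣ) : ℂ) * conj ((((1 : P.subgroupOf C →* ℂˣ) x : ℂˣ) : ℂ)) * ϑ.1.1 1 := by
      intro x
      have h4 := ϑ.2 x 1
      rw [mul_one, MonoidHom.one_apply, Units.val_one, one_mul] at h4
      simp only [tw, S.hρ, h4, MonoidHom.one_apply, Units.val_one, map_one, mul_one]
    rw [Finset.sum_congr rfl (fun x _ => h3 x), ← Finset.sum_mul, sum_hom_mul_conj,
      if_neg μ₁.2, zero_mul]
  rw [Finset.sum_congr rfl (fun n _ => h1 n), Finset.sum_const_zero, mul_zero]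

/-- The degree of an exceptional character. -/
theorem deg_exc (hP : Nat.card P = p) (ϑ : Irr0 S) (μ₁ : {μ : P.subgroupOf C →* ℂˣ // μ ≠ 1})
    (χ : IrrCharacter G) (s : ℤ)
    (hval : ∀ c : C, p ∣ orderOf (c : G) → χ.1 c = -(s : ℂ) * trN S (tw S μ₁.1 ϑ.1.1) c) :
    (charDegree χ.1 : ℤ) ≡ -s * ((ind S * charDegree ϑ.1.1 : ℕ) : ℤ) [ZMOD p] := by
  have h0 := sum_P_trN_tw S ϑ μ₁
  rw [← Finset.add_sum_erase Finset.univ _ (Finset.mem_univ (1 : P.subgroupOf C))] at h0
  have e1 : trN S (tw S μ₁.1 ϑ.1.1) ((1 : P.subgroupOf C) : C) =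
      (ind S : ℂ) * (charDegree ϑ.1.1 : ℂ) := by
    have : ((1 : P.subgroupOf C) : C) = 1 := rfl
    rw [this, trN_one, cinv_mul_cardN S, ← irr_one_eq_charDegree]
    simp only [tw, map_one, Units.val_one, one_mul]
  rw [e1] at h0
  have h3 := deg_modEq_sum S hP χ (s * ((ind S * charDegree ϑ.1.1 : ℕ) : ℤ)) (by
    have h1 : ∀ x ∈ Finset.univ.erase (1 : P.subgroupOf C),
        χ.1 ((x : C) : G) = -(s : ℂ) * trN S (tw S μ₁.1 ϑ.1.1) (x : C) := by
      intro x hx
      exact hval (x : C) (sing_of_ne_one S x (Finset.mem_erase.mp hx).1)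
    rw [Finset.sum_congr rfl h1, ← Finset.mul_sum]
    have h4 : ∑ x ∈ Finset.univ.erase (1 : P.subgroupOf C),
        trN S (tw S μ₁.1 ϑ.1.1) (x : C) = -((ind S : ℂ) * (charDegree ϑ.1.1 : ℂ)) := by
      linear_combination h0
    rw [h4]
    push_cast
    ring)
  refine h3.trans ?_
  rw [neg_mul]

end Cfsg.Agent.H82.P1
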