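import Cfsg.Agent.H82.P3C
import Cfsg.Agent.H20.SecondMain
import Cfsg.Agent.H4.GlaubP

/-!
# Sylow subgroups of prime order, part 3D: an induced block lies in `setX` (helper82)

If the central character of `ϑ` (a character of `C` trivial on `P`) induced to `G` is congruent
to the central character of `χ`, then `χ` is met by some `Gam μ ϑ`.
-/

set_option autoImplicit false
set_option linter.style.haveILetI false
set_option linter.unusedSectionVars false

namespace Cfsg.Agent.H82.P1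

open Cfsg Cfsg.Agent.H4 Cfsg.Agent.H82 Cfsg.Agent.H82.BL Cfsg.Agent.Clifford
open scoped ComplexConjugate
open Classical

universe u

variable {G : Type u} [Group G] [Fintype G] {p : ℕ} {N C P : Subgroup G} [Fintype N] [Fintype C]
  (S : Setup p N C P)
  [Fintype (IrrCharacter G)] [Fintype (IrrCharacter N)] [Fintype (IrrCharacter C)]
  [Fintype (P.subgroupOf C)] [Fintype (P.subgroupOf C →* ℂˣ)]

/-- A function orthogonal to all `ϑ - tw μ ϑ` has vanishing section sums against `ϑ`. -/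
theorem section_sum_zero (A : C → ℂ) (ϑ : Irr0 S)
    (h : ∀ μ : {μ : P.subgroupOf C →* ℂˣ // μ ≠ 1}, classInner (Fm S μ.1 ϑ.1.1) A = 0)
    (x₀ : P.subgroupOf C) (hx₀ : x₀ ≠ 1) :
    ∑ c : C, (if S.ρ c = x₀ then ϑ.1.1 c * conj (A c) else 0) = 0 := by
  haveI : Finite (P.subgroupOf C) := Finite.of_fintype _
  set F : P.subgroupOf C → ℂ :=
    fun y => ∑ c : C, (if S.ρ c = y then ϑ.1.1 c * conj (A c) else 0) with hF
  have h1 : ∀ μ : P.subgroupOf C →* ℂˣ, ∑ y, ((μ y : ℂˣ) : ℂ) * F y =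
      ∑ c : C, tw S μ ϑ.1.1 c * conj (A c) := by
    intro μ
    simp only [hF, Finset.mul_sum]
    rw [Finset.sum_comm]
    refine Finset.sum_congr rfl fun c _ => ?_
    simp only [mul_ite, mul_zero]
    rw [Finset.sum_ite_eq Finset.univ (S.ρ c), if_pos (Finset.mem_univ _)]
    simp only [tw]
    ring
  have hC : (Nat.card C : ℂ) ≠ 0 := cardC_ne_zero C
  have h2 : ∀ μ : P.subgroupOf C →* ℂˣ, ∑ y, ((μ y : ℂˣ) : ℂ) * F y = ∑ y, F y := by
    intro μ
    have h5 := h1 1
    rw [tw_one] at h5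
    simp only [MonoidHom.one_apply, Units.val_one, one_mul] at h5
    by_cases hμ : μ = 1
    · rw [hμ]
      simp
    · have h3 := h ⟨μ, hμ⟩
      simp only [Fm] at h3
      rw [classInner_sub_left, sub_eq_zero] at h3
      unfold classInner at h3
      have h4 := mul_left_cancel₀ (inv_ne_zero hC) h3
      rw [h1 μ, ← h4, h5]
  have hcard : (Fintype.card (P.subgroupOf C →* ℂˣ) : ℂ) ≠ 0 := by
    have : 0 < Fintype.card (P.subgroupOf C →* ℂˣ) := Fintype.card_pos
    exact_mod_cast this.ne'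
  have h3 : ∑ μ : P.subgroupOf C →* ℂˣ, conj ((μ x₀ : ℂˣ) : ℂ) * ∑ y, ((μ y : ℂˣ) : ℂ) * F y
      = 0 := by
    simp only [h2]
    rw [← Finset.sum_mul, ← map_sum, sum_hom_apply (comm_sub S) x₀, if_neg hx₀, map_zero,
      zero_mul]
  have h4 : ∑ μ : P.subgroupOf C →* ℂˣ, conj ((μ x₀ : ℂˣ) : ℂ) * ∑ y, ((μ y : ℂˣ) : ℂ) * F y
      = (Fintype.card (P.subgroupOf C →* ℂˣ) : ℂ) * F x₀ := by
    simp only [Finset.mul_sum]
    rw [Finset.sum_comm]
    have h6 : ∀ y : P.subgroupOf C, ∑ μ : P.subgroupOf C →* ℂˣ,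
        conj ((μ x₀ : ℂˣ) : ℂ) * (((μ y : ℂˣ) : ℂ) * F y) =
        (if y = x₀ then (Fintype.card (P.subgroupOf C →* ℂˣ) : ℂ) else 0) * F y := by
      intro y
      have h7 : ∀ μ : P.subgroupOf C →* ℂˣ, conj ((μ x₀ : ℂˣ) : ℂ) * (((μ y : ℂˣ) : ℂ) * F y) =
          ((μ (y * x₀⁻¹) : ℂˣ) : ℂ) * F y := by
        intro μ
        rw [conj_hom, MonoidHom.inv_apply, map_mul, map_inv, Units.val_mul]
        ring
      rw [Finset.sum_congr rfl (fun μ _ => h7 μ), ← Finset.sum_mul,
        sum_hom_apply (comm_sub S) (y * x₀⁻¹)]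
      congr 1
      by_cases hy : y = x₀
      · rw [if_pos hy, if_pos (by rw [hy, mul_inv_cancel])]
      · rw [if_neg hy, if_neg (fun h' => hy (mul_inv_eq_one.mp h'))]
    rw [Finset.sum_congr rfl (fun y _ => h6 y)]
    simp only [ite_mul, zero_mul]
    rw [Finset.sum_ite_eq' Finset.univ x₀, if_pos (Finset.mem_univ _)]
  rw [h3] at h4
  exact (mul_eq_zero.mp h4.symm).resolve_left hcard

/-- The conjugate of `ϑ` cut down to the elements with `P`-part `x₀`. -/
noncomputable def secF (ϑ : IrrCharacter C) (x₀ : P.subgroupOf C) : C → ℂ :=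
  fun c => if S.ρ c = x₀ then conj (ϑ.1 c) else 0

theorem secF_reg (ϑ : IrrCharacter C) (x₀ : P.subgroupOf C) (hx₀ : x₀ ≠ 1) (c : C)
    (hc : ¬ p ∣ orderOf (c : G)) : secF S ϑ x₀ c = 0 := by
  simp only [secF]
  rw [if_neg]
  rw [(S.hreg c).mp hc]
  exact fun h => hx₀ h.symm

/-- The `N`-trace of a section function takes algebraic integer values. -/
theorem trN_secF_integral (ϑ : IrrCharacter C) (x₀ : P.subgroupOf C) (hx₀ : x₀ ≠ 1) (c : C) :
    IsIntegral ℤ (trN S (secF S ϑ x₀) c) := by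
  have hC : (Nat.card C : ℂ) ≠ 0 := cardC_ne_zero C
  by_cases hex : ∃ n₀ : N, cjP S n₀ (S.ρ c) = x₀
  · obtain ⟨n₀, hn₀⟩ := hex
    have key : ∀ n : N, secF S ϑ x₀ (cj S n c) =
        if ((n * n₀⁻¹ : N) : G) ∈ C then conj (ϑ.1 (cj S n₀ c)) else 0 := by
      intro n
      simp only [secF, rho_cj]
      by_cases hn : ((n * n₀⁻¹ : N) : G) ∈ C
      · rw [if_pos hn]
        have e1 : cjP S n (S.ρ c) = x₀ := by
          have e2 : n = (n * n₀⁻¹) * n₀ := by simp
          rw [e2, cjP_mul, MonoidHom.comp_apply, hn₀, cjP_of_mem S (n * n₀⁻¹) hn]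
          rfl
        rw [if_pos e1, cj_eq_of_mem S (irr_isClassFunction ϑ) n n₀ hn c]
      · rw [if_neg hn, if_neg]
        intro e1
        apply hn
        have e3 : cjP S (n * n₀⁻¹) x₀ = x₀ := by
          rw [cjP_mul, MonoidHom.comp_apply]
          have e4 : cjP S n₀⁻¹ x₀ = S.ρ c := by
            rw [← hn₀, ← MonoidHom.comp_apply, ← cjP_mul, inv_mul_cancel, cjP_one_eq]
            rfl
          rw [e4, e1]
        have e5 : (((cjP S (n * n₀⁻¹) x₀ : P.subgroupOf C) : C) : G) = ((x₀ : C) : G) := by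
          rw [e3]
        rw [cjP_coe, cj_coe] at e5
        apply S.semi _ (n * n₀⁻¹).2 ((x₀ : C) : G) (Subgroup.mem_subgroupOf.mp x₀.2)
        · intro h1
          apply hx₀
          apply Subtype.ext
          apply Subtype.ext
          exact h1
        · have := congrArg (fun t => t * ((n * n₀⁻¹ : N) : G)) e5
          simpa [mul_assoc] using this
    have h2 : trN S (secF S ϑ x₀) c = conj (ϑ.1 (cj S n₀ c)) := by
      simp only [trN]
      rw [Finset.sum_congr rfl (fun n _ => key n), sum_ite_coset S n₀, ← mul_assoc,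
        inv_mul_cancel₀ hC, one_mul]
    rw [h2, Cfsg.Agent.H20.irr_conj]
    exact isIntegral_irr ϑ _
  · push Not at hex
    have h2 : trN S (secF S ϑ x₀) c = 0 := by
      simp only [trN]
      rw [Finset.sum_eq_zero, mul_zero]
      intro n _
      simp only [secF, rho_cj]
      rw [if_neg (hex n)]
    rw [h2]
    exact isIntegral_zero

/-- Adjointness of the `N`-trace. -/
theorem classInner_trN_adj (f A : C → ℂ) :
    classInner (trN S f) A = classInner f (trN S A) := by
  rw [classInner_trN_left, classInner_trN_right]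
  congr 1
  rw [← Equiv.sum_comp (Equiv.inv N)]
  refine Finset.sum_congr rfl fun n _ => ?_
  show classInner (fun c => f (cj S n⁻¹ c)) A = classInner f (fun c => A (cj S n c))
  rw [← classInner_comp_cj S (fun c => f (cj S n⁻¹ c)) A n]
  congr 1
  funext c
  have := cj_cj_inv S n⁻¹ c
  rw [inv_inv] at this
  have h2 : cj S n⁻¹ (cj S n c) = c := by
    rw [← cj_mul, inv_mul_cancel, cj_one_apply]
  rw [h2]

/-- Sums over a section of a `P`-invariant function. -/
theorem sum_section (g : C → ℂ) (hg : ∀ (x : P.subgroupOf C) (c : C), g ((x : C) * c) = g c)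
    (x₀ : P.subgroupOf C) :
    (Nat.card P : ℂ) * ∑ c : C, (if S.ρ c = x₀ then g c else 0) = ∑ c : C, g c := by
  rw [← sum_reg S g hg]
  congr 1
  rw [← Equiv.sum_comp (Equiv.mulLeft (x₀ : C))]
  refine Finset.sum_congr rfl fun c _ => ?_
  simp only [Equiv.coe_mulLeft, map_mul, S.hρ, hg]
  by_cases hc : p ∣ orderOf (c : G)
  · rw [if_pos hc, if_neg]
    intro h1
    exact ((S.hreg c).mpr (mul_eq_left.mp h1)) hc
  · rw [if_neg hc, if_pos]
    rw [(S.hreg c).mp hc, mul_one]

/-- **An induced block lies in `setX`.** -/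
theorem mem_setX_of_induced {M : Ideal AlgInt} (hM : IsPModular p M) (hP : Nat.card P = p)
    (ϑ : Irr0 S) (e : ℕ) (he : classInner ϑ.1.1 (trN S ϑ.1.1) = e)
    (hpC : p ∣ Nat.card C) (hk : ¬ p ∣ (Nat.card C / p) * e)
    (χ : IrrCharacter G)
    (hind : ∀ g : G, MemLocalIdeal M (inducedCentralChar C ϑ.1.1 g - centralChar χ.1 g)) :
    χ ∈ setX S ϑ := by
  have hp : p.Prime := hM.1
  have hMp := Cfsg.Agent.H20.isPrime_of_isPModular hM
  by_contra hχ
  have h0 : ∀ μ : {μ : P.subgroupOf C →* ℂˣ // μ ≠ 1},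
      classInner (Fm S μ.1 ϑ.1.1) (fun c : C => χ.1 c) = 0 := by
    intro μ
    rw [← inner_Gam S μ.1 ϑ.1.1 (irr_isClassFunction χ)]
    by_contra hne
    apply hχ
    simp only [setX, Finset.mem_filter, Finset.mem_univ, true_and]
    exact ⟨μ, hne⟩
  have hcard : Nat.card (P.subgroupOf C) = p := by
    rw [Nat.card_congr (Subgroup.subgroupOfEquivOfLe S.hPC).toEquiv, hP]
  obtain ⟨x₀, hx₀⟩ : ∃ x₀ : P.subgroupOf C, x₀ ≠ 1 := by
    haveI : Nontrivial (P.subgroupOf C) := by
      rw [← Fintype.one_lt_card_iff_nontrivial, ← Nat.card_eq_fintype_card, hcard]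
      exact hp.one_lt
    exact exists_ne 1
  have hsec := section_sum_zero S (fun c : C => χ.1 c) ϑ h0 x₀ hx₀
  obtain ⟨f, hf⟩ : ∃ f : C → ℂ, f = secF S ϑ.1 x₀ := ⟨_, rfl⟩
  have hf0 : ∀ c : C, ¬ p ∣ orderOf (c : G) → f c = 0 := by
    intro c hc
    rw [hf]
    exact secF_reg S ϑ.1 x₀ hx₀ c hc
  obtain ⟨z, hz⟩ : ∃ z : MonoidAlgebra ℂ G,
      z = ∑ g : G, MonoidAlgebra.single g (indFun C f g) := ⟨_, rfl⟩
  have hcoeff : ∀ g : G, z.coeff g = indFun C f g := by
    intro g
    rw [hz, MonoidAlgebra.coeff_sum, Finsupp.finsetSum_apply]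
    simp only [MonoidAlgebra.coeff_single, Finsupp.single_apply]
    rw [Finset.sum_ite_eq']
    simp
  have hzmem : z ∈ Cfsg.Agent.H20.cfSubring G (Cfsg.Agent.H20.localRing M hMp) := by
    refine ⟨?_, ?_⟩
    · intro g h
      rw [hcoeff, hcoeff]
      exact indFun_isClassFunction C f g h
    · intro g
      rw [hcoeff]
      show MemLocalRing M (indFun C f g)
      by_cases hg : p ∣ orderOf g
      · obtain ⟨h, hh⟩ := S.conjIn g hg
        rw [← indFun_isClassFunction C f g h]
        have h1 := indFun_eq_trN S f hf0 ⟨h * g * h⁻¹, hh⟩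
        have h2 : indFun C f (h * g * h⁻¹) = trN S f ⟨h * g * h⁻¹, hh⟩ := h1
        rw [h2, hf]
        exact Cfsg.Agent.H20.memLocalRing_algInt hMp
          ⟨_, trN_secF_integral S ϑ.1 x₀ hx₀ ⟨h * g * h⁻¹, hh⟩⟩
      · rw [indFun_reg f hf0 g hg]
        exact Cfsg.Agent.H20.memLocalRing_zero hMp
  have key := Cfsg.Agent.H20.omega_truncTo_sub_omega_mem hMp C ϑ.1 χ hind hzmem
  have hG0 : (Nat.card G : ℂ) ≠ 0 := by
    have : 0 < Nat.card G := Nat.card_pos
    exact_mod_cast this.ne'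
  have hC0 : (Nat.card C : ℂ) ≠ 0 := cardC_ne_zero C
  -- the `G`-side vanishes
  have hGside : Cfsg.Agent.H20.omega χ.1 z = 0 := by
    unfold Cfsg.Agent.H20.omega
    have hcl : IsClassFunction G (fun g => conj (χ.1 g)) := by
      intro g h
      show conj (χ.1 (h * g * h⁻¹)) = conj (χ.1 g)
      rw [irr_isClassFunction χ g h]
    have h1 := frobenius_reciprocity C f (fun g => conj (χ.1 g)) hcl
    unfold classInner at h1
    simp only [Complex.conj_conj] at h1
    have h2 : ∑ c : C, f c * χ.1 c = 0 := by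
      have h3 := congrArg conj hsec
      rw [map_sum, map_zero] at h3
      rw [← h3]
      refine Finset.sum_congr rfl fun c _ => ?_
      rw [hf]
      simp only [secF]
      split_ifs
      · rw [map_mul, Complex.conj_conj]
      · rw [zero_mul, map_zero]
    rw [h2, mul_zero] at h1
    have h4 : ∑ g : G, indFun C f g * χ.1 g = 0 :=
      (mul_eq_zero.mp h1).resolve_left (inv_ne_zero hG0)
    simp only [hcoeff]
    rw [h4, zero_div]
  -- the `C`-side
  have hCside : (p : ℂ) * (Cfsg.Agent.H20.omega ϑ.1.1 (Cfsg.Agent.H80.truncTo C z) * ϑ.1.1 1) =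
      (Nat.card C : ℂ) * e := by
    unfold Cfsg.Agent.H20.omega
    rw [div_mul_cancel₀ _ (irr_one_ne_zero ϑ.1)]
    have h1 : ∀ h : C, (Cfsg.Agent.H80.truncTo C z).coeff h = trN S f h := by
      intro h
      rw [Cfsg.Agent.H80.coeff_truncTo, hcoeff]
      exact indFun_eq_trN S f hf0 h
    simp only [h1]
    have h2 : ∑ h : C, trN S f h * ϑ.1.1 h =
        ∑ c : C, (if S.ρ c = x₀ then conj (ϑ.1.1 c) * trN S ϑ.1.1 c else 0) := by
      have h3 := classInner_trN_adj S f (fun c => conj (ϑ.1.1 c))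
      unfold classInner at h3
      simp only [Complex.conj_conj] at h3
      have h4 := mul_left_cancel₀ (inv_ne_zero hC0) h3
      rw [h4]
      refine Finset.sum_congr rfl fun c _ => ?_
      have h5 : conj (trN S (fun c => conj (ϑ.1.1 c)) c) = trN S ϑ.1.1 c := by
        simp only [trN]
        rw [map_mul, map_inv₀, Complex.conj_natCast, map_sum]
        simp only [Complex.conj_conj]
      rw [h5, hf]
      simp only [secF]
      split_ifs
      · rfl
      · rw [zero_mul]
    rw [h2]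
    have h6 := sum_section S (fun c => conj (ϑ.1.1 c) * trN S ϑ.1.1 c) (by
      intro x c
      have e1 := ϑ.2 x c
      rw [MonoidHom.one_apply, Units.val_one, one_mul] at e1
      have e2 : trN S ϑ.1.1 ((x : C) * c) = trN S ϑ.1.1 c := by
        simp only [trN]
        congr 1
        refine Finset.sum_congr rfl fun n _ => ?_
        rw [map_mul, ← cjP_coe]
        have e3 := ϑ.2 (cjP S n x) (cj S n c)
        rw [MonoidHom.one_apply, Units.val_one, one_mul] at e3
        exact e3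
      show conj (ϑ.1.1 ((x : C) * c)) * trN S ϑ.1.1 ((x : C) * c) = _
      rw [e1, e2]) x₀
    rw [hP] at h6
    rw [h6]
    have h7 : classInner (trN S ϑ.1.1) ϑ.1.1 = (e : ℂ) := by
      rw [← classInner_conj_symm, he, Complex.conj_natCast]
    unfold classInner at h7
    rw [← h7, ← mul_assoc, mul_inv_cancel₀ hC0, one_mul]
    exact Finset.sum_congr rfl fun c _ => mul_comm _ _
  -- conclusion
  rw [hGside, sub_zero] at key
  have h8 : MemLocalIdeal M
      (Cfsg.Agent.H20.omega ϑ.1.1 (Cfsg.Agent.H80.truncTo C z) * ϑ.1.1 1) := by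
    rw [mul_comm]
    apply Cfsg.Agent.H20.memLocalIdeal_mul_left hMp _ key
    rw [irr_one_eq_charDegree]
    exact Cfsg.Agent.H20.memLocalRing_natCast hMp _
  obtain ⟨k, hk'⟩ := hpC
  have hp0 : (p : ℂ) ≠ 0 := by exact_mod_cast hp.ne_zero
  have h9 : Cfsg.Agent.H20.omega ϑ.1.1 (Cfsg.Agent.H80.truncTo C z) * ϑ.1.1 1 =
      ((k * e : ℕ) : ℂ) := by
    apply mul_left_cancel₀ hp0
    rw [hCside, hk']
    push_cast
    ring
  rw [h9] at h8
  have h10 := (Cfsg.Agent.H20.memLocalIdeal_natCast_iff hM (k * e)).mp h8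
  apply hk
  rw [hk', Nat.mul_div_cancel_left k hp.pos]
  exact h10

end Cfsg.Agent.H82.P1
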