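import Cfsg.Agent.H82.P3D
import Cfsg.Agent.H84.SectionOrth
import Cfsg.Agent.H20.PElement

/-!
# Sylow subgroups of prime order, part 3E: `setX` lies in the induced block (helper82)

The block of `C` containing a character `ϑ` trivial on `P` consists of the twists of `ϑ`; with
the key lemma for the second main theorem (helper20) this shows that every character met by
some `Gam μ ϑ` lies in the block induced from the block of `ϑ`.
-/

set_option autoImplicit false
set_option linter.style.haveILetI false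
set_option linter.unusedSectionVars false

namespace Cfsg.Agent.H82.P1

open Cfsg Cfsg.Agent.H4 Cfsg.Agent.H82 Cfsg.Agent.H82.BL Cfsg.Agent.Clifford
open scoped ComplexConjugate
open Classical

universe u

variable {G : Type u} [Group G] [Fintype G] {p : ℕ} {N C P : Subgroup G} [Fintype N] [Fintype C]
  (S : Setup p N C P)
  [Fintype (IrrCharacter G)] [Fintype (IrrCharacter N)] [Fintype (IrrCharacter C)]
  [Fintype (P.subgroupOf C)] [Fintype (P.subgroupOf C →* ℂˣ)]

/-- A twist lies in the same block. -/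
theorem sameBlock_tw {M : Ideal AlgInt} (hM : IsPModular p M) (hP : Nat.card P = p)
    (ξ : IrrCharacter C) (μ : P.subgroupOf C →* ℂˣ) :
    SameBlock M ξ.1 (tw S μ ξ.1) := by
  have hMp := Cfsg.Agent.H20.isPrime_of_isPModular hM
  have hcard : Nat.card (P.subgroupOf C) = p := by
    rw [Nat.card_congr (Subgroup.subgroupOfEquivOfLe S.hPC).toEquiv, hP]
  intro c
  have h1 : centralChar ξ.1 c - centralChar (tw S μ ξ.1) c =
      -((((μ (S.ρ c) : ℂˣ) : ℂ) - 1) * centralChar ξ.1 c) := by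
    unfold centralChar
    simp only [tw, map_one, Units.val_one, one_mul]
    ring
  rw [h1]
  apply Cfsg.Agent.H20.memLocalIdeal_neg
  apply Cfsg.Agent.H20.memLocalIdeal_mul_right hMp _
    (Cfsg.Agent.H20.centralChar_memLocalRing hMp ξ c)
  apply Cfsg.Agent.H20.memLocalIdeal_sub_one_of_pow_eq_one hM (k := 1)
  rw [pow_one, ← Units.val_pow_eq_pow_val, ← map_pow]
  have h2 : (S.ρ c) ^ Nat.card (P.subgroupOf C) = 1 := pow_card_eq_one'
  rw [hcard] at h2
  rw [h2, map_one, Units.val_one]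

/-- Section functions are class functions. -/
theorem isClassFunction_secF (ϑ : IrrCharacter C) (x₀ : P.subgroupOf C) :
    IsClassFunction C (secF S ϑ x₀) := by
  intro c h
  simp only [secF]
  have h1 : S.ρ (h * c * h⁻¹) = S.ρ c := by
    rw [map_mul, map_mul, map_inv, comm_sub S (S.ρ h) (S.ρ c), mul_inv_cancel_right]
  rw [h1, irr_isClassFunction ϑ c h]

/-- Distinct characters trivial on `P` lie in distinct blocks. -/
theorem irr0_eq_of_sameBlock {M : Ideal AlgInt} (hM : IsPModular p M) (hP : Nat.card P = p)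
    (hpC : p ∣ Nat.card C) (hk : ¬ p ∣ Nat.card C / p) (ϑ ϑ' : Irr0 S)
    (hb : SameBlock M ϑ.1.1 ϑ'.1.1) : ϑ = ϑ' := by
  have hp : p.Prime := hM.1
  have hMp := Cfsg.Agent.H20.isPrime_of_isPModular hM
  have hC0 : (Nat.card C : ℂ) ≠ 0 := cardC_ne_zero C
  obtain ⟨k, hk'⟩ := hpC
  have hp0 : (p : ℂ) ≠ 0 := by exact_mod_cast hp.ne_zero
  by_contra hne
  have hne' : ϑ.1 ≠ ϑ'.1 := fun h => hne (Subtype.ext h)
  obtain ⟨z, hz⟩ : ∃ z : MonoidAlgebra ℂ C,
      z = ∑ c : C, MonoidAlgebra.single c (secF S ϑ'.1 1 c) := ⟨_, rfl⟩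
  have hcoeff : ∀ c : C, z.coeff c = secF S ϑ'.1 1 c := by
    intro g
    rw [hz, MonoidAlgebra.coeff_sum, Finsupp.finsetSum_apply]
    simp only [MonoidAlgebra.coeff_single, Finsupp.single_apply]
    rw [Finset.sum_ite_eq']
    simp
  have hzmem : z ∈ Cfsg.Agent.H20.cfSubring C (Cfsg.Agent.H20.localRing M hMp) := by
    refine ⟨?_, ?_⟩
    · intro g h
      rw [hcoeff, hcoeff]
      exact isClassFunction_secF S ϑ'.1 1 g h
    · intro g
      rw [hcoeff]
      show MemLocalRing M (secF S ϑ'.1 1 g)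
      simp only [secF]
      split_ifs
      · rw [Cfsg.Agent.H20.irr_conj]
        exact Cfsg.Agent.H20.memLocalRing_algInt hMp ⟨_, isIntegral_irr ϑ'.1 _⟩
      · exact Cfsg.Agent.H20.memLocalRing_zero hMp
  have key := Cfsg.Agent.H20.omega_sub_omega_memLocalIdeal hMp ϑ.1.1 ϑ'.1.1
    (irr_isClassFunction ϑ.1) (irr_isClassFunction ϑ'.1) hb hzmem
  -- the two values
  have hval : ∀ β : Irr0 S, (p : ℂ) * (Cfsg.Agent.H20.omega β.1.1 z * β.1.1 1) =
      (Nat.card C : ℂ) * classInner β.1.1 ϑ'.1.1 := by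
    intro β
    unfold Cfsg.Agent.H20.omega
    rw [div_mul_cancel₀ _ (irr_one_ne_zero β.1)]
    simp only [hcoeff]
    have h2 : ∑ c : C, secF S ϑ'.1 1 c * β.1.1 c =
        ∑ c : C, (if S.ρ c = 1 then β.1.1 c * conj (ϑ'.1.1 c) else 0) := by
      refine Finset.sum_congr rfl fun c _ => ?_
      simp only [secF]
      split_ifs
      · rw [mul_comm]
      · rw [zero_mul]
    rw [h2]
    have h6 := sum_section S (fun c => β.1.1 c * conj (ϑ'.1.1 c)) (by
      intro x c
      have e1 := β.2 x c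
      rw [MonoidHom.one_apply, Units.val_one, one_mul] at e1
      have e2 := ϑ'.2 x c
      rw [MonoidHom.one_apply, Units.val_one, one_mul] at e2
      show β.1.1 ((x : C) * c) * conj (ϑ'.1.1 ((x : C) * c)) = _
      rw [e1, e2]) 1
    rw [hP] at h6
    rw [h6]
    unfold classInner
    rw [← mul_assoc, mul_inv_cancel₀ hC0, one_mul]
  have h1 := hval ϑ
  have h2 := hval ϑ'
  rw [irr_inner, if_neg hne', mul_zero] at h1
  rw [irr_inner_self, mul_one] at h2
  have h3 : Cfsg.Agent.H20.omega ϑ.1.1 z = 0 := by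
    rcases mul_eq_zero.mp h1 with h | h
    · exact absurd h hp0
    · rcases mul_eq_zero.mp h with h | h
      · exact h
      · exact absurd h (irr_one_ne_zero ϑ.1)
  have h4 : Cfsg.Agent.H20.omega ϑ'.1.1 z * ϑ'.1.1 1 = (k : ℂ) := by
    apply mul_left_cancel₀ hp0
    rw [h2, hk']
    push_cast
    ring
  rw [h3, zero_sub] at key
  have h5 : MemLocalIdeal M ((k : ℕ) : ℂ) := by
    rw [← h4]
    have h6 := Cfsg.Agent.H20.memLocalIdeal_neg key
    rw [neg_neg] at h6
    rw [mul_comm]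
    apply Cfsg.Agent.H20.memLocalIdeal_mul_left hMp _ h6
    rw [irr_one_eq_charDegree]
    exact Cfsg.Agent.H20.memLocalRing_natCast hMp _
  apply hk
  rw [hk', Nat.mul_div_cancel_left k hp.pos]
  exact (Cfsg.Agent.H20.memLocalIdeal_natCast_iff hM k).mp h5

/-- The block of a character trivial on `P` consists of its twists. -/
theorem mem_blockOf_irr0 {M : Ideal AlgInt} (hM : IsPModular p M) (hP : Nat.card P = p)
    (hpC : p ∣ Nat.card C) (hk : ¬ p ∣ Nat.card C / p) (ϑ : Irr0 S) (ξ : IrrCharacter C) :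
    ξ ∈ blockOf M ϑ.1.1 ↔ ∃ μ : P.subgroupOf C →* ℂˣ, ξ = twI S μ ϑ.1 := by
  have hMp := Cfsg.Agent.H20.isPrime_of_isPModular hM
  constructor
  · intro hξ
    have hξ' : SameBlock M ϑ.1.1 ξ.1 := hξ
    obtain ⟨ω, ϑ', -, hϑ'⟩ := exists_tw_eq S ξ
    have h1 : SameBlock M ϑ'.1.1 ξ.1 := by
      rw [← hϑ']
      exact sameBlock_tw S hM hP ϑ'.1 ω
    have h2 : ϑ = ϑ' := irr0_eq_of_sameBlock S hM hP hpC hk ϑ ϑ'
      (Cfsg.Agent.H80.sameBlock_trans hMp hξ' (Cfsg.Agent.H80.sameBlock_symm h1))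
    refine ⟨ω, ?_⟩
    apply Subtype.ext
    rw [twI_val, h2, hϑ']
  · rintro ⟨μ, rfl⟩
    exact sameBlock_tw S hM hP ϑ.1 μ

/-- The idempotent coefficients of the block of a character trivial on `P`. -/
theorem blockCoeff_irr0 {M : Ideal AlgInt} (hM : IsPModular p M) (hP : Nat.card P = p)
    (hpC : p ∣ Nat.card C) (hk : ¬ p ∣ Nat.card C / p) (ϑ : Irr0 S) (c : C) :
    blockCoeff (blockOf M ϑ.1.1) c = (Nat.card C : ℂ)⁻¹ * (ϑ.1.1 1 * conj (ϑ.1.1 c) *
      if S.ρ c = 1 then (Fintype.card (P.subgroupOf C →* ℂˣ) : ℂ) else 0) := by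
  haveI : Finite (P.subgroupOf C) := Finite.of_fintype _
  unfold blockCoeff
  congr 1
  have hset : blockOf M ϑ.1.1 = Set.range (fun μ : P.subgroupOf C →* ℂˣ => twI S μ ϑ.1) := by
    ext ξ
    rw [mem_blockOf_irr0 S hM hP hpC hk ϑ ξ, Set.mem_range]
    constructor
    · rintro ⟨μ, rfl⟩
      exact ⟨μ, rfl⟩
    · rintro ⟨μ, rfl⟩
      exact ⟨μ, rfl⟩
  have hinj : Function.Injective (fun μ : P.subgroupOf C →* ℂˣ => twI S μ ϑ.1) := by
    intro μ μ' h
    have h1 : IsCen (twI S μ ϑ.1).1 μ := isCen_tw S μ ϑ.2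
    have h2 : IsCen (twI S μ' ϑ.1).1 μ' := isCen_tw S μ' ϑ.2
    have h3 : twI S μ ϑ.1 = twI S μ' ϑ.1 := h
    rw [h3] at h1
    exact IsCen.eq_of h1 h2 (irr_one_ne_zero (twI S μ' ϑ.1))
  rw [hset, finsum_mem_range hinj, finsum_eq_sum_of_fintype]
  have h4 : ∀ μ : P.subgroupOf C →* ℂˣ,
      (twI S μ ϑ.1).1 1 * conj ((twI S μ ϑ.1).1 c) =
        ϑ.1.1 1 * conj (ϑ.1.1 c) * conj ((μ (S.ρ c) : ℂˣ) : ℂ) := by
    intro μ
    simp only [twI_val, tw, map_one, Units.val_one, one_mul, map_mul]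
    ring
  rw [Finset.sum_congr rfl (fun μ _ => h4 μ), ← Finset.mul_sum, ← map_sum,
    sum_hom_apply (comm_sub S) (S.ρ c)]
  congr 1
  split_ifs
  · rw [Complex.conj_natCast]
  · rw [map_zero]

/-- **`setX` lies in the induced block.** -/
theorem mem_block_of_setX {M : Ideal AlgInt} (hM : IsPModular p M) (hP : Nat.card P = p)
    (hpC : p ∣ Nat.card C) (hk : ¬ p ∣ Nat.card C / p) (ϑ : Irr0 S) (χ₀ χ : IrrCharacter G)
    (hind : ∀ ξ ∈ blockOf M ϑ.1.1, ∀ g : G, MemLocalIdeal M
      (inducedCentralChar C ξ.1 g - centralChar χ₀.1 g))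
    (hχ : χ ∈ setX S ϑ) : χ ∈ blockOf M χ₀.1 := by
  haveI : Finite (P.subgroupOf C) := Finite.of_fintype _
  have hp : p.Prime := hM.1
  have hC0 : (Nat.card C : ℂ) ≠ 0 := cardC_ne_zero C
  by_contra hnot
  -- the section sums vanish
  have hT : ∀ y : P.subgroupOf C, y ≠ 1 →
      ∑ k : C, (if S.ρ k = 1 then conj (ϑ.1.1 k) * χ.1 ((k : G) * ((y : C) : G)) else 0) = 0 := by
    intro y hy
    have hyG : ((y : C) : G) ≠ 1 := by
      intro h1
      apply hy
      apply Subtype.ext
      apply Subtype.ext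
      exact h1
    have hyP : ((y : C) : G) ∈ P := Subgroup.mem_subgroupOf.mp y.2
    have hCx : ∀ z : G, IsPPart p ((y : C) : G) z →
        Subgroup.centralizer ({z} : Set G) ≤ C := by
      intro z hz
      have hself : IsPPart p ((y : C) : G) ((y : C) : G) := by
        refine ⟨1, mul_one _, Commute.one_right _, ?_, ?_⟩
        · have h1 : orderOf ((y : C) : G) ∣ p ^ 1 := by
            rw [pow_one]
            apply orderOf_dvd_of_pow_eq_one
            have hcard : Nat.card (P.subgroupOf C) = p := by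
              rw [Nat.card_congr (Subgroup.subgroupOfEquivOfLe S.hPC).toEquiv, hP]
            have h2 : y ^ Nat.card (P.subgroupOf C) = 1 := pow_card_eq_one'
            rw [hcard] at h2
            have h3 := congrArg (fun t : P.subgroupOf C => ((t : C) : G)) h2
            simpa using h3
          obtain ⟨k, -, hk2⟩ := (Nat.dvd_prime_pow hp).mp h1
          exact ⟨k, hk2⟩
        · rw [orderOf_one]
          exact fun h => hp.ne_one (Nat.dvd_one.mp h)
      have hzy : z = ((y : C) : G) := Cfsg.Agent.H84.isPPart_unique hp hz hself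
      rw [hzy]
      intro g hg
      have hcomm : g * ((y : C) : G) = ((y : C) : G) * g :=
        Subgroup.mem_centralizer_singleton_iff.mp hg
      have h1 : g * ((y : C) : G) * g⁻¹ = ((y : C) : G) := by
        rw [hcomm, mul_inv_cancel_right]
      have hgN : g ∈ N := by
        apply S.ti g ((y : C) : G) (y : C).2 (sing_of_ne_one S y hy)
        rw [h1]
        exact (y : C).2
      exact S.semi g hgN _ hyP hyG hcomm
    have h1 := Cfsg.Agent.H20.second_main_lemma hM C ϑ.1 χ₀ hind (y : C) hCx χ hnot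
    simp only [blockCoeff_irr0 S hM hP hpC hk ϑ] at h1
    have hcard : (Fintype.card (P.subgroupOf C →* ℂˣ) : ℂ) ≠ 0 := by
      have : 0 < Fintype.card (P.subgroupOf C →* ℂˣ) := Fintype.card_pos
      exact_mod_cast this.ne'
    have h2 : ∀ k : C, (Nat.card C : ℂ)⁻¹ * (ϑ.1.1 1 * conj (ϑ.1.1 k) *
        if S.ρ k = 1 then (Fintype.card (P.subgroupOf C →* ℂˣ) : ℂ) else 0) *
        χ.1 ((k : G) * ((y : C) : G)) =
        ((Nat.card C : ℂ)⁻¹ * ϑ.1.1 1 * (Fintype.card (P.subgroupOf C →* ℂˣ) : ℂ)) *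
        (if S.ρ k = 1 then conj (ϑ.1.1 k) * χ.1 ((k : G) * ((y : C) : G)) else 0) := by
      intro k
      split_ifs
      · ring
      · ring
    rw [Finset.sum_congr rfl (fun k _ => h2 k), ← Finset.mul_sum] at h1
    exact (mul_eq_zero.mp h1).resolve_left
      (mul_ne_zero (mul_ne_zero (inv_ne_zero hC0) (irr_one_ne_zero ϑ.1)) hcard)
  -- hence `χ` is orthogonal to all `ϑ - tw μ ϑ`
  have h0 : ∀ μ : {μ : P.subgroupOf C →* ℂˣ // μ ≠ 1},
      classInner (Gam S μ.1 ϑ.1.1) χ.1 = 0 := by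
    intro μ
    rw [inner_Gam S μ.1 ϑ.1.1 (irr_isClassFunction χ)]
    unfold classInner
    rw [mul_eq_zero]
    right
    have h1 : ∀ c : C, Fm S μ.1 ϑ.1.1 c * conj (χ.1 c) =
        ∑ y : P.subgroupOf C, (if S.ρ c = y then
          (1 - ((μ.1 y : ℂˣ) : ℂ)) * (ϑ.1.1 c * conj (χ.1 c)) else 0) := by
      intro c
      rw [Finset.sum_ite_eq Finset.univ (S.ρ c), if_pos (Finset.mem_univ _), Fm_apply]
      ring
    rw [Finset.sum_congr rfl (fun c _ => h1 c), Finset.sum_comm]
    apply Finset.sum_eq_zero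
    intro y _
    by_cases hy : y = 1
    · apply Finset.sum_eq_zero
      intro c _
      rw [hy, map_one, Units.val_one, sub_self, zero_mul]
      simp
    · have h2 : ∑ c : C, (if S.ρ c = y then
          (1 - ((μ.1 y : ℂˣ) : ℂ)) * (ϑ.1.1 c * conj (χ.1 c)) else 0) =
          (1 - ((μ.1 y : ℂˣ) : ℂ)) * conj (∑ c : C, (if S.ρ c = y then
            conj (ϑ.1.1 c) * χ.1 c else 0)) := by
        rw [map_sum, Finset.mul_sum]
        refine Finset.sum_congr rfl fun c _ => ?_
        split_ifs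
        · rw [map_mul, Complex.conj_conj]
        · rw [map_zero, mul_zero]
      rw [h2]
      have h3 : ∑ c : C, (if S.ρ c = y then conj (ϑ.1.1 c) * χ.1 c else 0) = 0 := by
        refine Eq.trans ?_ (hT y hy)
        rw [← Equiv.sum_comp (Equiv.mulRight (y : C))]
        refine Finset.sum_congr rfl fun k _ => ?_
        simp only [Equiv.coe_mulRight, map_mul, S.hρ]
        have e1 : ϑ.1.1 (k * (y : C)) = ϑ.1.1 k := by
          have e2 : k * (y : C) = (y : C) * k := by
            apply Subtype.ext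
            exact (S.cent _ (Subgroup.mem_subgroupOf.mp y.2) _ k.2).symm
          rw [e2]
          have e3 := ϑ.2 y k
          rw [MonoidHom.one_apply, Units.val_one, one_mul] at e3
          exact e3
        by_cases hk1 : S.ρ k = 1
        · rw [if_pos hk1, if_pos (by rw [hk1, one_mul]), e1]
          rfl
        · rw [if_neg hk1, if_neg (fun h' => hk1 (mul_eq_right.mp h'))]
      rw [h3, map_zero, mul_zero]
  simp only [setX, Finset.mem_filter, Finset.mem_univ, true_and] at hχ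
  obtain ⟨μ, hμ⟩ := hχ
  exact hμ (h0 μ)

end Cfsg.Agent.H82.P1
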