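import Cfsg.Agent.H82.P3E
import Cfsg.Agent.H82.P2C

/-!
# Sylow subgroups of prime order, part 3F: the structure of a block of defect one (helper82)

In the local setup with `|P| = p`: the block `B` of `G` induced from the block of `C` containing
the character `ϑ` trivial on `P` is the set of characters met by the `Gam μ ϑ`; it consists of
`e` non-exceptional characters and `(p - 1) / e` exceptional ones, `e` the index of `C` in the
stabilizer of `ϑ`.
-/

set_option autoImplicit false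
set_option linter.style.haveILetI false
set_option linter.unusedSectionVars false

namespace Cfsg.Agent.H82.P1

open Cfsg Cfsg.Agent.H4 Cfsg.Agent.H82 Cfsg.Agent.H82.BL Cfsg.Agent.Clifford
open scoped ComplexConjugate
open Classical

universe u

variable {G : Type u} [Group G] [Fintype G] {p : ℕ} {N C P : Subgroup G} [Fintype N] [Fintype C]
  (S : Setup p N C P)
  [Fintype (IrrCharacter G)] [Fintype (IrrCharacter N)] [Fintype (IrrCharacter C)]
  [Fintype (P.subgroupOf C)] [Fintype (P.subgroupOf C →* ℂˣ)]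

/-- **The structure of a block of defect one.** -/
theorem block_structure {M : Ideal AlgInt} (hM : IsPModular p M) (hP : Nat.card P = p)
    (hcyc : haveI := normal_CN S; IsCyclic (N ⧸ C.subgroupOf N))
    (heq : Fintype.card (IrrCharacter N) ≤
      (Finset.univ.filter fun χ : IrrCharacter G => ¬ Nat.card P ∣ charDegree χ.1).card)
    (hpC : p ∣ Nat.card C) (hk : ¬ p ∣ Nat.card C / p)
    (ϑ : Irr0 S) (e q : ℕ) (he : (stabT S ϑ.1).card = e * Nat.card C) (hq : e * q = ind S)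
    (B : Set (IrrCharacter G)) (b : Set (IrrCharacter C))
    (hind : IsInducedBlock M C b B) (hϑ : ϑ.1 ∈ b) :
    e ∣ p - 1 ∧
    ∃ (w : IrrCharacter G → ℤ) (Y : Finset (IrrCharacter G)) (s : ℤ),
      (∀ χ, χ ∈ B ↔ (w χ ≠ 0 ∨ χ ∈ Y)) ∧ (∀ χ ∈ Y, w χ = 0) ∧
      (Finset.univ.filter fun χ : IrrCharacter G => w χ ≠ 0).card = e ∧
      Y.card * e = p - 1 ∧ (s = 1 ∨ s = -1) ∧
      (∀ χ, w χ ≠ 0 →
        ((charDegree χ.1 : ℤ) ≡ ((q * charDegree ϑ.1.1 : ℕ) : ℤ) [ZMOD p] ∨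
          (charDegree χ.1 : ℤ) ≡ -((q * charDegree ϑ.1.1 : ℕ) : ℤ) [ZMOD p])) ∧
      (∀ ψ ∈ Y, (charDegree ψ.1 : ℤ) ≡ -s * ((ind S * charDegree ϑ.1.1 : ℕ) : ℤ) [ZMOD p]) ∧
      (∀ ψ ∈ Y, ∀ ψ' ∈ Y, ∀ g : G, ¬ p ∣ orderOf g → ψ.1 g = ψ'.1 g) := by
  have hp : p.Prime := hM.1
  have hMp := Cfsg.Agent.H20.isPrime_of_isPModular hM
  have hC : 0 < Nat.card C := Nat.card_pos
  have hdual : Fintype.card (P.subgroupOf C →* ℂˣ) = p := card_dual S hP
  -- a nontrivial character of `P`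
  obtain ⟨μ0⟩ : Nonempty {μ : P.subgroupOf C →* ℂˣ // μ ≠ 1} := by
    haveI : Nontrivial (P.subgroupOf C →* ℂˣ) := by
      rw [← Fintype.one_lt_card_iff_nontrivial, hdual]
      exact hp.one_lt
    obtain ⟨μ, hμ⟩ := exists_ne (1 : P.subgroupOf C →* ℂˣ)
    exact ⟨⟨μ, hμ⟩⟩
  obtain ⟨w, b', s, hw, hwc, hwb, hs, hbinj, hv⟩ := exists_wbs_gen S hp hcyc heq ϑ μ0
  -- the numbers
  have hsetA : (setA S ϑ.1).card = e := by
    have h1 := card_setA_mul S hcyc ϑ.1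
    rw [he] at h1
    exact Nat.eq_of_mul_eq_mul_right hC h1
  have he' : classInner ϑ.1.1 (trN S ϑ.1.1) = (e : ℂ) := by
    rw [card_setA S hcyc ϑ.1, hsetA]
  have he0 : e ≠ 0 := by
    intro h0
    rw [h0, zero_mul] at he
    have h1 : (1 : N) ∈ stabT S ϑ.1 := by
      rw [mem_stabT]
      funext c
      rw [cj_one_apply]
    rw [Finset.card_eq_zero] at he
    rw [he] at h1
    exact absurd h1 (Finset.notMem_empty _)
  have hsetB : (setB S ϑ).card * e = p - 1 := by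
    have h1 := card_setB_gen S ϑ
    rw [he, hdual, ← mul_assoc] at h1
    exact Nat.eq_of_mul_eq_mul_right hC h1
  have hediv : e ∣ p - 1 := Dvd.intro_left _ hsetB
  have hpe : ¬ p ∣ e := by
    have h1 : e ≤ p - 1 := Nat.le_of_dvd (Nat.sub_pos_of_lt hp.one_lt) hediv
    have h2 : e < p := lt_of_le_of_lt h1 (Nat.sub_lt hp.pos Nat.one_pos)
    exact Nat.not_dvd_of_pos_of_lt (Nat.pos_of_ne_zero he0) h2
  have hk2 : ¬ p ∣ (Nat.card C / p) * e := by
    intro h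
    rcases (hp.dvd_mul).mp h with h | h
    · exact hk h
    · exact hpe h
  have hs0 : s ≠ 0 := by
    rcases hs with h | h <;> rw [h] <;> norm_num
  -- the exceptional characters
  obtain ⟨Y, hY⟩ : ∃ Y : Finset (IrrCharacter G), Y = (setB S ϑ).image b' := ⟨_, rfl⟩
  have hYmem : ∀ χ, χ ∈ Y ↔ ∃ μ : {μ : P.subgroupOf C →* ℂˣ // μ ≠ 1}, χ = b' (LamN S μ ϑ) := by
    intro χ
    rw [hY]
    simp only [setB, Finset.mem_image, Finset.mem_univ, true_and]
    constructor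
    · rintro ⟨ξ, ⟨μ, rfl⟩, rfl⟩
      exact ⟨μ, rfl⟩
    · rintro ⟨μ, rfl⟩
      exact ⟨_, ⟨μ, rfl⟩, rfl⟩
  have hYcard : Y.card = (setB S ϑ).card := by
    rw [hY]
    apply Finset.card_image_of_injOn
    intro ξ hξ ξ' hξ' hb
    simp only [setB, Finset.coe_image, Finset.coe_univ, Set.image_univ, Set.mem_range] at hξ hξ'
    obtain ⟨μ, rfl⟩ := hξ
    obtain ⟨μ', rfl⟩ := hξ'
    exact hbinj μ μ' hb
  have hYw : ∀ χ ∈ Y, w χ = 0 := by
    intro χ hχ
    obtain ⟨μ, rfl⟩ := (hYmem χ).mp hχ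
    exact hwb μ
  -- `setX` in terms of `w` and `Y`
  have hX : ∀ χ, χ ∈ setX S ϑ ↔ (w χ ≠ 0 ∨ χ ∈ Y) := by
    intro χ
    simp only [setX, Finset.mem_filter, Finset.mem_univ, true_and]
    constructor
    · rintro ⟨μ, hμ⟩
      by_cases hχY : χ ∈ Y
      · exact Or.inr hχY
      · left
        rw [hv μ χ] at hμ
        have h1 : χ ≠ b' (LamN S μ ϑ) := fun h => hχY ((hYmem χ).mpr ⟨μ, h⟩)
        rw [if_neg h1, add_zero] at hμ
        exact_mod_cast hμ
    · rintro (hχ | hχ)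
      · refine ⟨μ0, ?_⟩
        rw [hv μ0 χ]
        have h1 : χ ≠ b' (LamN S μ0 ϑ) := by
          intro h
          apply hχ
          rw [h]
          exact hwb μ0
        rw [if_neg h1, add_zero]
        exact_mod_cast hχ
      · obtain ⟨μ, hμ⟩ := (hYmem χ).mp hχ
        refine ⟨μ, ?_⟩
        rw [hv μ χ, if_pos hμ, hYw χ hχ, zero_add]
        exact_mod_cast hs0
  -- the block is `setX`
  obtain ⟨hb, hB, hcong⟩ := hind
  obtain ⟨χ₀, hχ₀⟩ := hB
  obtain ⟨ξ', hξ'⟩ := hb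
  have hχ₀B : χ₀ ∈ B := by
    rw [hχ₀]
    exact Cfsg.Agent.H80.sameBlock_refl hMp _
  have hBX : ∀ χ, χ ∈ B ↔ χ ∈ setX S ϑ := by
    intro χ
    constructor
    · intro hχ
      exact mem_setX_of_induced S hM hP ϑ e he' hpC hk2 χ (hcong ϑ.1 hϑ χ hχ)
    · intro hχ
      rw [hχ₀]
      apply mem_block_of_setX S hM hP hpC hk ϑ χ₀ χ _ hχ
      intro ξ hξ g
      apply hcong ξ _ χ₀ hχ₀B g
      rw [hξ']
      have h1 : SameBlock M ξ'.1 ϑ.1.1 := by
        have := hϑ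
        rw [hξ'] at this
        exact this
      exact Cfsg.Agent.H80.sameBlock_trans hMp h1 hξ
  -- disjointness from the other families
  have hdisj : ∀ χ, χ ∈ setX S ϑ → ∀ ϑ' : Irr0 S, ¬ relN S ϑ ϑ' →
      ∀ μ : {μ : P.subgroupOf C →* ℂˣ // μ ≠ 1}, classInner (Gam S μ.1 ϑ'.1.1) χ.1 = 0 := by
    intro χ hχ ϑ' hr μ
    have h1 := (setX_facts S hcyc heq ϑ).2 ϑ' (fun h => hr (relN_symm S h))
    by_contra hne
    have h2 : χ ∈ setX S ϑ' := by
      simp only [setX, Finset.mem_filter, Finset.mem_univ, true_and]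
      exact ⟨μ, hne⟩
    exact (Finset.disjoint_left.mp h1) h2 hχ
  refine ⟨hediv, w, Y, s, ?_, hYw, ?_, ?_, hs, ?_, ?_, ?_⟩
  · intro χ
    rw [hBX χ, hX χ]
  · rw [hwc, hsetA]
  · rw [hYcard, hsetB]
  · intro χ hχ
    have hχY : χ ∉ Y := fun h => hχ (hYw χ h)
    have hz : ∀ μ : {μ : P.subgroupOf C →* ℂˣ // μ ≠ 1},
        classInner (Gam S μ.1 ϑ.1.1) χ.1 = ((w χ : ℤ) : ℂ) := by
      intro μ
      rw [hv μ χ]
      have h1 : χ ≠ b' (LamN S μ ϑ) := fun h => hχY ((hYmem χ).mpr ⟨μ, h⟩)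
      rw [if_neg h1, add_zero]
    have hval := value_sing_gen S ϑ e he' χ (w χ) hz
      (hdisj χ ((hX χ).mpr (Or.inl hχ)))
    have hdeg := deg_nonexc S hP ϑ e q he0 hq χ (w χ) hval
    rcases hw χ with h | h | h
    · exact absurd h hχ
    · left
      rw [h, one_mul] at hdeg
      exact hdeg
    · right
      rw [h, neg_one_mul] at hdeg
      exact hdeg
  · intro ψ hψ
    obtain ⟨μ₁, hμ₁⟩ := (hYmem ψ).mp hψ
    have hz : ∀ μ : {μ : P.subgroupOf C →* ℂˣ // μ ≠ 1},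
        classInner (Gam S μ.1 ϑ.1.1) ψ.1 = if LamN S μ ϑ = LamN S μ₁ ϑ then (s : ℂ) else 0 := by
      intro μ
      rw [hv μ ψ, hYw ψ hψ, zero_add]
      by_cases h : LamN S μ ϑ = LamN S μ₁ ϑ
      · rw [if_pos h, if_pos (by rw [hμ₁, h])]
      · rw [if_neg h, if_neg]
        · simp
        · intro h'
          rw [hμ₁] at h'
          exact h (hbinj μ₁ μ h').symm
    have hval := value_sing_exc S ϑ μ₁ ψ s hz (hdisj ψ ((hX ψ).mpr (Or.inr hψ)))
    exact deg_exc S hP ϑ μ₁ ψ s hval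
  · intro ψ hψ ψ' hψ' g hg
    obtain ⟨μ₁, hμ₁⟩ := (hYmem ψ).mp hψ
    obtain ⟨μ₂, hμ₂⟩ := (hYmem ψ').mp hψ'
    have h1 := reg_identity_gen S ϑ hv μ₁ g hg
    have h2 := reg_identity_gen S ϑ hv μ₂ g hg
    rw [← hμ₁] at h1
    rw [← hμ₂] at h2
    have hs0' : (s : ℂ) ≠ 0 := by exact_mod_cast hs0
    apply mul_left_cancel₀ hs0'
    linear_combination h1 - h2

end Cfsg.Agent.H82.P1
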