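import Cfsg.Agent.H82.P3F

/-!
# Sylow subgroups of prime order, part 3G: the full data of a block of defect one (helper82)

The same situation as in part 3F, with all the data exposed: the block is `setX ϑ`, the
multiplicities `w`, the exceptional characters `b' (LamN μ ϑ)`, the values on the singular
elements of `C` and the relation on the regular elements.
-/

set_option autoImplicit false
set_option linter.style.haveILetI false
set_option linter.unusedSectionVars false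

namespace Cfsg.Agent.H82.P1

open Cfsg Cfsg.Agent.H4 Cfsg.Agent.H82 Cfsg.Agent.H82.BL Cfsg.Agent.Clifford
open scoped ComplexConjugate
open Classical

universe u

variable {G : Type u} [Group G] [Fintype G] {p : ℕ} {N C P : Subgroup G} [Fintype N] [Fintype C]
  (S : Setup p N C P)
  [Fintype (IrrCharacter G)] [Fintype (IrrCharacter N)] [Fintype (IrrCharacter C)]
  [Fintype (P.subgroupOf C)] [Fintype (P.subgroupOf C →* ℂˣ)]

/-- **The full data of a block of defect one.** -/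
theorem block_full {M : Ideal AlgInt} (hM : IsPModular p M) (hP : Nat.card P = p)
    (hcyc : haveI := normal_CN S; IsCyclic (N ⧸ C.subgroupOf N))
    (heq : Fintype.card (IrrCharacter N) ≤
      (Finset.univ.filter fun χ : IrrCharacter G => ¬ Nat.card P ∣ charDegree χ.1).card)
    (hpC : p ∣ Nat.card C) (hk : ¬ p ∣ Nat.card C / p)
    (ϑ : Irr0 S) (e : ℕ) (he : (stabT S ϑ.1).card = e * Nat.card C)
    (B : Set (IrrCharacter G)) (b : Set (IrrCharacter C))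
    (hind : IsInducedBlock M C b B) (hϑ : ϑ.1 ∈ b) :
    e ≠ 0 ∧ e ∣ p - 1 ∧ (∀ χ, χ ∈ B ↔ χ ∈ setX S ϑ) ∧
    ∃ (w : IrrCharacter G → ℤ) (b' : IrrCharacter N → IrrCharacter G) (s : ℤ),
      (∀ χ, w χ = 0 ∨ w χ = 1 ∨ w χ = -1) ∧
      (Finset.univ.filter fun χ : IrrCharacter G => w χ ≠ 0).card = e ∧
      (∀ μ : {μ : P.subgroupOf C →* ℂˣ // μ ≠ 1}, w (b' (LamN S μ ϑ)) = 0) ∧
      (s = 1 ∨ s = -1) ∧
      (∀ μ μ' : {μ : P.subgroupOf C →* ℂˣ // μ ≠ 1},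
        b' (LamN S μ ϑ) = b' (LamN S μ' ϑ) → LamN S μ ϑ = LamN S μ' ϑ) ∧
      (∀ χ, χ ∈ B ↔ (w χ ≠ 0 ∨
        ∃ μ : {μ : P.subgroupOf C →* ℂˣ // μ ≠ 1}, χ = b' (LamN S μ ϑ))) ∧
      ((Finset.univ.image fun μ : {μ : P.subgroupOf C →* ℂˣ // μ ≠ 1} =>
        b' (LamN S μ ϑ)).card * e = p - 1) ∧
      (∀ χ, w χ ≠ 0 → ∀ c : C, p ∣ orderOf (c : G) →
        (e : ℂ) * χ.1 c = w χ * trN S ϑ.1.1 c) ∧
      (∀ (μ₁ : {μ : P.subgroupOf C →* ℂˣ // μ ≠ 1}) (c : C), p ∣ orderOf (c : G) →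
        (b' (LamN S μ₁ ϑ)).1 c = -(s : ℂ) * trN S (tw S μ₁.1 ϑ.1.1) c) ∧
      (∀ (μ : {μ : P.subgroupOf C →* ℂˣ // μ ≠ 1}) (g : G), ¬ p ∣ orderOf g →
        ∑ χ : IrrCharacter G, (w χ : ℂ) * χ.1 g + (s : ℂ) * (b' (LamN S μ ϑ)).1 g = 0) := by
  have hp : p.Prime := hM.1
  have hMp := Cfsg.Agent.H20.isPrime_of_isPModular hM
  have hC : 0 < Nat.card C := Nat.card_pos
  have hdual : Fintype.card (P.subgroupOf C →* ℂˣ) = p := card_dual S hP
  obtain ⟨μ0⟩ : Nonempty {μ : P.subgroupOf C →* ℂˣ // μ ≠ 1} := by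
    haveI : Nontrivial (P.subgroupOf C →* ℂˣ) := by
      rw [← Fintype.one_lt_card_iff_nontrivial, hdual]
      exact hp.one_lt
    obtain ⟨μ, hμ⟩ := exists_ne (1 : P.subgroupOf C →* ℂˣ)
    exact ⟨⟨μ, hμ⟩⟩
  obtain ⟨w, b', s, hw, hwc, hwb, hs, hbinj, hv⟩ := exists_wbs_gen S hp hcyc heq ϑ μ0
  have hsetA : (setA S ϑ.1).card = e := by
    have h1 := card_setA_mul S hcyc ϑ.1
    rw [he] at h1
    exact Nat.eq_of_mul_eq_mul_right hC h1
  have he' : classInner ϑ.1.1 (trN S ϑ.1.1) = (e : ℂ) := by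
    rw [card_setA S hcyc ϑ.1, hsetA]
  have he0 : e ≠ 0 := by
    intro h0
    rw [h0, zero_mul] at he
    have h1 : (1 : N) ∈ stabT S ϑ.1 := by
      rw [mem_stabT]
      funext c
      rw [cj_one_apply]
    rw [Finset.card_eq_zero] at he
    rw [he] at h1
    exact absurd h1 (Finset.notMem_empty _)
  have hsetB : (setB S ϑ).card * e = p - 1 := by
    have h1 := card_setB_gen S ϑ
    rw [he, hdual, ← mul_assoc] at h1
    exact Nat.eq_of_mul_eq_mul_right hC h1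
  have hediv : e ∣ p - 1 := Dvd.intro_left _ hsetB
  have hpe : ¬ p ∣ e := by
    have h1 : e ≤ p - 1 := Nat.le_of_dvd (Nat.sub_pos_of_lt hp.one_lt) hediv
    have h2 : e < p := lt_of_le_of_lt h1 (Nat.sub_lt hp.pos Nat.one_pos)
    exact Nat.not_dvd_of_pos_of_lt (Nat.pos_of_ne_zero he0) h2
  have hk2 : ¬ p ∣ (Nat.card C / p) * e := by
    intro h
    rcases (hp.dvd_mul).mp h with h | h
    · exact hk h
    · exact hpe h
  have hs0 : s ≠ 0 := by
    rcases hs with h | h <;> rw [h] <;> norm_num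
  have hYcard : (Finset.univ.image fun μ : {μ : P.subgroupOf C →* ℂˣ // μ ≠ 1} =>
      b' (LamN S μ ϑ)).card = (setB S ϑ).card := by
    have h1 : (Finset.univ.image fun μ : {μ : P.subgroupOf C →* ℂˣ // μ ≠ 1} =>
        b' (LamN S μ ϑ)) = (setB S ϑ).image b' := by
      simp only [setB, Finset.image_image]
      rfl
    rw [h1]
    apply Finset.card_image_of_injOn
    intro ξ hξ ξ' hξ' hb
    simp only [setB, Finset.coe_image, Finset.coe_univ, Set.image_univ, Set.mem_range] at hξ hξ'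
    obtain ⟨μ, rfl⟩ := hξ
    obtain ⟨μ', rfl⟩ := hξ'
    exact hbinj μ μ' hb
  have hX : ∀ χ, χ ∈ setX S ϑ ↔ (w χ ≠ 0 ∨
      ∃ μ : {μ : P.subgroupOf C →* ℂˣ // μ ≠ 1}, χ = b' (LamN S μ ϑ)) := by
    intro χ
    simp only [setX, Finset.mem_filter, Finset.mem_univ, true_and]
    constructor
    · rintro ⟨μ, hμ⟩
      by_cases hχY : ∃ μ : {μ : P.subgroupOf C →* ℂˣ // μ ≠ 1}, χ = b' (LamN S μ ϑ)
      · exact Or.inr hχY
      · left
        rw [hv μ χ] at hμ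
        have h1 : χ ≠ b' (LamN S μ ϑ) := fun h => hχY ⟨μ, h⟩
        rw [if_neg h1, add_zero] at hμ
        exact_mod_cast hμ
    · rintro (hχ | hχ)
      · refine ⟨μ0, ?_⟩
        rw [hv μ0 χ]
        have h1 : χ ≠ b' (LamN S μ0 ϑ) := by
          intro h
          apply hχ
          rw [h]
          exact hwb μ0
        rw [if_neg h1, add_zero]
        exact_mod_cast hχ
      · obtain ⟨μ, hμ⟩ := hχ
        refine ⟨μ, ?_⟩
        rw [hv μ χ, if_pos hμ, hμ, hwb μ, zero_add]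
        exact_mod_cast hs0
  obtain ⟨hb, hB, hcong⟩ := hind
  obtain ⟨χ₀, hχ₀⟩ := hB
  obtain ⟨ξ', hξ'⟩ := hb
  have hχ₀B : χ₀ ∈ B := by
    rw [hχ₀]
    exact Cfsg.Agent.H80.sameBlock_refl hMp _
  have hBX : ∀ χ, χ ∈ B ↔ χ ∈ setX S ϑ := by
    intro χ
    constructor
    · intro hχ
      exact mem_setX_of_induced S hM hP ϑ e he' hpC hk2 χ (hcong ϑ.1 hϑ χ hχ)
    · intro hχ
      rw [hχ₀]
      apply mem_block_of_setX S hM hP hpC hk ϑ χ₀ χ _ hχ
      intro ξ hξ g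
      apply hcong ξ _ χ₀ hχ₀B g
      rw [hξ']
      have h1 : SameBlock M ξ'.1 ϑ.1.1 := by
        have := hϑ
        rw [hξ'] at this
        exact this
      exact Cfsg.Agent.H80.sameBlock_trans hMp h1 hξ
  have hdisj : ∀ χ, χ ∈ setX S ϑ → ∀ ϑ' : Irr0 S, ¬ relN S ϑ ϑ' →
      ∀ μ : {μ : P.subgroupOf C →* ℂˣ // μ ≠ 1}, classInner (Gam S μ.1 ϑ'.1.1) χ.1 = 0 := by
    intro χ hχ ϑ' hr μ
    have h1 := (setX_facts S hcyc heq ϑ).2 ϑ' (fun h => hr (relN_symm S h))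
    by_contra hne
    have h2 : χ ∈ setX S ϑ' := by
      simp only [setX, Finset.mem_filter, Finset.mem_univ, true_and]
      exact ⟨μ, hne⟩
    exact (Finset.disjoint_left.mp h1) h2 hχ
  refine ⟨he0, hediv, hBX, w, b', s, hw, ?_, hwb, hs, hbinj, ?_, ?_, ?_, ?_, ?_⟩
  · rw [hwc, hsetA]
  · intro χ
    rw [hBX χ, hX χ]
  · rw [hYcard, hsetB]
  · intro χ hχ
    have hχY : ¬ ∃ μ : {μ : P.subgroupOf C →* ℂˣ // μ ≠ 1}, χ = b' (LamN S μ ϑ) := by
      rintro ⟨μ, hμ⟩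
      apply hχ
      rw [hμ]
      exact hwb μ
    have hz : ∀ μ : {μ : P.subgroupOf C →* ℂˣ // μ ≠ 1},
        classInner (Gam S μ.1 ϑ.1.1) χ.1 = ((w χ : ℤ) : ℂ) := by
      intro μ
      rw [hv μ χ]
      have h1 : χ ≠ b' (LamN S μ ϑ) := fun h => hχY ⟨μ, h⟩
      rw [if_neg h1, add_zero]
    exact value_sing_gen S ϑ e he' χ (w χ) hz (hdisj χ ((hX χ).mpr (Or.inl hχ)))
  · intro μ₁
    have hz : ∀ μ : {μ : P.subgroupOf C →* ℂˣ // μ ≠ 1},
        classInner (Gam S μ.1 ϑ.1.1) (b' (LamN S μ₁ ϑ)).1 =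
          if LamN S μ ϑ = LamN S μ₁ ϑ then (s : ℂ) else 0 := by
      intro μ
      rw [hv μ (b' (LamN S μ₁ ϑ)), hwb μ₁, zero_add]
      by_cases h : LamN S μ ϑ = LamN S μ₁ ϑ
      · rw [if_pos h, if_pos (by rw [h])]
      · rw [if_neg h, if_neg]
        · simp
        · intro h'
          exact h (hbinj μ₁ μ h').symm
    exact value_sing_exc S ϑ μ₁ (b' (LamN S μ₁ ϑ)) s hz
      (hdisj _ ((hX _).mpr (Or.inr ⟨μ₁, rfl⟩)))
  · intro μ g hg
    exact reg_identity_gen S ϑ hv μ g hg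

end Cfsg.Agent.H82.P1
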