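import Cfsg.Agent.H82.P3G
import Cfsg.Agent.H82.P2D

/-!
# Sylow subgroups of prime order, part 3H: power maps on a block of defect one (helper82)

For `k` prime to `|G|` fixing the `p`-regular elements: `g ↦ g ^ k` fixes the non-exceptional
characters and permutes the exceptional ones.
-/

set_option autoImplicit false
set_option linter.style.haveILetI false
set_option linter.unusedSectionVars false

namespace Cfsg.Agent.H82.P1

open Cfsg Cfsg.Agent.H4 Cfsg.Agent.H82 Cfsg.Agent.H82.BL Cfsg.Agent.Clifford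
open scoped ComplexConjugate
open Classical

universe u

variable {G : Type u} [Group G] [Fintype G] {p : ℕ} {N C P : Subgroup G} [Fintype N] [Fintype C]
  (S : Setup p N C P)
  [Fintype (IrrCharacter G)] [Fintype (IrrCharacter N)] [Fintype (IrrCharacter C)]
  [Fintype (P.subgroupOf C)] [Fintype (P.subgroupOf C →* ℂˣ)]

/-- Powers and twists. -/
theorem tw_pow (ϑ : Irr0 S) (μ₁ μ₂ : P.subgroupOf C →* ℂˣ) (k : ℕ)
    (hkreg : ∀ g : G, ¬ p ∣ orderOf g → g ^ k = g)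
    (hμ : ∀ x : P.subgroupOf C, μ₁ x ^ k = μ₂ x) (c : C) :
    tw S μ₁ ϑ.1.1 (c ^ k) = tw S μ₂ ϑ.1.1 c := by
  simp only [tw]
  have e1 : μ₁ (S.ρ (c ^ k)) = μ₂ (S.ρ c) := by
    rw [map_pow, map_pow, hμ]
  rw [e1]
  congr 1
  obtain ⟨x, hx⟩ : ∃ x : P.subgroupOf C, x = S.ρ c := ⟨_, rfl⟩
  obtain ⟨y, hy⟩ : ∃ y : C, y = (x : C)⁻¹ * c := ⟨_, rfl⟩
  have hy1 : S.ρ y = 1 := by
    rw [hy, map_mul, map_inv, S.hρ, hx, inv_mul_cancel]
  have hyreg : ¬ p ∣ orderOf (y : G) := (S.hreg y).mpr hy1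
  have hyk : y ^ k = y := by
    apply Subtype.ext
    rw [Subgroup.coe_pow]
    exact hkreg (y : G) hyreg
  have hc : c = (x : C) * y := by
    rw [hy, mul_inv_cancel_left]
  have hcomm : Commute (x : C) y := by
    apply Subtype.ext
    exact S.cent _ (Subgroup.mem_subgroupOf.mp x.2) _ y.2
  have e2 : c ^ k = ((x ^ k : P.subgroupOf C) : C) * y := by
    rw [hc, hcomm.mul_pow, hyk, Subgroup.coe_pow]
  rw [e2, ϑ.2 (x ^ k) y, hc, ϑ.2 x y]
  simp only [MonoidHom.one_apply]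

/-- Powers and traces of twists. -/
theorem trN_tw_pow (ϑ : Irr0 S) (μ₁ μ₂ : P.subgroupOf C →* ℂˣ) (k : ℕ)
    (hkreg : ∀ g : G, ¬ p ∣ orderOf g → g ^ k = g)
    (hμ : ∀ x : P.subgroupOf C, μ₁ x ^ k = μ₂ x) (c : C) :
    trN S (tw S μ₁ ϑ.1.1) (c ^ k) = trN S (tw S μ₂ ϑ.1.1) c := by
  simp only [trN]
  congr 1
  refine Finset.sum_congr rfl fun n _ => ?_
  rw [map_pow, tw_pow S ϑ μ₁ μ₂ k hkreg hμ]

/-- Powers prime to the group order preserve singularity. -/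
theorem sing_pow (k : ℕ) (hk : k.Coprime (Nat.card G)) (c : C) (hc : p ∣ orderOf (c : G)) :
    p ∣ orderOf ((c ^ k : C) : G) := by
  rw [Subgroup.coe_pow]
  have h1 : (orderOf (c : G)).Coprime k :=
    (Nat.Coprime.coprime_dvd_right (orderOf_dvd_natCard (c : G)) hk).symm
  rw [h1.orderOf_pow]
  exact hc

/-- A class function whose values on `C` are compatible with the power map. -/
theorem pow_of_C (S' : Setup p N C P) {F F' : G → ℂ} (hF : IsClassFunction G F) (hF' : IsClassFunction G F') (k : ℕ)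
    (hkreg : ∀ g : G, ¬ p ∣ orderOf g → g ^ k = g)
    (hreg : ∀ g : G, ¬ p ∣ orderOf g → F g = F' g)
    (hsing : ∀ c : C, p ∣ orderOf (c : G) → F ((c ^ k : C) : G) = F' c) (g : G) :
    F (g ^ k) = F' g := by
  by_cases hg : p ∣ orderOf g
  · obtain ⟨h, hh⟩ := S'.conjIn g hg
    have h1 : F (g ^ k) = F (h * g ^ k * h⁻¹) := (hF (g ^ k) h).symm
    have h2 : h * g ^ k * h⁻¹ = (h * g * h⁻¹) ^ k := (conj_pow).symm
    have h3 : p ∣ orderOf (((⟨h * g * h⁻¹, hh⟩ : C)) : G) := by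
      show p ∣ orderOf (h * g * h⁻¹)
      rw [orderOf_conj_left]
      exact hg
    have h4 := hsing ⟨h * g * h⁻¹, hh⟩ h3
    rw [Subgroup.coe_pow] at h4
    rw [h1, h2, h4]
    exact hF' g h
  · rw [hkreg g hg]
    exact hreg g hg

/-- The power map fixes the non-exceptional characters. -/
theorem nonexc_pow (ϑ : Irr0 S) (e : ℕ) (he0 : e ≠ 0) (χ : IrrCharacter G) (z : ℤ)
    (hval : ∀ c : C, p ∣ orderOf (c : G) → (e : ℂ) * χ.1 c = z * trN S ϑ.1.1 c)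
    (k : ℕ) (hk : k.Coprime (Nat.card G))
    (hkreg : ∀ g : G, ¬ p ∣ orderOf g → g ^ k = g) (g : G) :
    χ.1 (g ^ k) = χ.1 g := by
  apply pow_of_C S (irr_isClassFunction χ) (irr_isClassFunction χ) k hkreg (fun g _ => rfl)
  intro c hc
  have h1 := hval (c ^ k) (sing_pow k hk c hc)
  have h2 := trN_tw_pow S ϑ 1 1 k hkreg (fun x => by simp) c
  rw [tw_one] at h2
  rw [h2, ← hval c hc] at h1
  have he0' : (e : ℂ) ≠ 0 := by exact_mod_cast he0
  exact mul_left_cancel₀ he0' h1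

/-- The power map permutes the exceptional characters. -/
theorem exc_pow (ϑ : Irr0 S) (μ₁ μ₂ : P.subgroupOf C →* ℂˣ) (ψ ψ' : IrrCharacter G) (s : ℤ)
    (hψ : ∀ c : C, p ∣ orderOf (c : G) → ψ.1 c = -(s : ℂ) * trN S (tw S μ₁ ϑ.1.1) c)
    (hψ' : ∀ c : C, p ∣ orderOf (c : G) → ψ'.1 c = -(s : ℂ) * trN S (tw S μ₂ ϑ.1.1) c)
    (hreg : ∀ g : G, ¬ p ∣ orderOf g → ψ.1 g = ψ'.1 g)
    (k : ℕ) (hk : k.Coprime (Nat.card G))
    (hkreg : ∀ g : G, ¬ p ∣ orderOf g → g ^ k = g)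
    (hμ : ∀ x : P.subgroupOf C, μ₁ x ^ k = μ₂ x) (g : G) :
    ψ.1 (g ^ k) = ψ'.1 g := by
  apply pow_of_C S (irr_isClassFunction ψ) (irr_isClassFunction ψ') k hkreg hreg
  intro c hc
  rw [hψ (c ^ k) (sing_pow k hk c hc), hψ' c hc, trN_tw_pow S ϑ μ₁ μ₂ k hkreg hμ]

/-- Two nontrivial characters of `P` are powers of each other. -/
theorem exists_pow_hom (S' : Setup p N C P) (hp : p.Prime) (hP : Nat.card P = p) (μ₁ μ₂ : P.subgroupOf C →* ℂˣ)
    (hμ₁ : μ₁ ≠ 1) (hμ₂ : μ₂ ≠ 1) :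
    ∃ a : ℕ, ¬ p ∣ a ∧ ∀ x : P.subgroupOf C, μ₂ x = μ₁ x ^ a := by
  haveI : Fact p.Prime := ⟨hp⟩
  have hΛ : Nat.card (P.subgroupOf C →* ℂˣ) = p := by
    rw [Nat.card_eq_fintype_card]
    exact card_dual S' hP
  have htop : Subgroup.zpowers μ₁ = ⊤ := zpowers_eq_top_of_prime_card hΛ hμ₁
  obtain ⟨z, hz⟩ : ∃ z : ℤ, ∀ x : P.subgroupOf C, μ₂ x = μ₁ x ^ z := by
    have h1 : μ₂ ∈ Subgroup.zpowers μ₁ := by
      rw [htop]
      exact Subgroup.mem_top _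
    obtain ⟨z, hz⟩ := Subgroup.mem_zpowers_iff.mp h1
    refine ⟨z, fun x => ?_⟩
    rw [← hz]
    exact MonoidHom.zpow_apply μ₁ z x
  have hcardD : Nat.card (P.subgroupOf C) = p := by
    rw [Nat.card_congr (Subgroup.subgroupOfEquivOfLe S'.hPC).toEquiv, hP]
  have hpow : ∀ x : P.subgroupOf C, μ₁ x ^ p = 1 := by
    intro x
    have h1 := pow_card_eq_one' (G := P.subgroupOf C) (x := x)
    rw [hcardD] at h1
    rw [← map_pow, h1, map_one]
  have hp0 : (p : ℤ) ≠ 0 := by exact_mod_cast hp.pos.ne'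
  obtain ⟨a, ha⟩ : ∃ a : ℕ, ∀ x : P.subgroupOf C, μ₂ x = μ₁ x ^ a := by
    refine ⟨(z % (p : ℤ)).toNat, fun x => ?_⟩
    rw [← zpow_natCast, Int.toNat_of_nonneg (Int.emod_nonneg z hp0), hz x]
    conv_lhs => rw [← Int.emod_add_mul_ediv z p]
    rw [zpow_add, zpow_mul, zpow_natCast, hpow, one_zpow, mul_one]
  refine ⟨a, ?_, ha⟩
  rintro ⟨j, rfl⟩
  apply hμ₂
  ext x
  rw [ha x, pow_mul, hpow, one_pow]
  rfl

/-- A power prime to `p` of a nontrivial character of `P` is nontrivial. -/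
theorem pow_hom_ne_one (S' : Setup p N C P) (hP : Nat.card P = p) (μ : P.subgroupOf C →* ℂˣ) (hμ : μ ≠ 1) (k : ℕ)
    (hk : k.Coprime p) (μ' : P.subgroupOf C →* ℂˣ) (hμ' : ∀ x : P.subgroupOf C, μ x ^ k = μ' x) :
    μ' ≠ 1 := by
  intro h1
  apply hμ
  have hcardD : Nat.card (P.subgroupOf C) = p := by
    rw [Nat.card_congr (Subgroup.subgroupOfEquivOfLe S'.hPC).toEquiv, hP]
  ext x
  have h2 : μ x ^ p = 1 := by
    have h3 := pow_card_eq_one' (G := P.subgroupOf C) (x := x)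
    rw [hcardD] at h3
    rw [← map_pow, h3, map_one]
  have h4 : μ x ^ k = 1 := by
    rw [hμ' x, h1]
    rfl
  have h5 : orderOf (μ x) ∣ Nat.gcd k p :=
    Nat.dvd_gcd (orderOf_dvd_of_pow_eq_one h4) (orderOf_dvd_of_pow_eq_one h2)
  rw [hk] at h5
  have h6 : μ x = 1 := orderOf_eq_one_iff.mp (Nat.dvd_one.mp h5)
  rw [h6]
  rfl

end Cfsg.Agent.H82.P1
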