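import Cfsg.Agent.H7.RTDefs

/-!
# S2359, piece RT-DAB (helper82): `D_t` is abelian and centralizes `ψ(t)`
-/

set_option autoImplicit false

open Cfsg Cfsg.Lie

namespace Cfsg.Agent.H82.RT

open Cfsg.Agent.H22 Cfsg.Agent.H22.GEx Cfsg.Agent.H22.Ree Cfsg.Agent.H45.R2 Cfsg.Agent.H7.RC
  Cfsg.Agent.H7.RT Matrix

universe u

variable {K : Type u} [Field K] [Fintype K] [CharP K 3] {m : ℕ}

/-- **RT-DAB**. -/
theorem dAb (C : Ctx K (3 ^ m)) (hK : Fintype.card K = 3 ^ (2 * m + 1))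
    (hc : CommStmt (K := K)) (hmem : MemStmt C) (hac : ACommStmt C)
    (hdm : StDMem C hc hmem) (hT : StSL2Tor.{u}) : StDAb C hc hmem := by
  intro t ht1 hodd hdvd
  have hcomm : ∀ s : SpecialLinearGroup (Fin 2) K,
      aEl C * psiG C hc hmem s = psiG C hc hmem s * aEl C := aEl_comm C hc hmem hac
  have hKodd : Odd (Fintype.card K) := by
    rw [hK]
    exact Odd.pow (by decide)
  obtain ⟨hcyc, -⟩ := hT K hKodd t ht1 hodd (by rw [hK]; exact hdvd)
  have hCcomm : ∀ s₁ ∈ Subgroup.centralizer ({t} : Set (SpecialLinearGroup (Fin 2) K)),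
      ∀ s₂ ∈ Subgroup.centralizer ({t} : Set (SpecialLinearGroup (Fin 2) K)),
        s₁ * s₂ = s₂ * s₁ := by
    intro s₁ h₁ s₂ h₂
    obtain ⟨g, hg⟩ := hcyc.exists_generator
    obtain ⟨i, hi⟩ := Subgroup.mem_zpowers_iff.mp (hg ⟨s₁, h₁⟩)
    obtain ⟨j, hj⟩ := Subgroup.mem_zpowers_iff.mp (hg ⟨s₂, h₂⟩)
    have h3 : (⟨s₁, h₁⟩ : ↥(Subgroup.centralizer ({t} : Set (SpecialLinearGroup (Fin 2) K)))) *
        ⟨s₂, h₂⟩ = ⟨s₂, h₂⟩ * ⟨s₁, h₁⟩ := by
      rw [← hi, ← hj, ← _root_.zpow_add, ← _root_.zpow_add, add_comm]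
    exact congrArg Subtype.val h3
  have hψ : ∀ s₁ ∈ Subgroup.centralizer ({t} : Set (SpecialLinearGroup (Fin 2) K)),
      ∀ s₂ ∈ Subgroup.centralizer ({t} : Set (SpecialLinearGroup (Fin 2) K)),
        psiG C hc hmem s₁ * psiG C hc hmem s₂ = psiG C hc hmem s₂ * psiG C hc hmem s₁ := by
    intro s₁ h₁ s₂ h₂
    rw [← map_mul, ← map_mul, hCcomm s₁ h₁ s₂ h₂]
  constructor
  · intro y₁ hy₁ y₂ hy₂
    obtain ⟨s₁, h₁, e₁⟩ := (hdm t y₁).mp hy₁
    obtain ⟨s₂, h₂, e₂⟩ := (hdm t y₂).mp hy₂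
    have hp := hψ s₁ h₁ s₂ h₂
    rcases e₁ with rfl | rfl <;> rcases e₂ with rfl | rfl
    · exact hp
    · rw [← mul_assoc, ← hcomm s₁, mul_assoc, hp, mul_assoc]
    · rw [mul_assoc, hp, ← mul_assoc, hcomm s₂, mul_assoc]
    · calc aEl C * psiG C hc hmem s₁ * (aEl C * psiG C hc hmem s₂)
          = aEl C * (psiG C hc hmem s₁ * aEl C) * psiG C hc hmem s₂ := by
            simp only [mul_assoc]
        _ = aEl C * (aEl C * psiG C hc hmem s₁) * psiG C hc hmem s₂ := by rw [hcomm s₁]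
        _ = aEl C * aEl C * (psiG C hc hmem s₁ * psiG C hc hmem s₂) := by
            simp only [mul_assoc]
        _ = aEl C * aEl C * (psiG C hc hmem s₂ * psiG C hc hmem s₁) := by rw [hp]
        _ = aEl C * (aEl C * psiG C hc hmem s₂) * psiG C hc hmem s₁ := by
            simp only [mul_assoc]
        _ = aEl C * (psiG C hc hmem s₂ * aEl C) * psiG C hc hmem s₁ := by rw [hcomm s₂]
        _ = aEl C * psiG C hc hmem s₂ * (aEl C * psiG C hc hmem s₁) := by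
            simp only [mul_assoc]
  · intro y hy
    obtain ⟨s, hs, e⟩ := (hdm t y).mp hy
    have ht : t ∈ Subgroup.centralizer ({t} : Set (SpecialLinearGroup (Fin 2) K)) := by
      rw [Subgroup.mem_centralizer_iff]
      intro h hh
      rw [Set.mem_singleton_iff] at hh
      rw [hh]
    have hp := hψ s hs t ht
    rcases e with rfl | rfl
    · exact hp
    · rw [mul_assoc, hp, ← mul_assoc, hcomm t, mul_assoc]

example (C : Ctx K (3 ^ m)) (hK : Fintype.card K = 3 ^ (2 * m + 1))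
    (hc : CommStmt (K := K)) (hmem : MemStmt C) (hac : ACommStmt C)
    (hdm : StDMem C hc hmem) (hT : StSL2Tor.{u}) : Cfsg.Agent.H7.RT.StDAb C hc hmem :=
  dAb C hK hc hmem hac hdm hT

end Cfsg.Agent.H82.RT
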