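import Cfsg.Agent.H82.RTLift

/-!
# S2359, piece RT-DCENT (helper82): `C_G(ψ(t)) ∩ C_G(a) ⊆ D_t`
-/

set_option autoImplicit false

open Cfsg Cfsg.Lie

namespace Cfsg.Agent.H82.RT

open Cfsg.Agent.H22 Cfsg.Agent.H22.GEx Cfsg.Agent.H22.Ree Cfsg.Agent.H45.R2 Cfsg.Agent.H7.RC
  Cfsg.Agent.H7.RT Matrix

universe u

variable {K : Type u} [Field K] [CharP K 3]

/-- **RT-DCENT**. -/
theorem dCent {e : ℕ} (C : Ctx K e) (hc : CommStmt (K := K)) (hmem : MemStmt C)
    (hac : ACommStmt C) (hk : KerStmt C) (hcent : CentStmt C) (hdm : StDMem C hc hmem) :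
    StDCent C hc hmem := by
  intro t ht1 hodd y hyt hya
  have hcomm : ∀ s : SpecialLinearGroup (Fin 2) K,
      aEl C * psiG C hc hmem s = psiG C hc hmem s * aEl C := aEl_comm C hc hmem hac
  obtain ⟨s, hs⟩ := cent_aEl C hc hmem hcent y hya
  have hst : psiG C hc hmem s * psiG C hc hmem t = psiG C hc hmem t * psiG C hc hmem s := by
    rcases hs with rfl | rfl
    · exact hyt
    · have h1 : aEl C * (psiG C hc hmem s * psiG C hc hmem t) =
          aEl C * (psiG C hc hmem t * psiG C hc hmem s) := by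
        rw [← mul_assoc, hyt, ← mul_assoc, ← hcomm t, mul_assoc]
      exact mul_left_cancel h1
  have hker : psiG C hc hmem (s * t * s⁻¹ * t⁻¹) = 1 := by
    rw [map_mul, map_mul, map_mul, map_inv, map_inv, hst, mul_inv_cancel_right, mul_inv_cancel]
  have hsC : s ∈ Subgroup.centralizer ({t} : Set (SpecialLinearGroup (Fin 2) K)) := by
    rw [Subgroup.mem_centralizer_iff]
    intro h hh
    rw [Set.mem_singleton_iff] at hh
    subst hh
    rcases psiG_eq_one C hc hmem hk _ hker with h1 | h1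
    · have h2 : s * h * s⁻¹ = h := mul_inv_eq_one.mp h1
      exact (mul_inv_eq_iff_eq_mul.mp h2).symm
    · exfalso
      have h2 : s * h * s⁻¹ = -h := by
        have h3 := mul_inv_eq_iff_eq_mul.mp h1
        rw [h3, neg_one_mul]
      have h4 : (-h) ^ orderOf h = 1 := by
        rw [← h2, conj_pow, pow_orderOf_eq_one, mul_one, mul_inv_cancel]
      rw [hodd.neg_pow, pow_orderOf_eq_one] at h4
      exact sl2_neg_one_ne_one h4
  rw [hdm t y]
  exact ⟨s, hsC, hs⟩

example {e : ℕ} (C : Ctx K e) (hc : CommStmt (K := K)) (hmem : MemStmt C)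
    (hac : ACommStmt C) (hk : KerStmt C) (hcent : CentStmt C) (hdm : StDMem C hc hmem) :
    Cfsg.Agent.H7.RT.StDCent C hc hmem := dCent C hc hmem hac hk hcent hdm

end Cfsg.Agent.H82.RT
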