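import Cfsg.Agent.H7.RTDefs

/-!
# S2359, piece RT-DMEM (helper82): the elements of `D_t = ψ(C(t)) ⟨a⟩`
-/

set_option autoImplicit false

open Cfsg Cfsg.Lie

namespace Cfsg.Agent.H82.RT

open Cfsg.Agent.H22 Cfsg.Agent.H22.GEx Cfsg.Agent.H22.Ree Cfsg.Agent.H45.R2 Cfsg.Agent.H7.RC
  Cfsg.Agent.H7.RT Matrix

universe u

variable {K : Type u} [Field K] [CharP K 3]

/-- **RT-DMEM**. -/
theorem dMem {e : ℕ} (C : Ctx K e) (hc : CommStmt (K := K)) (hmem : MemStmt C)
    (hac : ACommStmt C) : StDMem C hc hmem := by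
  intro t y
  have hcomm : ∀ s : SpecialLinearGroup (Fin 2) K,
      aEl C * psiG C hc hmem s = psiG C hc hmem s * aEl C := aEl_comm C hc hmem hac
  have haa : aEl C * aEl C = 1 := aEl_mul_self C
  constructor
  · intro hy
    let D' : Subgroup ↥(twistedG2 K e) :=
      { carrier := {y | ∃ s ∈ Subgroup.centralizer ({t} : Set (SpecialLinearGroup (Fin 2) K)),
          y = psiG C hc hmem s ∨ y = aEl C * psiG C hc hmem s}
        mul_mem' := by
          rintro y₁ y₂ ⟨s₁, hs₁, h₁⟩ ⟨s₂, hs₂, h₂⟩
          refine ⟨s₁ * s₂, Subgroup.mul_mem _ hs₁ hs₂, ?_⟩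
          rcases h₁ with rfl | rfl <;> rcases h₂ with rfl | rfl
          · left
            rw [map_mul]
          · right
            rw [map_mul, ← mul_assoc, ← hcomm s₁, mul_assoc]
          · right
            rw [map_mul, mul_assoc]
          · left
            rw [map_mul]
            calc aEl C * psiG C hc hmem s₁ * (aEl C * psiG C hc hmem s₂)
                = aEl C * (psiG C hc hmem s₁ * aEl C) * psiG C hc hmem s₂ := by
                  simp only [mul_assoc]
              _ = aEl C * (aEl C * psiG C hc hmem s₁) * psiG C hc hmem s₂ := by rw [hcomm s₁]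
              _ = (aEl C * aEl C) * psiG C hc hmem s₁ * psiG C hc hmem s₂ := by
                  simp only [mul_assoc]
              _ = psiG C hc hmem s₁ * psiG C hc hmem s₂ := by rw [haa, one_mul]
        one_mem' := ⟨1, Subgroup.one_mem _, Or.inl (map_one _).symm⟩
        inv_mem' := by
          rintro y₁ ⟨s₁, hs₁, h₁⟩
          refine ⟨s₁⁻¹, Subgroup.inv_mem _ hs₁, ?_⟩
          rcases h₁ with rfl | rfl
          · left
            rw [map_inv]
          · right
            rw [_root_.mul_inv_rev, aEl_inv, ← map_inv, hcomm] }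
    have hle : DSub C hc hmem t ≤ D' := by
      unfold DSub
      apply sup_le
      · rintro z ⟨s, hs, rfl⟩
        exact ⟨s, hs, Or.inl rfl⟩
      · rw [Subgroup.zpowers_le]
        exact ⟨1, Subgroup.one_mem _, Or.inr (by rw [map_one, mul_one])⟩
    exact hle hy
  · rintro ⟨s, hs, rfl | rfl⟩
    · exact (le_sup_left : _ ≤ DSub C hc hmem t) (Subgroup.mem_map_of_mem _ hs)
    · exact Subgroup.mul_mem _
        ((le_sup_right : _ ≤ DSub C hc hmem t) (Subgroup.mem_zpowers (aEl C)))
        ((le_sup_left : _ ≤ DSub C hc hmem t) (Subgroup.mem_map_of_mem _ hs))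

example {e : ℕ} (C : Ctx K e) (hc : CommStmt (K := K)) (hmem : MemStmt C)
    (hac : ACommStmt C) : Cfsg.Agent.H7.RT.StDMem C hc hmem := dMem C hc hmem hac

end Cfsg.Agent.H82.RT
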