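import Cfsg.Agent.H7.RTDefs

/-!
# S2359, piece RT-LIFT (helper82): elements of odd order of `C_G(a)` lift to `SL₂`
-/

set_option autoImplicit false

open Cfsg Cfsg.Lie

namespace Cfsg.Agent.H82.RT

open Cfsg.Agent.H22 Cfsg.Agent.H22.GEx Cfsg.Agent.H22.Ree Cfsg.Agent.H45.R2 Cfsg.Agent.H7.RC
  Cfsg.Agent.H7.RT Matrix

universe u

variable {K : Type u} [Field K] [CharP K 3]

/-- `-1 ≠ 1` in `SL₂(K)`, characteristic `3`. -/
theorem sl2_neg_one_ne_one : (-1 : SpecialLinearGroup (Fin 2) K) ≠ 1 := by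
  intro h
  have h1 := congrArg (fun g : SpecialLinearGroup (Fin 2) K => g.1 0 0) h
  simp at h1
  have h2 : ((2 : ℕ) : K) = 0 := by
    have : (2 : K) = 1 + 1 := by norm_num
    push_cast
    rw [this]
    linear_combination -h1
  have h3 := (CharP.cast_eq_zero_iff K 3 2).mp h2
  omega

/-- The centralizer of `a` in terms of `psiG`. -/
theorem cent_aEl {e : ℕ} (C : Ctx K e) (hc : CommStmt (K := K)) (hmem : MemStmt C)
    (hcent : CentStmt C) (x : ↥(twistedG2 K e)) (hx : x * aEl C = aEl C * x) :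
    ∃ s : SpecialLinearGroup (Fin 2) K, x = psiG C hc hmem s ∨ x = aEl C * psiG C hc hmem s := by
  have h1 : (x : GL chevG2.Idx K) * (C.hh (-1) (-1) : GL chevG2.Idx K) =
      (C.hh (-1) (-1) : GL chevG2.Idx K) * (x : GL chevG2.Idx K) := by
    have := congrArg Subtype.val hx
    exact this
  obtain ⟨s, hs | hs⟩ := hcent (x : GL chevG2.Idx K) x.2 h1
  · exact ⟨s, Or.inl (Subtype.ext hs)⟩
  · exact ⟨s, Or.inr (Subtype.ext hs)⟩

/-- **RT-LIFT**. -/
theorem lift {e : ℕ} (C : Ctx K e) (hc : CommStmt (K := K)) (hmem : MemStmt C)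
    (hac : ACommStmt C) (hk : KerStmt C) (hcent : CentStmt C) : StLift C hc hmem := by
  intro x hx1 hodd hxa
  have hcomm : ∀ s : SpecialLinearGroup (Fin 2) K,
      aEl C * psiG C hc hmem s = psiG C hc hmem s * aEl C := aEl_comm C hc hmem hac
  have haa : aEl C * aEl C = 1 := aEl_mul_self C
  obtain ⟨s, hs | hs⟩ := cent_aEl C hc hmem hcent x hxa
  · have hpow : psiG C hc hmem (s ^ orderOf x) = 1 := by
      rw [map_pow, ← hs, pow_orderOf_eq_one]
    rcases psiG_eq_one C hc hmem hk _ hpow with h1 | h1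
    · refine ⟨s, hs.symm, ?_, orderOf_dvd_of_pow_eq_one h1⟩
      rintro rfl
      apply hx1
      rw [hs, map_one]
    · refine ⟨-s, ?_, ?_, ?_⟩
      · rw [← neg_one_mul, map_mul, psiG_neg_one C hc hmem hk, one_mul, hs]
      · intro h
        apply hx1
        have h2 : psiG C hc hmem (-s) = x := by
          rw [← neg_one_mul, map_mul, psiG_neg_one C hc hmem hk, one_mul, hs]
        rw [← h2, h, map_one]
      · apply orderOf_dvd_of_pow_eq_one
        rw [hodd.neg_pow, h1, _root_.neg_neg]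
  · exfalso
    have hpow : (aEl C * psiG C hc hmem s) ^ orderOf x = 1 := by
      rw [← hs, pow_orderOf_eq_one]
    have hc1 : Commute (aEl C) (psiG C hc hmem s) := hcomm s
    rw [hc1.mul_pow] at hpow
    obtain ⟨k, hk'⟩ := hodd
    have ha : aEl C ^ orderOf x = aEl C := by
      rw [hk', pow_succ, pow_mul, pow_two, haa, one_pow, one_mul]
    rw [ha, ← map_pow] at hpow
    have h3 : psiG C hc hmem (s ^ orderOf x) = aEl C := by
      have h4 := eq_inv_of_mul_eq_one_right hpow
      rw [h4, aEl_inv]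
    exact psiG_ne_aEl C hc hmem hk _ h3

example {e : ℕ} (C : Ctx K e) (hc : CommStmt (K := K)) (hmem : MemStmt C)
    (hac : ACommStmt C) (hk : KerStmt C) (hcent : CentStmt C) :
    Cfsg.Agent.H7.RT.StLift C hc hmem := lift C hc hmem hac hk hcent

end Cfsg.Agent.H82.RT
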