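import Cfsg.Agent.H42.SpnDefs

set_option autoImplicit false

/-!
Piece SPN-CAY (U8) of the team project S5956 (helper42): the Cayley transform of a nilpotent
skew endomorphism is a unipotent isometry with the same kernels.
-/

namespace Cfsg.Agent.H82.Spn

open Cfsg.Agent.H45 Cfsg.Agent.H42.Spd Cfsg.Agent.H42.Spn Module

universe u v

theorem cay : Cfsg.Agent.H42.Spn.StCay.{u, v} := by
  intro F _ V _ _ B N h2 hnil hskew
  obtain ⟨k, hk⟩ := hnil
  have hS1 : (1 - N) * (∑ i ∈ Finset.range k, N ^ i) = 1 := by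
    rw [mul_neg_geom_sum, hk, sub_zero]
  have hS2 : (∑ i ∈ Finset.range k, N ^ i) * (1 - N) = 1 := by
    rw [geom_sum_mul_neg, hk, sub_zero]
  have hNS : Commute N (∑ i ∈ Finset.range k, N ^ i) :=
    Commute.sum_right _ _ _ (fun i _ => (Commute.refl N).pow_right i)
  generalize (∑ i ∈ Finset.range k, N ^ i) = S at hS1 hS2 hNS
  have hkey : ∀ a b : V, B ((1 + N) a) ((1 + N) b) = B ((1 - N) a) ((1 - N) b) := by
    intro a b
    simp only [LinearMap.add_apply, LinearMap.sub_apply, Module.End.one_apply, map_add, map_sub,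
      hskew]
    ring
  have hW1 : (1 + N) * S - 1 = ((2 : F) • S) * N := by
    calc (1 + N) * S - 1 = (1 + N) * S - (1 - N) * S := by rw [hS1]
      _ = ((2 : F) • N) * S := by
          rw [← sub_mul]
          congr 1
          rw [two_smul]
          abel
      _ = ((2 : F) • S) * N := by
          rw [smul_mul_assoc, smul_mul_assoc, hNS.eq]
  have hLW : ((2 : F)⁻¹ • (1 - N)) * ((2 : F) • S) = 1 := by
    rw [smul_mul_assoc, mul_smul_comm, smul_smul, inv_mul_cancel₀ h2, one_smul, hS1]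
  have hWL : ((2 : F) • S) * ((2 : F)⁻¹ • (1 - N)) = 1 := by
    rw [smul_mul_assoc, mul_smul_comm, smul_smul, mul_inv_cancel₀ h2, one_smul, hS2]
  have hWN : Commute ((2 : F) • S) N := hNS.symm.smul_left (2 : F)
  have hLWc : Commute ((2 : F)⁻¹ • (1 - N)) ((2 : F) • S) := hLW.trans hWL.symm
  have hpow : ∀ e : ℕ, ((1 + N) * S - 1) ^ e = ((2 : F) • S) ^ e * N ^ e := by
    intro e
    rw [hW1, hWN.mul_pow]
  have hinv : ∀ e : ℕ, ((2 : F)⁻¹ • (1 - N)) ^ e * ((2 : F) • S) ^ e = 1 := by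
    intro e
    rw [← hLWc.mul_pow, hLW, one_pow]
  refine ⟨(1 + N) * S, ?_, ?_, ?_⟩
  · intro x y
    have h1 := hkey (S x) (S y)
    have e1 : ∀ z : V, (1 - N) (S z) = z := by
      intro z
      have h3 := congrArg (fun f : Module.End F V => f z) hS1
      exact h3
    rw [e1, e1] at h1
    exact h1
  · intro e
    ext x
    rw [LinearMap.mem_ker, LinearMap.mem_ker, hpow e]
    constructor
    · intro hx
      have h3 : (((2 : F)⁻¹ • (1 - N)) ^ e * ((2 : F) • S) ^ e) ((N ^ e) x) = 0 := by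
        show (((2 : F)⁻¹ • (1 - N)) ^ e) ((((2 : F) • S) ^ e) ((N ^ e) x)) = 0
        have hx' : (((2 : F) • S) ^ e) ((N ^ e) x) = 0 := hx
        rw [hx', map_zero]
      rw [hinv e] at h3
      exact h3
    · intro hx
      show (((2 : F) • S) ^ e) ((N ^ e) x) = 0
      rw [hx, map_zero]
  · intro k' hk'
    rw [hpow k', hk', mul_zero]

end Cfsg.Agent.H82.Spn
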