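import Cfsg.Agent.H82.SpnCycLemma

set_option autoImplicit false

/-!
Piece SPN-UCYC1 (U2) of the team project S5956 (helper42): a cyclic nondegenerate block.
-/

namespace Cfsg.Agent.H82.Spn

open Cfsg.Agent.H45 Cfsg.Agent.H42.Spd Cfsg.Agent.H42.Spn Module

universe u v

theorem uniCyc1 : Cfsg.Agent.H42.Spn.StUniCyc1.{u, v} := by
  intro F _ _ V _ _ _ B T hI W hW e he u hu hNu hB
  obtain ⟨P, hPW, hNd, hfin⟩ := cyc_master (ι := Fin 1) B T hI W hW e he (fun _ => u)
    (fun _ => hu) (fun _ => hNu) (by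
      intro c hc
      have h0 := hc 0
      rw [Fin.sum_univ_one, map_smul, smul_eq_mul] at h0
      funext k
      have hk : k = 0 := Subsingleton.elim _ _
      subst hk
      rcases mul_eq_zero.mp h0 with h | h
      · exact h
      · exact absurd h hB)
  refine ⟨P, hPW, hNd, fun j => ?_⟩
  rw [hfin j, Fintype.card_fin, one_mul]

end Cfsg.Agent.H82.Spn
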