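import Cfsg.Agent.H82.SpnCycLemma

set_option autoImplicit false

/-!
Piece SPN-UCYC2 (U3) of the team project S5956 (helper42): a nondegenerate pair of cyclic
blocks.
-/

namespace Cfsg.Agent.H82.Spn

open Cfsg.Agent.H45 Cfsg.Agent.H42.Spd Cfsg.Agent.H42.Spn Module

universe u v

theorem uniCyc2 : Cfsg.Agent.H42.Spn.StUniCyc2.{u, v} := by
  intro F _ _ V _ _ _ B T hI W hW e he u hu v hv hNu hNv hBuu hBvv hBuv hBvu
  obtain ⟨P, hPW, hNd, hfin⟩ := cyc_master (ι := Fin 2) B T hI W hW e he ![u, v]
    (by
      intro k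
      fin_cases k
      · exact hu
      · exact hv)
    (by
      intro k
      fin_cases k
      · exact hNu
      · exact hNv)
    (by
      intro c hc
      have h0 := hc 0
      have h1 := hc 1
      simp only [Fin.sum_univ_two, Matrix.cons_val_zero, Matrix.cons_val_one, map_add, map_smul,
        smul_eq_mul, hBuu, hBvv, mul_zero, zero_add, add_zero] at h0 h1
      funext k
      fin_cases k
      · exact (mul_eq_zero.mp h1).resolve_right hBvu
      · exact (mul_eq_zero.mp h0).resolve_right hBuv)
  refine ⟨P, hPW, hNd, fun j => ?_⟩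
  rw [hfin j, Fintype.card_fin]

end Cfsg.Agent.H82.Spn
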