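import Mathlib

set_option autoImplicit false

/-!
Piece S5965-RAT of the team project S5965 (helper99): an irreducible monic factor of `X ^ r - 1`
over a finite field `F` of order `q₀ ^ r` has its coefficients in the subfield of order `q₀`.
-/

open scoped MatrixGroups

namespace Cfsg.Agent.H82.Sub

variable {F : Type*} [Field F] [Fintype F]

/-- Elements fixed by `a ↦ a ^ |F₀|` lie in the subfield `F₀`. -/
theorem mem_subfield_of_pow_card_eq (F₀ : Subfield F) (a : F) (h : a ^ Nat.card ↥F₀ = a) :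
    a ∈ F₀ := by
  classical
  haveI : Fintype ↥F₀ := Fintype.ofFinite _
  have hq₀2 : 1 < Nat.card ↥F₀ := Finite.one_lt_card
  have hf0 : (Polynomial.X ^ Nat.card ↥F₀ - Polynomial.X : Polynomial F) ≠ 0 :=
    FiniteField.X_pow_card_sub_X_ne_zero F hq₀2
  have hfdeg : (Polynomial.X ^ Nat.card ↥F₀ - Polynomial.X : Polynomial F).natDegree
      = Nat.card ↥F₀ := FiniteField.X_pow_card_sub_X_natDegree_eq F hq₀2
  have hIcard : (Finset.univ.image (fun x : ↥F₀ => (x : F))).card = Nat.card ↥F₀ := by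
    rw [Finset.card_image_of_injective _ Subtype.val_injective, Finset.card_univ,
      Nat.card_eq_fintype_card]
  have hIsub : Finset.univ.image (fun x : ↥F₀ => (x : F))
      ⊆ (Polynomial.X ^ Nat.card ↥F₀ - Polynomial.X : Polynomial F).roots.toFinset := by
    intro x hx
    obtain ⟨y, -, rfl⟩ := Finset.mem_image.1 hx
    rw [Multiset.mem_toFinset, Polynomial.mem_roots hf0]
    have h1 : (y : F) ^ Nat.card ↥F₀ = y := by
      have h2 := FiniteField.pow_card y
      rw [← Nat.card_eq_fintype_card] at h2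
      exact_mod_cast congrArg Subtype.val h2
    rw [Polynomial.IsRoot.def, Polynomial.eval_sub, Polynomial.eval_pow, Polynomial.eval_X, h1,
      sub_self]
  have hle : (Polynomial.X ^ Nat.card ↥F₀ - Polynomial.X : Polynomial F).roots.toFinset.card
      ≤ (Finset.univ.image (fun x : ↥F₀ => (x : F))).card := by
    rw [hIcard]
    calc (Polynomial.X ^ Nat.card ↥F₀ - Polynomial.X : Polynomial F).roots.toFinset.card
        ≤ Multiset.card (Polynomial.X ^ Nat.card ↥F₀ - Polynomial.X : Polynomial F).roots :=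
          Multiset.toFinset_card_le _
      _ ≤ (Polynomial.X ^ Nat.card ↥F₀ - Polynomial.X : Polynomial F).natDegree :=
          Polynomial.card_roots' _
      _ = Nat.card ↥F₀ := hfdeg
  have heq := Finset.eq_of_subset_of_card_le hIsub hle
  have ha : a ∈ (Polynomial.X ^ Nat.card ↥F₀ - Polynomial.X : Polynomial F).roots.toFinset := by
    rw [Multiset.mem_toFinset, Polynomial.mem_roots hf0]
    rw [Polynomial.IsRoot.def, Polynomial.eval_sub, Polynomial.eval_pow, Polynomial.eval_X, h,
      sub_self]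
  rw [← heq] at ha
  obtain ⟨y, -, rfl⟩ := Finset.mem_image.1 ha
  exact y.2

theorem coeff_mem_of_irreducible_dvd (F₀ : Subfield F) (r : ℕ) (hr : r.Prime)
    (hq : Fintype.card F = Nat.card ↥F₀ ^ r) (g : Polynomial F) (hg : Irreducible g)
    (hmonic : g.Monic) (hdvd : g ∣ Polynomial.X ^ r - 1) (i : ℕ) : g.coeff i ∈ F₀ := by
  classical
  haveI : Fintype ↥F₀ := Fintype.ofFinite _
  obtain ⟨p, hchar⟩ := CharP.exists F
  haveI := hchar
  haveI hpF : Fact p.Prime := ⟨CharP.char_is_prime F p⟩
  haveI : CharP ↥F₀ p := RingHom.charP F₀.subtype Subtype.val_injective p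
  obtain ⟨e, hp, he⟩ := FiniteField.card ↥F₀ p
  have hq₀ : Nat.card ↥F₀ = p ^ (e : ℕ) := by rw [Nat.card_eq_fintype_card]; exact he
  apply mem_subfield_of_pow_card_eq
  rw [hq₀]
  -- the field `E = F[X]/(g)` and the root `ζ`
  haveI : Fact (Irreducible g) := ⟨hg⟩
  haveI : CharP (AdjoinRoot g) p :=
    charP_of_injective_algebraMap (algebraMap F (AdjoinRoot g)).injective p
  have hζg : Polynomial.aeval (AdjoinRoot.root g) g = 0 := by
    rw [AdjoinRoot.aeval_eq]; exact AdjoinRoot.mk_self
  have hζr : (AdjoinRoot.root g) ^ r = 1 := by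
    obtain ⟨c, hc⟩ := hdvd
    have h1 := congrArg (Polynomial.aeval (AdjoinRoot.root g)) hc
    rw [map_mul, hζg, zero_mul] at h1
    simpa [sub_eq_zero] using h1
  -- Frobenius
  have hfrob : ∀ n : ℕ, Polynomial.aeval ((AdjoinRoot.root g) ^ p ^ n)
      (g.map (iterateFrobenius F p n)) = 0 := by
    intro n
    have h1 : iterateFrobenius (AdjoinRoot g) p n (Polynomial.aeval (AdjoinRoot.root g) g) = 0 := by
      rw [hζg, map_zero]
    rw [Polynomial.aeval_def, Polynomial.hom_eval₂] at h1
    rw [Polynomial.aeval_def, Polynomial.eval₂_map]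
    have hcomp : (iterateFrobenius (AdjoinRoot g) p n).comp (algebraMap F (AdjoinRoot g))
        = (algebraMap F (AdjoinRoot g)).comp (iterateFrobenius F p n) := by
      ext a
      simp [iterateFrobenius_def]
    rw [hcomp, iterateFrobenius_def] at h1
    exact h1
  have hqF : Fintype.card F = p ^ ((e : ℕ) * r) := by rw [hq, hq₀, pow_mul]
  have hmapq : g.map (iterateFrobenius F p ((e : ℕ) * r)) = g := by
    ext j
    rw [Polynomial.coeff_map, iterateFrobenius_def, ← hqF, FiniteField.pow_card]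
  have h2 : Polynomial.aeval ((AdjoinRoot.root g) ^ p ^ ((e : ℕ) * r)) g = 0 := by
    have h1 := hfrob ((e : ℕ) * r)
    rwa [hmapq] at h1
  have hpow : (AdjoinRoot.root g) ^ p ^ ((e : ℕ) * r) = (AdjoinRoot.root g) ^ p ^ (e : ℕ) := by
    have hmod : (p ^ (e : ℕ)) ^ r ≡ p ^ (e : ℕ) [MOD r] := by
      haveI : Fact r.Prime := ⟨hr⟩
      rw [← ZMod.natCast_eq_natCast_iff]
      push_cast
      exact ZMod.pow_card _
    have hle : p ^ (e : ℕ) ≤ (p ^ (e : ℕ)) ^ r := Nat.le_self_pow hr.ne_zero _
    obtain ⟨k, hk⟩ := (Nat.modEq_iff_dvd' hle).1 hmod.symm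
    have h3 : (p ^ (e : ℕ)) ^ r = p ^ (e : ℕ) + r * k := by omega
    rw [pow_mul, h3, pow_add, pow_mul, hζr, one_pow, mul_one]
  rw [hpow] at h2
  have h3 := hfrob (e : ℕ)
  have hmin : g = minpoly F ((AdjoinRoot.root g) ^ p ^ (e : ℕ)) :=
    minpoly.eq_of_irreducible_of_monic hg h2 hmonic
  have hdvd2 : g ∣ g.map (iterateFrobenius F p (e : ℕ)) := by
    have h4 := minpoly.dvd F _ h3
    rw [← hmin] at h4
    exact h4
  have hmonic2 : (g.map (iterateFrobenius F p (e : ℕ))).Monic := hmonic.map _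
  have heq : g.map (iterateFrobenius F p (e : ℕ)) = g :=
    Polynomial.eq_of_monic_of_dvd_of_natDegree_le hmonic hmonic2 hdvd2
      (by rw [hmonic.natDegree_map])
  have h5 := congrArg (fun f => f.coeff i) heq
  simp only [Polynomial.coeff_map, iterateFrobenius_def] at h5
  exact h5

end Cfsg.Agent.H82.Sub
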