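import Mathlib

set_option autoImplicit false

/-!
Piece S5965-STRUCT2 of the team project S5965 (helper99): a matrix with a basis of cyclic
vectors whose annihilating polynomials have coefficients in a subfield `F₀` is similar to a
matrix over `F₀`.
-/

open scoped MatrixGroups

namespace Cfsg.Agent.H82.Sub

variable {F : Type*} [Field F] [Fintype F]

theorem exists_rational_form (F₀ : Subfield F) (n : ℕ) (y : Matrix (Fin n) (Fin n) F)
    (m : ℕ) (w : Fin m → (Fin n → F)) (g : Fin m → Polynomial F)
    (hg : ∀ s, (g s).Monic ∧ (∀ i, (g s).coeff i ∈ F₀) ∧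
      Polynomial.aeval (Matrix.toLin' y : Module.End F (Fin n → F)) (g s) (w s) = 0)
    (hli : LinearIndependent F (fun p : (s : Fin m) × Fin (g s).natDegree =>
      ((Matrix.toLin' y : Module.End F (Fin n → F)) ^ (p.2 : ℕ)) (w p.1)))
    (hspan : Submodule.span F (Set.range (fun p : (s : Fin m) × Fin (g s).natDegree =>
      ((Matrix.toLin' y : Module.End F (Fin n → F)) ^ (p.2 : ℕ)) (w p.1))) = ⊤) :
    ∃ (Q : Matrix (Fin n) (Fin n) F) (Y₀ : Matrix (Fin n) (Fin n) ↥F₀), IsUnit Q.det ∧
      y * Q = Q * Y₀.map F₀.subtype := by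
  classical
  set T : Module.End F (Fin n → F) := Matrix.toLin' y with hT
  let b : Module.Basis ((s : Fin m) × Fin (g s).natDegree) F (Fin n → F) :=
    Module.Basis.mk hli (by rw [hspan])
  have hb : ∀ c : (s : Fin m) × Fin (g s).natDegree, b c = (T ^ (c.2 : ℕ)) (w c.1) :=
    fun c => Module.Basis.mk_apply _ _ c
  have hcard : Fintype.card ((s : Fin m) × Fin (g s).natDegree) = Fintype.card (Fin n) := by
    rw [← Module.finrank_eq_card_basis b, Module.finrank_fin_fun, Fintype.card_fin]
  let e : Fin n ≃ ((s : Fin m) × Fin (g s).natDegree) := Fintype.equivOfCardEq hcard.symm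
  -- the matrix of `T` in the basis `b` has entries in `F₀`
  have hmem : ∀ c c' : (s : Fin m) × Fin (g s).natDegree, b.repr (T (b c)) c' ∈ F₀ := by
    rintro ⟨s, i⟩ c'
    by_cases hi : (i : ℕ) + 1 < (g s).natDegree
    · have h1 : T (b ⟨s, i⟩) = b ⟨s, ⟨(i : ℕ) + 1, hi⟩⟩ := by
        rw [hb, hb]
        show T ((T ^ (i : ℕ)) (w s)) = (T ^ ((i : ℕ) + 1)) (w s)
        rw [pow_succ']; rfl
      rw [h1, Module.Basis.repr_self, Finsupp.single_apply]
      split_ifs
      · exact F₀.one_mem
      · exact F₀.zero_mem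
    · have hd : (i : ℕ) + 1 = (g s).natDegree := by have := i.2; omega
      have h1 : T (b ⟨s, i⟩)
          = - ∑ j : Fin (g s).natDegree, (g s).coeff (j : ℕ) • b ⟨s, j⟩ := by
        have h0 := (hg s).2.2
        have hsum : Polynomial.aeval T (g s) (w s)
            = (T ^ (g s).natDegree) (w s)
              + ∑ j ∈ Finset.range (g s).natDegree, (g s).coeff j • (T ^ j) (w s) := by
          conv_lhs => rw [(hg s).1.as_sum]
          simp [Module.algebraMap_end_apply]
        rw [hsum] at h0
        have h2 : (T ^ (g s).natDegree) (w s)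
            = - ∑ j ∈ Finset.range (g s).natDegree, (g s).coeff j • (T ^ j) (w s) :=
          eq_neg_of_add_eq_zero_left h0
        have h3 : T ((T ^ (i : ℕ)) (w s)) = (T ^ (g s).natDegree) (w s) := by
          have h4 : (T ^ ((i : ℕ) + 1)) (w s) = T ((T ^ (i : ℕ)) (w s)) := by
            rw [pow_succ']; rfl
          rw [← h4]
          exact congrArg (fun k => (T ^ k) (w s)) hd
        rw [hb]
        show T ((T ^ (i : ℕ)) (w s)) = _
        rw [h3, h2, Finset.sum_range]
        congr 1
        refine Finset.sum_congr rfl fun j _ => ?_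
        rw [hb]
      rw [h1, map_neg, map_sum, Finsupp.neg_apply, Finsupp.finset_sum_apply]
      refine F₀.neg_mem (F₀.sum_mem fun j _ => ?_)
      rw [map_smul, Module.Basis.repr_self, Finsupp.smul_apply, Finsupp.single_apply, smul_eq_mul]
      refine F₀.mul_mem ((hg s).2.1 _) ?_
      split_ifs
      · exact F₀.one_mem
      · exact F₀.zero_mem
  let Y₀' : Matrix ((s : Fin m) × Fin (g s).natDegree) ((s : Fin m) × Fin (g s).natDegree) ↥F₀ :=
    fun c' c => ⟨b.repr (T (b c)) c', hmem c c'⟩
  let Q : Matrix (Fin n) ((s : Fin m) × Fin (g s).natDegree) F := fun k c => b c k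
  have hrel : y * Q = Q * Y₀'.map F₀.subtype := by
    ext k c
    rw [Matrix.mul_apply, Matrix.mul_apply]
    have h1 : T (b c) = ∑ c' : (s : Fin m) × Fin (g s).natDegree, b.repr (T (b c)) c' • b c' :=
      (b.sum_repr _).symm
    have h2 := congrFun h1 k
    rw [Finset.sum_apply] at h2
    have h3 : (T (b c)) k = ∑ l, y k l * b c l := by
      rw [hT, Matrix.toLin'_apply]
      rfl
    rw [← h3, h2]
    refine Finset.sum_congr rfl fun c' _ => ?_
    show b.repr (T (b c)) c' * b c' k = b c' k * b.repr (T (b c)) c'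
    exact mul_comm _ _
  refine ⟨Q.submatrix id e, Y₀'.submatrix e e, ?_, ?_⟩
  · rw [← Matrix.isUnit_iff_isUnit_det, ← Matrix.linearIndependent_cols_iff_isUnit]
    have hcol : (Q.submatrix id e).col = fun j => b (e j) := by
      ext j k; rfl
    rw [hcol]
    exact b.linearIndependent.comp e e.injective
  · have h1 : y * Q.submatrix id e = (y * Q).submatrix id e := by
      ext k j
      simp [Matrix.mul_apply]
    have h2 : Q.submatrix id e * (Y₀'.submatrix e e).map F₀.subtype
        = (Q * Y₀'.map F₀.subtype).submatrix id e := by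
      ext k j
      simp only [Matrix.mul_apply, Matrix.submatrix_apply, Matrix.map_apply, id]
      exact Equiv.sum_comp e (fun c' => Q k c' * F₀.subtype (Y₀' c' (e j)))
    rw [h1, h2, hrel]

end Cfsg.Agent.H82.Sub
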