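import Mathlib
import Cfsg.Prelude.Def_Characters
import Cfsg.Agent.H82.TwoDegB

/-!
# Groups with two character degrees, part C (helper82)

* `stab_le_centralizer` : the stabilizer of a non-invariant linear character of `A`
  centralizes `A`;
* `exists_abelian_index` : if `A` is not central, `G` has an abelian normal subgroup of index
  `m` containing `G'`.
-/

set_option autoImplicit false
set_option linter.style.haveILetI false

namespace Cfsg.Agent.H82

open Cfsg Cfsg.Agent.H4 Cfsg.Agent.Clifford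
open scoped ComplexConjugate commutatorElement

universe u

section TwoDegC

variable {G : Type u} [Group G] (A : Subgroup G) [hA : A.Normal]

/-- The stabilizer of a non-invariant linear character of `A` centralizes `A`. -/
theorem stab_le_centralizer [Finite G] (m : ℕ)
    (hcd : ∀ χ : IrrCharacter G, charDegree χ.1 = 1 ∨ charDegree χ.1 = m)
    (hcop : Nat.Coprime (Nat.card A) m) (hcop2 : Nat.Coprime (Nat.card A) A.index)
    (hab : ∀ a ∈ A, ∀ b ∈ A, a * b = b * a) (lam : A →* ℂˣ) (hne : stab A lam ≠ ⊤) :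
    ∀ s ∈ stab A lam, ∀ a ∈ A, s * a = a * s := by
  intro s hs
  by_contra hcon
  push Not at hcon
  obtain ⟨a₀, ha₀, hsa₀⟩ := hcon
  have hcomm := commutator_centralizes A m hcd hcop hab
  have hδmem : ∀ a : A, s * a * s⁻¹ * (a : G)⁻¹ ∈ A :=
    fun a => A.mul_mem (hA.conj_mem a a.2 s) (A.inv_mem a.2)
  let δ : A →* A :=
    { toFun := fun a => ⟨s * a * s⁻¹ * (a : G)⁻¹, hδmem a⟩
      map_one' := by apply Subtype.ext; simp
      map_mul' := by
        intro a b
        apply Subtype.ext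
        show s * ((a : G) * b) * s⁻¹ * ((a : G) * b)⁻¹ =
          (s * a * s⁻¹ * (a : G)⁻¹) * (s * b * s⁻¹ * (b : G)⁻¹)
        have h := hab _ (A.inv_mem a.2) _ (hδmem b)
        calc s * ((a : G) * b) * s⁻¹ * ((a : G) * b)⁻¹
            = s * a * s⁻¹ * ((s * b * s⁻¹ * (b : G)⁻¹) * (a : G)⁻¹) := by group
          _ = s * a * s⁻¹ * ((a : G)⁻¹ * (s * b * s⁻¹ * (b : G)⁻¹)) := by rw [h]
          _ = _ := by group }
  have hδ : ∀ a : A, ((δ a : A) : G) = s * a * s⁻¹ * (a : G)⁻¹ := fun a => rfl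
  have hequiv : ∀ (g : G) (a : A), δ ⟨g * a * g⁻¹, hA.conj_mem a a.2 g⟩ =
      ⟨g * (δ a : A) * g⁻¹, hA.conj_mem _ (δ a).2 g⟩ := by
    intro g a
    apply Subtype.ext
    show s * (g * a * g⁻¹) * s⁻¹ * (g * a * g⁻¹)⁻¹ = g * (s * a * s⁻¹ * (a : G)⁻¹) * g⁻¹
    have hcm : g⁻¹ * s * g * s⁻¹ ∈ commutator G := by
      have : g⁻¹ * s * g * s⁻¹ = ⁅g⁻¹, s⁆ := by rw [commutatorElement_def]; group
      rw [this, commutator_def]
      exact Subgroup.commutator_mem_commutator (Subgroup.mem_top _) (Subgroup.mem_top _)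
    have hc := hcomm _ hcm _ (hA.conj_mem a a.2 s)
    have h1 : s * g * a * g⁻¹ * s⁻¹ * g = g * s * a * s⁻¹ := by
      calc s * g * a * g⁻¹ * s⁻¹ * g
          = g * ((g⁻¹ * s * g * s⁻¹) * (s * a * s⁻¹)) * (s * g⁻¹ * s⁻¹ * g) := by group
        _ = g * ((s * a * s⁻¹) * (g⁻¹ * s * g * s⁻¹)) * (s * g⁻¹ * s⁻¹ * g) := by rw [hc]
        _ = g * s * a * s⁻¹ := by group
    calc s * (g * a * g⁻¹) * s⁻¹ * (g * a * g⁻¹)⁻¹
        = (s * g * a * g⁻¹ * s⁻¹ * g) * (a : G)⁻¹ * g⁻¹ := by group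
      _ = g * s * a * s⁻¹ * (a : G)⁻¹ * g⁻¹ := by rw [h1]
      _ = _ := by group
  have hδ3 : ∀ a : A, δ (δ a) = 1 → δ a = 1 := by
    intro a h
    set b : G := ((δ a : A) : G) with hb
    have hbs : s * b = b * s := by
      have h' : s * b * s⁻¹ * b⁻¹ = 1 := congrArg Subtype.val h
      calc s * b = (s * b * s⁻¹ * b⁻¹) * (b * s) := by group
        _ = b * s := by rw [h', one_mul]
    have hsa : s * a * s⁻¹ = b * a := by rw [hb, hδ]; group
    have hpow : ∀ j : ℕ, s ^ j * a * (s ^ j)⁻¹ = b ^ j * a := by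
      intro j
      induction j with
      | zero => simp
      | succ j ih =>
        have hbj : s * b ^ j = b ^ j * s := Commute.pow_right hbs j
        calc s ^ (j + 1) * a * (s ^ (j + 1))⁻¹ = s * (s ^ j * a * (s ^ j)⁻¹) * s⁻¹ := by
              rw [pow_succ']; group
          _ = s * (b ^ j * a) * s⁻¹ := by rw [ih]
          _ = (s * b ^ j) * (a * s⁻¹) := by group
          _ = (b ^ j * s) * (a * s⁻¹) := by rw [hbj]
          _ = b ^ j * (s * a * s⁻¹) := by group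
          _ = b ^ j * (b * a) := by rw [hsa]
          _ = b ^ (j + 1) * a := by rw [pow_succ]; group
    have hk : s ^ A.index ∈ A := Subgroup.pow_index_mem A s
    have h1 : s ^ A.index * a * (s ^ A.index)⁻¹ = a := by
      have := hab _ hk _ a.2
      rw [this]; group
    have h2 : b ^ A.index = 1 := by
      have := hpow A.index
      rw [h1] at this
      exact mul_eq_right.mp this.symm
    have h3 : b ^ Nat.card A = 1 := by
      have h := pow_card_eq_one' (G := A) (x := δ a)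
      have h' : ((δ a ^ Nat.card A : A) : G) = 1 := by rw [h]; rfl
      rwa [Subgroup.coe_pow] at h'
    have h4 : orderOf b ∣ 1 := by
      have := Nat.dvd_gcd (orderOf_dvd_of_pow_eq_one h3) (orderOf_dvd_of_pow_eq_one h2)
      rwa [hcop2.gcd_eq_one] at this
    have h5 : b = 1 := orderOf_eq_one_iff.mp (Nat.dvd_one.mp h4)
    exact Subtype.ext h5
  have hδ4 : ∀ a : A, ∃ a' : A, δ a = δ (δ a') := by
    let r : δ.range → δ.range := fun b => ⟨δ b, ⟨b, rfl⟩⟩
    have hr : Function.Injective r := by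
      rintro ⟨b, a, rfl⟩ ⟨b', a', rfl⟩ h
      have h1 : δ (δ a) = δ (δ a') := congrArg Subtype.val h
      have h2 : δ (δ (a * a'⁻¹)) = 1 := by
        rw [map_mul, map_mul, map_inv, map_inv, h1, mul_inv_cancel]
      have h3 := hδ3 _ h2
      rw [map_mul, map_inv, mul_inv_eq_one] at h3
      exact Subtype.ext h3
    have hsur := Finite.surjective_of_injective hr
    intro a
    obtain ⟨⟨b, a', rfl⟩, hb⟩ := hsur ⟨δ a, ⟨a, rfl⟩⟩
    exact ⟨a', (congrArg Subtype.val hb).symm⟩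
  have hδ5 : ∀ a : A, lam (δ a) = 1 := by
    intro a
    have e : δ a = ⟨s * a * s⁻¹, hA.conj_mem a a.2 s⟩ * a⁻¹ := Subtype.ext rfl
    rw [e, map_mul, map_inv, (mem_stab A).mp hs a, mul_inv_cancel]
  have hδa₀ : δ ⟨a₀, ha₀⟩ ≠ 1 := by
    intro h
    apply hsa₀
    have h' : s * a₀ * s⁻¹ * a₀⁻¹ = 1 := congrArg Subtype.val h
    calc s * a₀ = (s * a₀ * s⁻¹ * a₀⁻¹) * (a₀ * s) := by group
      _ = a₀ * s := by rw [h', one_mul]
  have hx₀ : δ (δ ⟨a₀, ha₀⟩) ≠ 1 := fun h => hδa₀ (hδ3 _ h)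
  obtain ⟨μ, hμ⟩ := hom_sep (fun u v : A => Subtype.ext (hab u u.2 v v.2)) hx₀
  set ν : A →* ℂˣ := lam * μ.comp δ with hν
  have hνapp : ∀ a : A, ν a = lam a * μ (δ a) := fun a => rfl
  have hs_not : s ∉ stab A ν := by
    intro hsν
    have h1 := (mem_stab A).mp hsν ⟨a₀, ha₀⟩
    have h2 : ν (δ ⟨a₀, ha₀⟩) = 1 := by
      have e : δ ⟨a₀, ha₀⟩ =
          ⟨s * a₀ * s⁻¹, hA.conj_mem a₀ ha₀ s⟩ * (⟨a₀, ha₀⟩ : A)⁻¹ := Subtype.ext rfl
      rw [e, map_mul, map_inv, h1, mul_inv_cancel]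
    rw [hνapp, hδ5, one_mul] at h2
    exact hμ h2
  have hle : stab A ν ≤ stab A lam := by
    intro g hg
    rw [mem_stab]
    intro a
    obtain ⟨a', ha'⟩ := hδ4 a
    have hδf : δ (a * (δ a')⁻¹) = 1 := by
      rw [map_mul, map_inv, ha', mul_inv_cancel]
    have haf : a = (a * (δ a')⁻¹) * δ a' := by group
    have hconj_mul : (⟨g * a * g⁻¹, hA.conj_mem a a.2 g⟩ : A) =
        ⟨g * ((a * (δ a')⁻¹ : A) : G) * g⁻¹, hA.conj_mem _ (a * (δ a')⁻¹ : A).2 g⟩ *
          ⟨g * ((δ a' : A) : G) * g⁻¹, hA.conj_mem _ (δ a').2 g⟩ := by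
      apply Subtype.ext
      show g * (a : G) * g⁻¹ = (g * ((a * (δ a')⁻¹ : A) : G) * g⁻¹) * (g * ((δ a' : A) : G) * g⁻¹)
      have : (a : G) = ((a * (δ a')⁻¹ : A) : G) * ((δ a' : A) : G) := by
        conv_lhs => rw [haf]
        rfl
      rw [this]; group
    have hb1 : lam ⟨g * ((δ a' : A) : G) * g⁻¹, hA.conj_mem _ (δ a').2 g⟩ = 1 := by
      rw [← hequiv g a']; exact hδ5 _
    have hb2 : lam (δ a') = 1 := hδ5 a'
    have hf1 : lam ⟨g * ((a * (δ a')⁻¹ : A) : G) * g⁻¹, hA.conj_mem _ (a * (δ a')⁻¹ : A).2 g⟩ =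
        lam (a * (δ a')⁻¹) := by
      have h1 := (mem_stab A).mp hg (a * (δ a')⁻¹)
      rw [hνapp, hνapp, hequiv g (a * (δ a')⁻¹), hδf] at h1
      have e1 : (⟨g * ((1 : A) : G) * g⁻¹, hA.conj_mem _ (1 : A).2 g⟩ : A) = 1 := by
        apply Subtype.ext; simp
      rw [e1, map_one, mul_one, mul_one] at h1
      exact h1
    rw [hconj_mul, map_mul, hf1, hb1]
    conv_rhs => rw [haf, map_mul, hb2]
  have hidx1 := (stab_index_and_quot A m hcd hcop lam hne).1
  have hne' : stab A ν ≠ ⊤ := fun h => hs_not (by rw [h]; exact Subgroup.mem_top s)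
  have hidx2 := (stab_index_and_quot A m hcd hcop ν hne').1
  have hrel := Subgroup.relIndex_mul_index hle
  rw [hidx1, hidx2] at hrel
  have hm0 : m ≠ 0 := by rw [← hidx1]; exact Subgroup.index_ne_zero_of_finite
  have hrel1 : (stab A ν).relIndex (stab A lam) = 1 := by
    have : (stab A ν).relIndex (stab A lam) * m = 1 * m := by rw [hrel, one_mul]
    exact Nat.eq_of_mul_eq_mul_right (Nat.pos_of_ne_zero hm0) this
  exact hs_not (Subgroup.relIndex_eq_one.mp hrel1 hs)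

/-- If the abelian normal Hall subgroup `A` (of order prime to `m`) is not central, then `G` has
an abelian normal subgroup of index `m` containing `G'`. -/
theorem exists_abelian_index [Finite G] (m : ℕ)
    (hcd : ∀ χ : IrrCharacter G, charDegree χ.1 = 1 ∨ charDegree χ.1 = m)
    (hcop : Nat.Coprime (Nat.card A) m) (hcop2 : Nat.Coprime (Nat.card A) A.index)
    (hab : ∀ a ∈ A, ∀ b ∈ A, a * b = b * a) (hnc : ¬ A ≤ Subgroup.center G) :
    ∃ C : Subgroup G, C.Normal ∧ (∀ a ∈ C, ∀ b ∈ C, a * b = b * a) ∧ C.index = m ∧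
      commutator G ≤ C := by
  rw [SetLike.not_le_iff_exists] at hnc
  obtain ⟨a, ha, hac⟩ := hnc
  rw [Subgroup.mem_center_iff] at hac
  push Not at hac
  obtain ⟨g, hg⟩ := hac
  have hy : g * a * g⁻¹ * a⁻¹ ∈ A := A.mul_mem (hA.conj_mem a ha g) (A.inv_mem ha)
  have hy1 : (⟨g * a * g⁻¹ * a⁻¹, hy⟩ : A) ≠ 1 := by
    intro h
    have h' : g * a * g⁻¹ * a⁻¹ = 1 := congrArg Subtype.val h
    apply hg
    calc g * a = (g * a * g⁻¹ * a⁻¹) * (a * g) := by group
      _ = a * g := by rw [h', one_mul]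
  obtain ⟨lam, hlam⟩ := hom_sep (fun u v : A => Subtype.ext (hab u u.2 v v.2)) hy1
  have hgs : g ∉ stab A lam := by
    intro hgs
    apply hlam
    have e : (⟨g * a * g⁻¹ * a⁻¹, hy⟩ : A) =
        ⟨g * a * g⁻¹, hA.conj_mem a ha g⟩ * (⟨a, ha⟩ : A)⁻¹ := Subtype.ext rfl
    rw [e, map_mul, map_inv, (mem_stab A).mp hgs ⟨a, ha⟩, mul_inv_cancel]
  have hne : stab A lam ≠ ⊤ := fun h => hgs (by rw [h]; exact Subgroup.mem_top g)
  obtain ⟨hidx, hquot⟩ := stab_index_and_quot A m hcd hcop lam hne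
  have hcen := stab_le_centralizer A m hcd hcop hcop2 hab lam hne
  have hcomm := commutator_le_stab A m hcd hcop lam
  refine ⟨stab A lam, Cfsg.Agent.ThompsonDeg.normal_of_commutator_le _ hcomm, ?_, hidx, hcomm⟩
  intro c hc c' hc'
  set x := c * c' * c⁻¹ * c'⁻¹ with hx
  have hxA : x ∈ A := hquot c hc c' hc'
  have hxc : c * x = x * c := hcen c hc x hxA
  have hpow : ∀ j : ℕ, c ^ j * c' * (c ^ j)⁻¹ * c'⁻¹ = x ^ j := by
    intro j
    induction j with
    | zero => simp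
    | succ j ih =>
      have hxj : c * x ^ j = x ^ j * c := Commute.pow_right hxc j
      calc c ^ (j + 1) * c' * (c ^ (j + 1))⁻¹ * c'⁻¹
          = c * (c ^ j * c' * (c ^ j)⁻¹ * c'⁻¹) * (c' * c⁻¹ * c'⁻¹) := by
            rw [pow_succ']; group
        _ = (c * x ^ j) * (c' * c⁻¹ * c'⁻¹) := by rw [ih]
        _ = (x ^ j * c) * (c' * c⁻¹ * c'⁻¹) := by rw [hxj]
        _ = x ^ j * x := by rw [hx]; group
        _ = x ^ (j + 1) := (pow_succ x j).symm
  have hk : c ^ A.index ∈ A := Subgroup.pow_index_mem A c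
  have h1 : c' * c ^ A.index = c ^ A.index * c' := hcen c' hc' _ hk
  have h2 : x ^ A.index = 1 := by
    rw [← hpow, ← h1]
    group
  have h3 : x ^ Nat.card A = 1 := by
    have h := pow_card_eq_one' (G := A) (x := ⟨x, hxA⟩)
    have h' : (((⟨x, hxA⟩ : A) ^ Nat.card A : A) : G) = 1 := by rw [h]; rfl
    rwa [Subgroup.coe_pow] at h'
  have h4 : orderOf x ∣ 1 := by
    have := Nat.dvd_gcd (orderOf_dvd_of_pow_eq_one h3) (orderOf_dvd_of_pow_eq_one h2)
    rwa [hcop2.gcd_eq_one] at this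
  have h5 : x = 1 := orderOf_eq_one_iff.mp (Nat.dvd_one.mp h4)
  calc c * c' = (c * c' * c⁻¹ * c'⁻¹) * (c' * c) := by group
    _ = c' * c := by rw [← hx, h5, one_mul]

end TwoDegC

end Cfsg.Agent.H82
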