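import Mathlib
import Cfsg.Prelude.Def_Characters
import Cfsg.Agent.H82.TwoDegC
import Cfsg.Agent.S0176
import Cfsg.Agent.H4.Ito

/-!
# Groups with two character degrees, part D (helper82)

* `exists_hall_abelian` : if `cd(G) ⊆ {1, m}` (`m > 0`), `G` has an abelian normal Hall subgroup
  `A` of order prime to `m`, and `G` is nilpotent as soon as `A` is central (intersection of the
  normal `p`-complements given by Thompson's theorem, `p ∣ m`);
* `nilpotent_case` : the nilpotent case of Isaacs 12.5;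
* `nilpotent_derived` : the nilpotent case of Isaacs 12.6.
-/

set_option autoImplicit false
set_option linter.style.haveILetI false

namespace Cfsg.Agent.H82

open Cfsg Cfsg.Agent.H4 Cfsg.Agent.Clifford
open scoped ComplexConjugate commutatorElement

universe u

section TwoDegD

variable {G : Type u} [Group G]

theorem exists_hall_abelian [Finite G] (m : ℕ) (hm0 : 0 < m)
    (hcd : ∀ χ : IrrCharacter G, charDegree χ.1 = 1 ∨ charDegree χ.1 = m) :
    ∃ A : Subgroup G, A.Normal ∧ (∀ a ∈ A, ∀ b ∈ A, a * b = b * a) ∧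
      Nat.Coprime (Nat.card A) m ∧ Nat.Coprime (Nat.card A) A.index ∧
      (A ≤ Subgroup.center G → Group.IsNilpotent G) := by
  classical
  have hN : ∀ p : m.primeFactors, ∃ N : Subgroup G, N.Normal ∧ (Nat.card N).Coprime p ∧
      ∃ k : ℕ, N.index = (p : ℕ) ^ k := by
    intro p
    have hp := Nat.prime_of_mem_primeFactors p.2
    have hpm := Nat.dvd_of_mem_primeFactors p.2
    apply Cfsg.Agent.ThompsonDeg.thompson p hp
    intro χ hχ
    rcases hcd χ with h | h
    · exact absurd h hχ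
    · rw [h]; exact hpm
  choose N hNn hNc hNi using hN
  haveI : ∀ p, (N p).Normal := hNn
  let f : G →* ∀ p : m.primeFactors, G ⧸ N p := MonoidHom.pi (fun p => QuotientGroup.mk' (N p))
  have hker : ∀ p, f.ker ≤ N p := by
    intro p g hg
    have h1 : f g p = 1 := by rw [MonoidHom.mem_ker.mp hg]; rfl
    exact (QuotientGroup.eq_one_iff g).mp h1
  have hcopm : Nat.Coprime (Nat.card f.ker) m := by
    by_contra h
    obtain ⟨p, hp, h1, h2⟩ := Nat.Prime.not_coprime_iff_dvd.mp h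
    have hpm : p ∈ m.primeFactors := Nat.mem_primeFactors.mpr ⟨hp, h2, hm0.ne'⟩
    have h3 : p ∣ Nat.card (N ⟨p, hpm⟩) := dvd_trans h1 (Subgroup.card_dvd_of_le (hker ⟨p, hpm⟩))
    exact (Nat.Prime.coprime_iff_not_dvd hp).mp (hNc ⟨p, hpm⟩).symm h3
  have hcopi : Nat.Coprime (Nat.card f.ker) f.ker.index := by
    by_contra h
    obtain ⟨q, hq, h1, h2⟩ := Nat.Prime.not_coprime_iff_dvd.mp h
    have h3 : f.ker.index ∣ ∏ p : m.primeFactors, (N p).index := by
      rw [Subgroup.index_ker]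
      have := Subgroup.card_subgroup_dvd_card f.range
      rwa [Nat.card_pi] at this
    have h4 : q ∣ ∏ p : m.primeFactors, (N p).index := dvd_trans h2 h3
    obtain ⟨p, -, h5⟩ := (Nat.Prime.prime hq).exists_mem_finset_dvd h4
    obtain ⟨k, hk⟩ := hNi p
    rw [hk] at h5
    have h6 : q ∣ (p : ℕ) := hq.dvd_of_dvd_pow h5
    have h7 : q ∣ m := dvd_trans h6 (Nat.dvd_of_mem_primeFactors p.2)
    exact (Nat.Prime.not_coprime_iff_dvd.mpr ⟨q, hq, h1, h7⟩) hcopm
  haveI : f.ker.Normal := MonoidHom.normal_ker f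
  refine ⟨f.ker, MonoidHom.normal_ker f, comm_of_coprime_normal m hcd f.ker hcopm, hcopm, hcopi,
    ?_⟩
  intro hcen
  haveI : ∀ p : m.primeFactors, Group.IsNilpotent (G ⧸ N p) := by
    intro p
    haveI : Fact (p : ℕ).Prime := ⟨Nat.prime_of_mem_primeFactors p.2⟩
    obtain ⟨k, hk⟩ := hNi p
    have hpg : IsPGroup p (G ⧸ N p) :=
      IsPGroup.of_card (n := k) (by rw [← Subgroup.index_eq_card]; exact hk)
    exact hpg.isNilpotent
  exact Subgroup.isNilpotent_of_ker_le_center f hcen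

theorem nilpotent_case [Finite G] [Group.IsNilpotent G] (m : ℕ) (hm1 : m ≠ 1)
    (hcd : ∀ χ : IrrCharacter G, charDegree χ.1 = 1 ∨ charDegree χ.1 = m)
    (hm : ∃ χ : IrrCharacter G, charDegree χ.1 = m) :
    ∃ p e : ℕ, p.Prime ∧ m = p ^ e ∧ ∃ P A : Subgroup G, P.Normal ∧ A.Normal ∧ IsPGroup p P ∧
      (∀ a ∈ A, ∀ b ∈ A, a * b = b * a) ∧ P ⊓ A = ⊥ ∧ P ⊔ A = ⊤ := by
  classical
  obtain ⟨χ₀, hχ₀⟩ := hm
  obtain ⟨p, hp, hpm⟩ := Nat.exists_prime_and_dvd hm1
  haveI : Fact p.Prime := ⟨hp⟩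
  obtain ⟨P⟩ := (inferInstance : Nonempty (Sylow p G))
  have hPn : (P : Subgroup G).Normal := inferInstance
  obtain ⟨N, hNn, hNc, k, hNi⟩ := Cfsg.Agent.ThompsonDeg.thompson p hp (G := G) (fun χ hχ => by
    rcases hcd χ with h | h
    · exact absurd h hχ
    · rw [h]; exact hpm)
  haveI := hNn
  have hPN : (P : Subgroup G) ⊓ N = ⊥ := by
    apply (Subgroup.disjoint_of_coprime_natCard ?_).eq_bot
    obtain ⟨n, hn⟩ := IsPGroup.iff_card.mp P.isPGroup'
    rw [hn]
    exact Nat.Coprime.pow_left n hNc.symm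
  have hPnab : ¬ (∀ a ∈ (P : Subgroup G), ∀ b ∈ (P : Subgroup G), a * b = b * a) := by
    intro hab
    obtain ⟨n, ρ, hirr, hρ, hn, h1, hdeg⟩ := irr_rep χ₀
    haveI := hirr
    have h2 := Cfsg.Agent.H4.ito_dvd_index ρ (P : Subgroup G) hab
    rw [Module.finrank_fin_fun] at h2
    have h3 : p ∣ (P : Subgroup G).index := dvd_trans hpm (by rw [← hχ₀, hdeg]; exact h2)
    exact P.not_dvd_index h3
  have hQnab : ¬ ∀ x y : G ⧸ N, x * y = y * x := by
    intro hQ
    apply hPnab
    intro a ha b hb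
    have h1 : a * b * a⁻¹ * b⁻¹ ∈ N := by
      rw [← QuotientGroup.eq_one_iff]
      simp only [QuotientGroup.mk_mul, QuotientGroup.mk_inv]
      rw [hQ (QuotientGroup.mk a) (QuotientGroup.mk b)]; group
    have h2 : a * b * a⁻¹ * b⁻¹ ∈ (P : Subgroup G) :=
      Subgroup.mul_mem _ (Subgroup.mul_mem _ (Subgroup.mul_mem _ ha hb) (Subgroup.inv_mem _ ha))
        (Subgroup.inv_mem _ hb)
    have h4 : a * b * a⁻¹ * b⁻¹ = 1 := by
      have : a * b * a⁻¹ * b⁻¹ ∈ (P : Subgroup G) ⊓ N := ⟨h2, h1⟩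
      rw [hPN] at this; exact Subgroup.mem_bot.mp this
    calc a * b = (a * b * a⁻¹ * b⁻¹) * (b * a) := by group
      _ = b * a := by rw [h4, one_mul]
  have hex : ∃ β : IrrCharacter (G ⧸ N), charDegree β.1 ≠ 1 := by
    by_contra hcon
    push Not at hcon
    exact hQnab (Cfsg.Agent.S0855.comm_of_all_linear hcon)
  obtain ⟨β, hβ⟩ := hex
  have hβdvd : charDegree β.1 ∣ p ^ k := by
    have := charDegree_dvd_card β
    rwa [← Subgroup.index_eq_card, hNi] at this
  obtain ⟨e, -, he⟩ := (Nat.dvd_prime_pow hp).mp hβdvd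
  have hme : m = p ^ e := by
    rcases hcd (inflate N β) with h | h
    · rw [charDegree_inflate] at h; exact absurd h hβ
    · rw [charDegree_inflate, he] at h; exact h.symm
  have hNab : ∀ a ∈ N, ∀ b ∈ N, a * b = b * a :=
    comm_of_coprime_normal m hcd N (by rw [hme]; exact Nat.Coprime.pow_right e hNc)
  refine ⟨p, e, hp, hme, P, N, hPn, hNn, P.isPGroup', hNab, hPN, ?_⟩
  rw [← Subgroup.index_eq_one]
  have h1 : ((P : Subgroup G) ⊔ N).index ∣ (P : Subgroup G).index :=
    Subgroup.index_dvd_of_le le_sup_left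
  have h2 : ((P : Subgroup G) ⊔ N).index ∣ p ^ k := by
    rw [← hNi]; exact Subgroup.index_dvd_of_le le_sup_right
  have h3 : Nat.Coprime ((P : Subgroup G).index) (p ^ k) :=
    Nat.Coprime.pow_right k ((Nat.Prime.coprime_iff_not_dvd hp).mpr P.not_dvd_index).symm
  have := Nat.dvd_gcd h1 h2
  rw [h3.gcd_eq_one] at this
  exact Nat.dvd_one.mp this

theorem nilpotent_derived [Finite G] [Group.IsNilpotent G] (m : ℕ)
    (hcd : ∀ χ : IrrCharacter G, charDegree χ.1 = 1 ∨ charDegree χ.1 = m) :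
    ∀ a ∈ commutator G, ∀ b ∈ commutator G, a * b = b * a := by
  classical
  haveI := Fintype.ofFinite G
  have key : ∀ χ : IrrCharacter G, ∀ a ∈ commutator G, ∀ b ∈ commutator G,
      χ.1 (a * b * a⁻¹ * b⁻¹) = χ.1 1 := by
    intro χ a ha b hb
    rcases hcd χ with h | h
    · have hk := Cfsg.Agent.ThompsonDeg.commutator_le_irrKer χ
        (Cfsg.Agent.ThompsonDeg.one_of_charDegree h)
      have hmem : a * b * a⁻¹ * b⁻¹ ∈ commutator G :=
        Subgroup.mul_mem _ (Subgroup.mul_mem _ (Subgroup.mul_mem _ ha hb) (Subgroup.inv_mem _ ha))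
          (Subgroup.inv_mem _ hb)
      exact (mem_irrKer χ _).mp (hk hmem)
    · obtain ⟨H, lam, hχ⟩ := Cfsg.Agent.S0176.result χ.1 χ.2
      have hidx : H.index = m := by
        have h1 : χ.1 1 = (H.index : ℂ) := by rw [hχ, indFun_one_eq]; simp
        have h2 := irr_one_eq_charDegree χ
        rw [h] at h2
        have : (H.index : ℂ) = (m : ℂ) := by rw [← h2, h1]
        exact_mod_cast this
      have hle := taketa_le m hcd H hidx.le
      have hK : ∀ k ∈ ⁅commutator G, commutator G⁆, ∃ hk : k ∈ H, lam ⟨k, hk⟩ = 1 := by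
        have hle2 : ⁅commutator G, commutator G⁆ ≤ (lam.ker).map H.subtype := by
          rw [Subgroup.commutator_le]
          intro x hx y hy
          refine ⟨(⟨x, hle hx⟩ : H) * ⟨y, hle hy⟩ * (⟨x, hle hx⟩ : H)⁻¹ * (⟨y, hle hy⟩ : H)⁻¹,
            ?_, rfl⟩
          rw [SetLike.mem_coe, MonoidHom.mem_ker]
          simp only [map_mul, map_inv]
          rw [mul_comm (lam ⟨x, hle hx⟩), mul_inv_cancel_right, mul_inv_cancel]
        intro k hk
        obtain ⟨k', hk', rfl⟩ := hle2 hk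
        exact ⟨k'.2, hk'⟩
      have hmem : a * b * a⁻¹ * b⁻¹ ∈ ⁅commutator G, commutator G⁆ := by
        have := Subgroup.commutator_mem_commutator ha hb
        rwa [commutatorElement_def] at this
      rw [hχ]
      exact Cfsg.Agent.S0175.indFun_lin_of_mem H lam _ hK hmem
  intro a ha b hb
  have h1 : IsConj (a * b * a⁻¹ * b⁻¹) 1 := by
    rw [isConj_iff_irr]
    intro χ
    exact key χ a ha b hb
  have h2 := isConj_one_left.mp h1
  calc a * b = (a * b * a⁻¹ * b⁻¹) * (b * a) := by group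
    _ = b * a := by rw [h2, one_mul]

end TwoDegD

end Cfsg.Agent.H82
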